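import Mathlib
import Cfsg.Agent.Lib.Asch.Proj
import Cfsg.Agent.Lib.Char.Burnside

/-! Groups of isometries of a bilinear form: extension fields, invariant quadratic forms in
characteristic two, tensor factors, normal subgroups of symplectic type. -/

set_option autoImplicit false

namespace CfsgLib.Asch

open Cfsg Cfsg.Geo Matrix
open scoped MatrixGroups Kronecker

variable {ι : Type} [Fintype ι] [DecidableEq ι] {F : Type*} [Field F]
variable {ε : F} {f : (ι → F) → (ι → F) → F} {H : Subgroup (GL ι F)}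

theorem IsSesq.adj_smul' (hf : IsSesq (RingHom.id F) ε f) (c : F) (a : Matrix ι ι F) :
    adj (RingHom.id F) f (c • a) = c • adj (RingHom.id F) f a := hf.adj_smul c a

/-! ### Extension fields -/

theorem bilin_field [Fintype F] [Nonempty ι] (hf : IsSesq (RingHom.id F) ε f)
    (hs : H ≤ similarityGroup f) {r : ℕ} {K : Subalgebra F (Matrix ι ι F)} (hr : 2 ≤ r)
    (hK : IsFieldSubalgebra r K) (hadj : IsAdjointClosedFor f K) (hst : Stab H K) :
    (∃ (s : ℕ) (K₀ : Subalgebra F (Matrix ι ι F)), s.Prime ∧ IsFieldSubalgebra s K₀ ∧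
      IsSelfAdjointFor f K₀ ∧ Stab H K₀) ∨
    (IsFieldSubalgebra 2 K ∧ ¬ IsSelfAdjointFor f K) := by
  rw [hf.adjClosed_iff] at hadj
  let K₁ : Subalgebra F (Matrix ι ι F) :=
    { carrier := {k | k ∈ K ∧ adj (RingHom.id F) f k = k}
      mul_mem' := fun {a b} ha hb => ⟨K.mul_mem ha.1 hb.1, by
        rw [hf.adj_mul, ha.2, hb.2, hK.comm _ ha.1 _ hb.1]⟩
      add_mem' := fun {a b} ha hb => ⟨K.add_mem ha.1 hb.1, by rw [hf.adj_add, ha.2, hb.2]⟩
      algebraMap_mem' := fun c => ⟨K.algebraMap_mem c, by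
        rw [Algebra.algebraMap_eq_smul_one, hf.adj_smul', hf.adj_one]⟩ }
  have hinv : ∀ x ∈ K, ∀ y ∈ K, x * y = 1 → ∀ c : F, adj (RingHom.id F) f x = c • x →
      c • adj (RingHom.id F) f y = y := fun x hx y hy h c hc => by
    have := congrArg (adj (RingHom.id F) f) h
    rw [hf.adj_mul, hf.adj_one, hc, mul_smul_comm, ← smul_mul_assoc] at this
    rw [← mul_one (c • _), ← h, ← mul_assoc, this, one_mul]
  by_cases h1 : K₁ = ⊥
  · right
    have hsa : ∀ k ∈ K, adj (RingHom.id F) f k = k → ∃ c : F, k = c • 1 := fun k hk h =>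
      mem_bot_iff.1 (h1 ▸ (⟨hk, h⟩ : k ∈ K₁))
    obtain ⟨j, hj, hj'⟩ : ∃ j ∈ K, adj (RingHom.id F) f j ≠ j := by
      by_contra hc
      push Not at hc
      have : K = ⊥ := eq_bot_iff.2 fun k hk => mem_bot_iff.2 (hsa k hk (hc k hk))
      have h2 := hK.finrank_eq
      rw [this, Subalgebra.finrank_bot] at h2; omega
    refine ⟨⟨hK.comm, hK.inv, le_antisymm ?_ (hK.finrank_eq ▸ hr)⟩,
      fun h => hj' (hf.selfAdjoint_iff.1 h j hj)⟩
    have hd : j - adj (RingHom.id F) f j ∈ K := K.sub_mem hj (hadj j hj)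
    obtain ⟨y, hy, hdy⟩ := hK.inv _ hd (sub_ne_zero.2 hj'.symm)
    have hy' := hinv _ hd y hy hdy (-1) (by rw [hf.adj_sub, hf.adj_adj]; simp)
    have hle : Subalgebra.toSubmodule K ≤ Submodule.span F {1, j} := fun k hk => by
      have hk' : k - adj (RingHom.id F) f k ∈ K := K.sub_mem hk (hadj k hk)
      obtain ⟨c, hc⟩ := hsa _ (K.mul_mem hk' hy) (by
        rw [hf.adj_mul, hf.adj_sub, hf.adj_adj, hK.comm _ hk' _ hy]
        conv_rhs => rw [← hy']
        rw [neg_one_smul, neg_mul, ← mul_neg, neg_sub])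
      have h3 : k - adj (RingHom.id F) f k = c • (j - adj (RingHom.id F) f j) := by
        rw [← one_mul (j - _), ← smul_mul_assoc, ← hc, mul_assoc, hK.comm _ hy _ hd, hdy, mul_one]
      obtain ⟨c', hc'⟩ := hsa (k - c • j) (K.sub_mem hk (K.smul_mem hj c)) (by
        rw [hf.adj_sub, hf.adj_smul', smul_sub] at *
        linear_combination (norm := abel) -h3)
      exact Submodule.mem_span_pair.2 ⟨c', c, by rw [← hc']; abel⟩
    classical
    refine (Submodule.finrank_mono hle).trans ?_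
    rw [← Finset.coe_pair]
    exact (finrank_span_finset_le_card _).trans Finset.card_le_two
  · left
    have hK₁ : IsFieldSubalgebra (Module.finrank F K₁) K₁ :=
      ⟨fun x hx y hy => hK.comm x hx.1 y hy.1, fun x hx h0 => by
        obtain ⟨y, hy, h⟩ := hK.inv x hx.1 h0
        exact ⟨y, ⟨hy, by simpa using hinv x hx.1 y hy h 1 (by simpa using hx.2)⟩, h⟩, rfl⟩
    obtain ⟨s, hs', hd⟩ := Nat.exists_prime_and_dvd (one_lt_finrank_of_ne_bot h1).ne'
    obtain ⟨K₀, h2, h3⟩ := exists_subfield_of_dvd hK₁ hd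
    refine ⟨s, K₀, hs', h2, hf.selfAdjoint_iff.2 fun k hk => ((h3 k).1 hk).1.2,
      Stab.of_pow (K := K₁) (fun g hg a ha => ⟨hst g hg a ha.1, ?_⟩) h3⟩
    rw [hf.adj_cj (hs hg), ha.2]

/-- `f(kv, v) = 0` for `k` in a self-adjoint field and `f` alternating -/
theorem selfAdjoint_alt [Fintype F] [Nonempty ι] (hf : IsSymplecticForm f) {r : ℕ}
    {K : Subalgebra F (Matrix ι ι F)} (hK : IsFieldSubalgebra r K) (hsa : IsSelfAdjointFor f K) :
    ∀ k ∈ K, ∀ v, f (k *ᵥ v) v = 0 := by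
  intro k hk v
  by_cases h2 : (2 : F) = 0
  · let _ : Field K := (isField_of_isFieldSubalgebra hK).toField
    obtain ⟨j, hj⟩ := exists_sq_of_two (F := K) (by
      rw [← map_ofNat (algebraMap F K) 2, h2, map_zero]) ⟨k, hk⟩
    have : k = j * j := congrArg Subtype.val hj
    rw [this, ← mulVec_mulVec, hsa _ j.2, hf.alternating]
  · have := hsa k hk v v
    rw [hf.skew v] at this
    exact (mul_eq_zero.1 (show 2 * f (k *ᵥ v) v = 0 by linear_combination this)).resolve_left h2

/-! ### Quadratic forms in characteristic two -/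

/-- the quadratic form `v ↦ f(kv, v)` -/
def quadK (f : (ι → F) → (ι → F) → F) (k : Matrix ι ι F) (v : ι → F) : F := f (k *ᵥ v) v

omit [Fintype ι] [DecidableEq ι] in
theorem symm_of_two (h2 : (2 : F) = 0) (hf : IsSesq (RingHom.id F) ε f) :
    IsSesq (RingHom.id F) 1 f := by
  rcases hf.eps_eq with rfl | rfl
  · exact hf
  · rwa [show (1 : F) = -1 by linear_combination h2]

theorem quadK_polar (hf : IsSesq (RingHom.id F) 1 f) {k : Matrix ι ι F}
    (hk : k + adj (RingHom.id F) f k = 1) (u v : ι → F) :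
    QuadraticMap.polar (quadK f k) u v = f u v := by
  have : f u v = f u (k *ᵥ v) + f (k *ᵥ u) v := by
    rw [hf.adj_spec, ← hf.sesq0.add_right, ← add_mulVec, hk, one_mulVec]
  simp only [QuadraticMap.polar, quadK, mulVec_add, hf.add_left, hf.sesq0.add_right]
  rw [this, hf.symm.symm u]; ring

theorem quadK_nondeg (hf : IsSesq (RingHom.id F) 1 f) {k : Matrix ι ι F}
    (hk : k + adj (RingHom.id F) f k = 1) : IsNondegenerateQuadraticForm (quadK f k) := by
  have : QuadraticMap.polar (quadK f k) = f := by funext u v; exact quadK_polar hf hk u v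
  refine ⟨fun c v => ?_, this.symm ▸ hf.sesq0.bilin, this.symm ▸ hf.nondeg⟩
  rw [quadK, mulVec_smul, hf.smul_left, hf.sesq0.smul_right, quadK]; simp; ring

theorem quadK_eq (h2 : (2 : F) = 0) (hf : IsSymplecticForm f) {k k' : Matrix ι ι F}
    (hk : k + adj (RingHom.id F) f k = 1) (hk' : k' + adj (RingHom.id F) f k' = 1)
    (hc : k * k' = k' * k) : quadK f k = quadK f k' := by
  have hf' := symm_of_two h2 (isSesq_of_symp hf)
  funext v
  have h1 : adj (RingHom.id F) f (k * k') = 1 - k - k' + k * k' := by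
    rw [hf'.adj_mul, eq_sub_of_add_eq' hk, eq_sub_of_add_eq' hk', hc]; noncomm_ring
  have h3 := hf'.adj_spec (k * k') v v
  rw [h1, add_mulVec, sub_mulVec, sub_mulVec, one_mulVec, hf'.sesq0.add_right,
    hf'.sesq0.sub_right, hf'.sesq0.sub_right, hf.alternating, hf'.symm.symm v,
    hf'.symm.symm v, hf'.symm.symm v] at h3
  simp only [quadK]
  linear_combination h3 - f (k' *ᵥ v) v * h2

theorem half_cj (hf : IsSesq (RingHom.id F) ε f) {k : Matrix ι ι F}
    (hk : k + adj (RingHom.id F) f k = 1) {g : GL ι F} (hg : g ∈ similarityGroup f) :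
    cj g k + adj (RingHom.id F) f (cj g k) = 1 := by
  rw [hf.adj_cj hg, ← map_add, hk, map_one]

theorem fixes_quadK (h2 : (2 : F) = 0) (hf : IsSymplecticForm f)
    (hH : FixesForm (matrixSet H) f) {k : Matrix ι ι F} (hk : k + adj (RingHom.id F) f k = 1)
    (hc : ∀ g ∈ H, ∃ k', k' + adj (RingHom.id F) f k' = 1 ∧ k * k' = k' * k ∧
      cj g k * k' = k' * cj g k) : FixesQuadForm (matrixSet H) (quadK f k) := by
  rintro _ ⟨g, hg, rfl⟩ v
  obtain ⟨k', h1, h3, h4⟩ := hc g hg
  have := (quadK_eq h2 hf hk h1 h3).trans (quadK_eq h2 hf (half_cj (isSesq_of_symp hf) hk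
    (le_similarityGroup_of_fixes hH hg)) h1 h4).symm
  conv_lhs => rw [this]
  simp only [quadK, cj_mulVec, fixesForm_iff.1 hH g hg]

theorem exists_half (h2 : (2 : F) = 0) (hf : IsSymplecticForm f) :
    ∃ k : Matrix ι ι F, k + adj (RingHom.id F) f k = 1 := by
  have hf' := symm_of_two h2 (isSesq_of_symp hf)
  let e := Fintype.equivFin ι
  let U : Matrix ι ι F := Matrix.of fun i j => if e i < e j then gramMatrix f i j else 0
  have hT : (gramMatrix f)ᵀ = gramMatrix f := by simpa using hf'.gram_transpose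
  have hU : Uᵀ + U = gramMatrix f := by
    ext i j
    simp only [U, Matrix.add_apply, transpose_apply, of_apply]
    rcases lt_trichotomy (e i) (e j) with h | h | h
    · simp [h, h.not_gt]
    · obtain rfl := e.injective h
      simpa using (show 0 = gramMatrix f i i from (hf.alternating _).symm)
    · simpa [h, h.not_gt] using congrFun (congrFun hT i) j
  refine ⟨(gramMatrix f)⁻¹ * Uᵀ, ?_⟩
  rw [adj, transpose_mul, transpose_transpose, transpose_nonsing_inv, hT, mul_assoc, mul_assoc,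
    nonsing_inv_mul _ hf'.isUnit_det, mul_one, RingHom.coe_id, Matrix.map_id, ← mul_add, hU,
    nonsing_inv_mul _ hf'.isUnit_det]

/-- an invariant additive map with `D(cv) = c² D(v)` vanishes -/
theorem semi_eq_zero [Finite F] (h2 : (2 : F) = 0) (hι : 2 ≤ Fintype.card ι)
    (hH : ActsIrreducibly (matrixSet H)) {D : (ι → F) → F} (hadd : ∀ u v, D (u + v) = D u + D v)
    (hsmul : ∀ (c : F) v, D (c • v) = c ^ 2 * D v)
    (hinv : ∀ g ∈ H, ∀ v, D v = 0 → D ((g : Matrix ι ι F) *ᵥ v) = 0) (v : ι → F) : D v = 0 := by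
  let W : Submodule F (ι → F) :=
    { carrier := {v | D v = 0}
      add_mem' := fun {u v} hu hv => by
        rw [Set.mem_ofPred_eq] at hu hv ⊢; rw [hadd, hu, hv, add_zero]
      zero_mem' := by simpa using hsmul 0 0
      smul_mem' := fun c v hv => by
        rw [Set.mem_ofPred_eq] at hv ⊢; rw [hsmul, hv, mul_zero] }
  refine (show v ∈ W from (irred_iff.1 hH W hinv).resolve_left (fun h0 => ?_) ▸ Submodule.mem_top)
  obtain ⟨i, j, hij⟩ := Fintype.exists_pair_of_one_lt_card hι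
  obtain ⟨a, ha⟩ := exists_sq_of_two h2 (D (Pi.single i 1))
  obtain ⟨b, hb⟩ := exists_sq_of_two h2 (D (Pi.single j 1))
  have h1 : b • Pi.single i 1 + a • Pi.single j 1 ∈ W := by
    show D _ = 0
    rw [hadd, hsmul, hsmul, ha, hb]
    linear_combination (a * a * b * b) * h2
  rw [h0, Submodule.mem_bot] at h1
  have h3 : a = 0 := by simpa [hij] using congrFun h1 j
  have h4 : (Pi.single i 1 : ι → F) ∈ W := by
    show D _ = 0
    rw [ha, h3, mul_zero]
  rw [h0, Submodule.mem_bot] at h4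
  simpa using congrFun h4 i

/-- an invariant quadratic form is determined by its polar form -/
theorem quad_unique [Finite F] (hι : 2 ≤ Fintype.card ι) (hH : ActsIrreducibly (matrixSet H))
    {Q Q' : (ι → F) → F} (hQ : ∀ (c : F) v, Q (c • v) = c ^ 2 * Q v)
    (hQ' : ∀ (c : F) v, Q' (c • v) = c ^ 2 * Q' v)
    (hp : ∀ u v, QuadraticMap.polar Q u v = QuadraticMap.polar Q' u v)
    (h : FixesQuadForm (matrixSet H) Q) (h' : FixesQuadForm (matrixSet H) Q') : Q = Q' := by
  funext v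
  by_cases h2 : (2 : F) = 0
  · refine sub_eq_zero.1 (semi_eq_zero h2 hι hH (D := fun v => Q v - Q' v) (fun u v => ?_)
      (fun c v => by rw [hQ, hQ', mul_sub]) (fun g hg v hv => ?_) v)
    · have := hp u v
      simp only [QuadraticMap.polar] at this
      linear_combination this
    · rwa [h _ ⟨g, hg, rfl⟩, h' _ ⟨g, hg, rfl⟩]
  · exact mul_left_cancel₀ h2 (by rw [← polar_self hQ, ← polar_self hQ', hp])

/-- a pair of totally singular subspaces: the projection `e` has `e + e* = 1` -/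
theorem half_of_pair (hf : IsSesq (RingHom.id F) ε f) {k : ℕ} {D : Fin 2 → Submodule F (ι → F)}
    (hD : IsMDecomposition k D) (hts : ∀ i, IsTotallySingularFor f (D i))
    (hle : H ≤ decompositionStabilizer D) :
    ∃ e : Matrix ι ι F, e + adj (RingHom.id F) f e = 1 ∧ (∀ g ∈ H, cj g e * e = e * cj g e) ∧
      ∀ i, ∀ v ∈ D i, quadK f e v = 0 := by
  obtain ⟨e, h1, h2, h3, h4⟩ := exists_proj_of_decomp hD
  have hee : e * e = e := matrix_ext_mulVec fun v => by rw [← mulVec_mulVec, h3 _ (h1 v)]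
  refine ⟨e, ?_, fun g hg => ?_, Fin.forall_fin_two.2 ⟨fun v hv => ?_, fun v hv => ?_⟩⟩
  · rw [hf.adj_eq (b := 1 - e), add_sub_cancel]
    intro u v
    have e1 := hts 0 _ (h1 u) _ (h1 v)
    have e2 := hts 1 _ (h2 u) _ (h2 v)
    rw [sub_mulVec, one_mulVec]
    rw [hf.sesq0.sub_left, hf.sesq0.sub_right (e *ᵥ u)] at e2
    linear_combination e1 - e2
  · obtain ⟨τ, hτ⟩ := hle hg
    have hm : ∀ i, ∀ v ∈ D i, (g : Matrix ι ι F) *ᵥ v ∈ D (τ i) := fun i v hv =>
      hτ i ▸ ⟨v, hv, rfl⟩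
    have key : ∀ v, e *ᵥ (g : Matrix ι ι F) *ᵥ v =
        e *ᵥ g *ᵥ (e *ᵥ v) + e *ᵥ g *ᵥ (v - e *ᵥ v) := fun v => by
      rw [← mulVec_add, ← mulVec_add, add_sub_cancel]
    have : cj g e = e ∨ cj g e = 1 - e := by
      have h01 : τ 0 ≠ τ 1 := τ.injective.ne (by decide)
      rw [cj_eq_iff, cj_eq_iff]
      by_cases h0 : τ 0 = 0
      · have h1' : τ 1 = 1 := by omega
        refine Or.inl (matrix_ext_mulVec fun v => ?_)
        have a1 := hm 0 _ (h1 v)
        have a2 := hm 1 _ (h2 v)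
        rw [h0] at a1; rw [h1'] at a2
        rw [← mulVec_mulVec, ← mulVec_mulVec, key v, h3 _ a1, h4 _ a2, add_zero]
      · have h0' : τ 0 = 1 := by omega
        have h1' : τ 1 = 0 := by omega
        refine Or.inr (matrix_ext_mulVec fun v => ?_)
        have a1 := hm 0 _ (h1 v)
        have a2 := hm 1 _ (h2 v)
        rw [h0'] at a1; rw [h1'] at a2
        rw [← mulVec_mulVec, ← mulVec_mulVec, sub_mulVec, one_mulVec, key v, h4 _ a1, h3 _ a2,
          zero_add, mulVec_sub, sub_sub_cancel]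
    rcases this with h | h <;> rw [h]
    rw [sub_mul, mul_sub, one_mul, mul_one]
  · rw [quadK, h3 v hv, hts 0 v hv v hv]
  · rw [quadK, h4 v hv, hf.sesq0.zero_left]

/-- a non-self-adjoint field in characteristic two contains `k` with `k + k* = 1` -/
theorem half_of_field (h2 : (2 : F) = 0) (hf : IsSesq (RingHom.id F) ε f) {r : ℕ}
    {K : Subalgebra F (Matrix ι ι F)} (hK : IsFieldSubalgebra r K) (hadj : IsAdjointClosedFor f K)
    (hsa : ¬ IsSelfAdjointFor f K) : ∃ k ∈ K, k + adj (RingHom.id F) f k = 1 := by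
  rw [hf.adjClosed_iff] at hadj
  rw [hf.selfAdjoint_iff] at hsa
  push Not at hsa
  obtain ⟨j, hj, hj'⟩ := hsa
  have hd : j + adj (RingHom.id F) f j ∈ K := K.add_mem hj (hadj j hj)
  obtain ⟨y, hy, hdy⟩ := hK.inv _ hd (fun h => hj' (by
    rw [eq_neg_of_add_eq_zero_right h, ← neg_one_smul F j,
      show (-1 : F) = 1 by linear_combination -h2, one_smul]))
  have hy' : adj (RingHom.id F) f y = y := by
    have := congrArg (adj (RingHom.id F) f) hdy
    rw [hf.adj_mul, hf.adj_one, hf.adj_add, hf.adj_adj, add_comm] at this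
    rw [← mul_one (adj _ f y), ← hdy, ← mul_assoc, this, one_mul]
  refine ⟨j * y, K.mul_mem hj hy, ?_⟩
  rw [hf.adj_mul, hy', hK.comm y hy _ (hadj j hj), ← add_mul, hdy]

/-! ### Tensor products -/

/-- under `NoComm`, commuting skew-adjoint elements are scalar -/
theorem NoComm.skew (hc : NoComm f H) (hf : IsSesq (RingHom.id F) ε f)
    (hs : H ≤ similarityGroup f)
    (h : ∀ a b, adj (RingHom.id F) f a = -a → adj (RingHom.id F) f b = -b → a * b = b * a)
    {a : Matrix ι ι F} (ha : adj (RingHom.id F) f a = -a) : ∃ c : F, a = c • 1 := by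
  let S : Set (Matrix ι ι F) := {a | adj (RingHom.id F) f a = -a}
  have hS : Stab H S := fun g hg a ha => by
    show adj _ f _ = _
    rw [hf.adj_cj (hs hg), show adj (RingHom.id F) f a = -a from ha, map_neg]
  have := hc _ hS.centralizer.ctr (hf.adjClosed_ctr (hf.adjClosed_iff.2 fun k hk => ?_))
    (ctr_comm _)
  · refine mem_bot_iff.1 (this ▸ mem_ctr.2 ⟨fun b hb => h b a hb ha, fun b hb => ?_⟩)
    exact (hb a ha).symm
  · intro s hs
    have h1 := congrArg (adj (RingHom.id F) f) (hk s hs)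
    rw [hf.adj_mul, hf.adj_mul, show adj (RingHom.id F) f s = -s from hs] at h1
    simpa using h1.symm

theorem not_noComm_two {f : (Fin 2 → F) → (Fin 2 → F) → F} (hf : IsSesq (RingHom.id F) 1 f)
    (h2 : (2 : F) ≠ 0) {H : Subgroup (GL (Fin 2) F)} (hs : H ≤ similarityGroup f) :
    ¬ NoComm f H := by
  intro hc
  have hT : (gramMatrix f)ᵀ = gramMatrix f := by simpa using hf.gram_transpose
  have hu := hf.isUnit_det
  have hJ : (J2 F)ᵀ = -J2 F := by ext i j; fin_cases i <;> fin_cases j <;> simp [J2]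
  have hj : adj (RingHom.id F) f ((gramMatrix f)⁻¹ * J2 F) = -((gramMatrix f)⁻¹ * J2 F) := by
    rw [adj, transpose_mul, transpose_nonsing_inv, hT, hJ, mul_assoc, mul_assoc,
      nonsing_inv_mul _ hu]; simp
  have key : ∀ a, adj (RingHom.id F) f a = -a → ∃ c : F, a = c • ((gramMatrix f)⁻¹ * J2 F) := by
    intro a ha
    have h1 := hf.transpose_mul_gram a
    rw [ha, RingHom.coe_id, Matrix.map_id, ← hT, ← transpose_mul, hT, mul_neg] at h1
    refine ⟨(gramMatrix f * a) 0 1, ?_⟩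
    rw [← mul_smul_comm, ← nonsing_inv_mul_cancel_left _ a hu]
    congr 1
    rw [nonsing_inv_mul_cancel_left _ a hu]
    have e : ∀ i j, (gramMatrix f * a) j i = -(gramMatrix f * a) i j := fun i j =>
      congrFun (congrFun h1 i) j
    have e0 : ∀ i, (gramMatrix f * a) i i = 0 := fun i =>
      (mul_eq_zero.1 (show 2 * (gramMatrix f * a) i i = 0 by
        linear_combination e i i)).resolve_left h2
    ext i j
    fin_cases i <;> fin_cases j <;> simp [J2, e0, e 0 1]
  obtain ⟨c, hc⟩ := hc.skew hf hs (fun a b ha hb => by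
    obtain ⟨c, rfl⟩ := key a ha
    obtain ⟨d, rfl⟩ := key b hb
    simp only [smul_mul_smul_comm, mul_comm c d]) hj
  rw [hc, hf.adj_smul', hf.adj_one, ← neg_smul] at hj
  have h5 : c = -c := by simpa using congrFun (congrFun hj 0) 0
  have h3 : c = 0 := (mul_eq_zero.1 (show 2 * c = 0 by linear_combination h5)).resolve_left h2
  have h4 := congrArg (gramMatrix f * ·) hc
  simp only [mul_nonsing_inv_cancel_left _ _ hu, h3, zero_smul, mul_zero] at h4
  simpa [J2] using congrFun (congrFun h4 0) 1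

section tensor

variable {n₁ n₂ : ℕ} {e : ι ≃ Fin n₁ × Fin n₂} {P : GL ι F}
  {f₁ : (Fin n₁ → F) → (Fin n₁ → F) → F} {f₂ : (Fin n₂ → F) → (Fin n₂ → F) → F} {ε₁ ε₂ : F}

theorem TensorData.three_le (hf : IsSesq (RingHom.id F) ε f) (hs : H ≤ similarityGroup f)
    (hc : NoComm f H) (h2 : (2 : F) ≠ 0) (h : TensorData (RingHom.id F) f H e P f₁ f₂ 1 ε₂) :
    3 ≤ n₁ := by
  refine lt_of_le_of_ne h.two_le₁ ?_
  rintro rfl
  exact not_noComm_two h.sesq₁ h2 (h.projL_le hs) (h.noComm hf hc)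

theorem TensorData.symp_of_two [Finite F] (h2 : (2 : F) = 0) (hs : H ≤ similarityGroup f)
    (hirr : ActsIrreducibly (matrixSet H))
    (h : TensorData (RingHom.id F) f H e P f₁ f₂ ε₁ ε₂) : IsSymplecticForm f₁ :=
  symplectic_of_symm_of_two h2 (by simpa using h.two_le₁)
    (projL_irred hirr h.le (by have := h.two_le₂; omega)) (symm_of_two h2 h.sesq₁).symm
    (h.projL_le hs)

/-- in characteristic two the group fixes a quadratic form vanishing on pure tensors -/
theorem TensorData.quad_of_two [Finite F] (h2 : (2 : F) = 0) (hf : IsSymplecticForm f)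
    (hH : FixesForm (matrixSet H) f) (hirr : ActsIrreducibly (matrixSet H))
    (h : TensorData (RingHom.id F) f H e P f₁ f₂ ε₁ ε₂) :
    ∃ k, k + adj (RingHom.id F) f k = 1 ∧ FixesQuadForm (matrixSet H) (quadK f k) ∧
      ∀ (x₁ : Fin n₁ → F) (x₂ : Fin n₂ → F), quadK f k ((P : Matrix ι ι F) *ᵥ
        ((fun a : Fin n₁ × Fin n₂ => x₁ a.1 * x₂ a.2) ∘ e)) = 0 := by
  have hs := le_similarityGroup_of_fixes hH
  have hf' := isSesq_of_symp hf
  have hf₂ := h.swap.symp_of_two h2 hs hirr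
  obtain ⟨k₁, hk₁⟩ := exists_half h2 (h.symp_of_two h2 hs hirr)
  obtain ⟨k₂, hk₂⟩ := exists_half h2 hf₂
  have h1 : coord e P (k₁ ⊗ₖ 1) + adj (RingHom.id F) f (coord e P (k₁ ⊗ₖ 1)) = 1 := by
    rw [h.adj_kron hf', h.sesq₂.adj_one, ← map_add, ← add_kronecker, hk₁, one_kronecker_one,
      map_one]
  have h3 : ∀ a, coord e P (a ⊗ₖ 1) * coord e P (1 ⊗ₖ k₂) =
      coord e P (1 ⊗ₖ k₂) * coord e P (a ⊗ₖ 1) := fun a => by
    simp only [← map_mul, ← mul_kronecker_mul, one_mul, mul_one]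
  refine ⟨_, h1, fixes_quadK h2 hf hH h1 fun g hg => ⟨coord e P (1 ⊗ₖ k₂), ?_, h3 _, ?_⟩,
    fun x₁ x₂ => ?_⟩
  · rw [h.adj_kron hf', h.sesq₁.adj_one, ← map_add, ← kronecker_add, hk₂, one_kronecker_one,
      map_one]
  · obtain ⟨a, -, b, -, rfl⟩ := exists_projL h.le hg
    rw [cj_coord_kron, map_one]; exact h3 _
  · obtain ⟨c, -, hc⟩ := h.gram
    rw [quadK, coord_mulVec, ← inCoord_apply f, hc, gform_mulVec_left, mul_smul_comm, gform_smul,
      ← kroneckerMap_transpose, ← mul_kronecker_mul, transpose_one, one_mul, gform_eq_sum]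
    have h0 := hf₂.alternating x₂
    rw [h.sesq₂.sesq0.eq_gform, gform_eq_sum] at h0
    have : ∑ a : Fin n₁ × Fin n₂, ∑ b : Fin n₁ × Fin n₂, x₁ a.1 * x₂ a.2 *
        ((k₁ᵀ * gramMatrix f₁) ⊗ₖ gramMatrix f₂) a b * (RingHom.id F) (x₁ b.1 * x₂ b.2) =
        (∑ i, ∑ j, x₁ i * (k₁ᵀ * gramMatrix f₁) i j * x₁ j) *
          ∑ i, ∑ j, x₂ i * gramMatrix f₂ i j * (RingHom.id F) (x₂ j) := by
      simp only [Fintype.sum_prod_type, Finset.sum_mul_sum, kroneckerMap_apply, RingHom.id_apply]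
      refine Finset.sum_congr rfl fun _ _ => Finset.sum_congr rfl fun _ _ =>
        Finset.sum_congr rfl fun _ _ => Finset.sum_congr rfl fun _ _ => by ring
    rw [this, h0, mul_zero, mul_zero]

end tensor

/-! ### Tensor powers -/

theorem isSolvable_GL_two [Fintype F] (h : Fintype.card F ≤ 3) :
    Group.IsSolvable (GL (Fin 2) F) := by
  have h1 := Fintype.one_lt_card (α := F)
  refine Char.isSolvable_of_card_dvd_pow_mul_pow (p := 2) (q := 3) (a := 4) (b := 1)
    Nat.prime_two Nat.prime_three ?_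
  rw [Matrix.card_GL_field]
  interval_cases Fintype.card F <;> decide

section power

variable {t m : ℕ} {K : Fin t → Subgroup (GL ι F)}
  {φ : Fin t → (Matrix (Fin m) (Fin m) F →ₐ[F] Matrix ι ι F)} {e : ι ≃ (Fin t → Fin m)}
  {P : GL ι F}

theorem CompData.not_small [Fintype F] (h : CompData H K φ e P) :
    ¬ (Fintype.card F ≤ 3 ∧ m = 2) := by
  rintro ⟨h3, rfl⟩
  obtain ⟨K', h1, -⟩ := h.exists_factor ⟨0, by have := h.two_le_t; omega⟩
  have := isSolvable_GL_two h3
  exact Comp.qs_not_isSolvable h1 inferInstance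

/-- in characteristic two the group fixes a quadratic form -/
theorem CompData.quad_of_two [Finite F] (h2 : (2 : F) = 0) (hf : IsSymplecticForm f)
    (hH : FixesForm (matrixSet H) f) (h : CompData H K φ e P) :
    ∃ k, k + adj (RingHom.id F) f k = 1 ∧ FixesQuadForm (matrixSet H) (quadK f k) := by
  have hf' := isSesq_of_symp hf
  have ht := h.two_le_t
  obtain ⟨f₁, ε₁, hf₁, -, hadj⟩ := form_comp hf' hH h
  let i : Fin t := ⟨0, by omega⟩
  obtain ⟨K', -, h3, -, h4⟩ := h.exists_factor_form hf' hH hf₁ hadj i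
  obtain ⟨k, hk⟩ := exists_half h2 (symplectic_of_symm_of_two h2 (by simpa using h.two_le_m)
    (absIrred_of_env h3).1 (symm_of_two h2 hf₁).symm (le_similarityGroup_of_fixes h4))
  have h1 : ∀ j, φ j k + adj (RingHom.id F) f (φ j k) = 1 := fun j => by
    rw [hadj, ← map_add, hk, map_one]
  refine ⟨_, h1 i, fixes_quadK h2 hf hH (h1 i) fun g hg => ?_⟩
  obtain ⟨j, hj⟩ := h.cj_slot hg i
  obtain ⟨b, hb⟩ := hj k
  rw [hb]
  by_cases hij : j = i
  · have : i ≠ ⟨1, by omega⟩ := fun h => by simp [i] at h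
    rw [hij]
    exact ⟨_, h1 ⟨1, by omega⟩, h.comm this _ _, h.comm this _ _⟩
  · exact ⟨_, h1 i, rfl, h.comm hij _ _⟩

end power

end CfsgLib.Asch
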