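import Mathlib
import Cfsg.Agent.Lib.Asch.Bilin

/-! Normal subgroups of symplectic type in a group of isometries of a bilinear form. -/

set_option autoImplicit false

namespace CfsgLib.Asch

open Cfsg Cfsg.Geo Matrix
open scoped MatrixGroups Kronecker commutatorElement

variable {ι : Type} [Fintype ι] [DecidableEq ι] {F : Type*} [Field F]
variable {σ : F →+* F} {ε : F} {f : (ι → F) → (ι → F) → F} {H : Subgroup (GL ι F)}

omit [Fintype ι] in
theorem mult_unique [Nonempty ι] (hf : IsNondegenerateForm f) {c d : F}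
    (h : ∀ u v, c * f u v = d * f u v) : c = d := by
  obtain ⟨i⟩ := ‹Nonempty ι›
  obtain ⟨x, hx⟩ := (hf (Pi.single i 1) (by simp)).1
  exact mul_right_cancel₀ hx (h _ _)

/-- the multiplier of a similarity -/
noncomputable def simMult [Nonempty ι] (hf : IsNondegenerateForm f) : similarityGroup f →* Fˣ :=
  MonoidHom.mk' (fun g => g.2.choose) fun a b => Units.ext (mult_unique hf fun u v => by
    rw [← (a * b).2.choose_spec, Units.val_mul, mul_assoc, ← b.2.choose_spec, ← a.2.choose_spec,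
      mulVec_mulVec, mulVec_mulVec]; rfl)

theorem simMult_spec [Nonempty ι] (hf : IsNondegenerateForm f) (g : similarityGroup f) (u v : ι → F) :
    f (((g : GL ι F) : Matrix ι ι F) *ᵥ u) (((g : GL ι F) : Matrix ι ι F) *ᵥ v) =
      simMult hf g * f u v := g.2.choose_spec u v

theorem simMult_eq [Nonempty ι] (hf : IsNondegenerateForm f) {g : similarityGroup f} {c : F}
    (h : ∀ u v, f (((g : GL ι F) : Matrix ι ι F) *ᵥ u) (((g : GL ι F) : Matrix ι ι F) *ᵥ v) =
      c * f u v) : (simMult hf g : F) = c :=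
  mult_unique hf fun u v => by rw [← simMult_spec, h]

theorem IsSesq0.sc_mulVec (hf : IsSesq0 σ f) (c : Fˣ) (u v : ι → F) :
    f ((sc ι c : GL ι F) *ᵥ u) ((sc ι c : GL ι F) *ᵥ v) = c * σ c * f u v := by
  rw [coe_sc, smul_mulVec, smul_mulVec, one_mulVec, one_mulVec, hf.smul_left, hf.smul_right,
    mul_assoc]

/-- the isometry group of a form -/
def isom (f : (ι → F) → (ι → F) → F) : Subgroup (GL ι F) where
  carrier := {g | ∀ u v, f ((g : Matrix ι ι F) *ᵥ u) ((g : Matrix ι ι F) *ᵥ v) = f u v}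
  mul_mem' {a b} ha hb u v := by
    rw [Units.val_mul, ← mulVec_mulVec, ← mulVec_mulVec, ha, hb]
  one_mem' u v := by simp
  inv_mem' {a} ha u v := by rw [← ha, mulVec_inv_mulVec, mulVec_inv_mulVec]

theorem le_isom_iff {N : Subgroup (GL ι F)} : N ≤ isom f ↔ FixesForm (matrixSet N) f :=
  fixesForm_iff.symm

theorem nrm_isom (hs : H ≤ similarityGroup f) : Nrm H (isom f) := by
  intro g hg x hx u v
  obtain ⟨c, hc⟩ := hs hg
  rw [← mulVec_inv_mulVec g u, ← mulVec_inv_mulVec g v, ← cj_coe, cj_mulVec, cj_mulVec, hc, hc, hx]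

theorem Nrm.inf {N N' : Subgroup (GL ι F)} (h : Nrm H N) (h' : Nrm H N') : Nrm H (N ⊓ N') :=
  fun g hg x hx => ⟨h g hg x hx.1, h' g hg x hx.2⟩

/-- a commutator of similarities is an isometry -/
theorem commutator_mem_isom [Nonempty ι] (hf : IsNondegenerateForm f) {x y : GL ι F}
    (hx : x ∈ similarityGroup f) (hy : y ∈ similarityGroup f) : x * y * x⁻¹ * y⁻¹ ∈ isom f := by
  intro u v
  have := simMult_spec hf (⟨x, hx⟩ * ⟨y, hy⟩ * ⟨x, hx⟩⁻¹ * ⟨y, hy⟩⁻¹) u v
  rw [map_mul, map_mul, map_mul, map_inv, map_inv, mul_inv_cancel_comm, mul_inv_cancel,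
    Units.val_one, one_mul] at this
  exact this

theorem ExtraData.two_le [Fintype F] {r m : ℕ} {R : Subgroup (GL ι F)} (h : ExtraData H r R m) :
    2 ≤ Fintype.card ι := by
  rw [h.dim]
  exact h.prime.two_le.trans (Nat.le_self_pow (by have := h.one_le; omega) r)

/-- a normalised spanning subgroup of `R` is again of symplectic type -/
theorem ExtraData.type_of_le [Fintype F] {r m : ℕ} {R R' : Subgroup (GL ι F)}
    (h : ExtraData H r R m) (hle : R' ≤ R) (hn : Nrm H R') (henv : env R' = ⊤) :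
    IsSymplecticTypeGroup r R' := by
  have hr := h.prime
  have hnc : ¬ ∀ x y : R', x * y = y * x := fun h' => not_comm_of_env h.two_le henv
    fun x hx y hy => congrArg Subtype.val (h' ⟨x, hx⟩ ⟨y, hy⟩)
  refine ⟨hr, h.type.pGroup.to_le hle, fun A hA hAc => ?_, ?_⟩
  · have h1 : A.map R'.subtype ≤ scalars ι F := by
      refine h.abelian _ ((Subgroup.map_subtype_le A).trans (le_sup_of_le_left hle))
        (nrm_iff_le_normalizer.2 ((nrm_iff_le_normalizer.1 hn).trans
          (Core.normalizer_le_normalizer_map_subtype_of_characteristic A))) ?_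
      rintro _ ⟨x, hx, rfl⟩ _ ⟨y, hy, rfl⟩
      exact congrArg (fun z : A => ((z : R') : GL ι F)) (hAc.is_comm.comm ⟨x, hx⟩ ⟨y, hy⟩)
    have := isCyclic_scalars (ι := ι) (F := F)
    have := Subgroup.isCyclic_of_le h1
    exact (A.equivMapOfInjective R'.subtype R'.subtype_injective).isCyclic.2 this
  · have hd : Monoid.exponent R' ∣ r * Nat.gcd 2 r := Monoid.exponent_dvd_of_forall_pow_eq_one
      fun x => Subtype.ext (h.pow_eq_one _ (hle x.2))
    by_contra hne
    apply hnc
    have h22 : Monoid.exponent R' ∣ 2 := by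
      rcases hr.eq_two_or_odd' with rfl | hodd
      · obtain ⟨j, hj, hj'⟩ := (Nat.dvd_prime_pow Nat.prime_two (m := 2)).1 hd
        rw [hj']
        interval_cases j
        · decide
        · decide
        · exact absurd hj' hne
      · have h1 : Nat.gcd 2 r = 1 := (Nat.coprime_two_left.2 hodd)
        rw [h1, mul_one] at hd hne
        rw [((Nat.dvd_prime hr).1 hd).resolve_right hne]; exact one_dvd _
    exact fun x y => (Commute.of_orderOf_dvd_two
      (fun g => (Monoid.order_dvd_exponent g).trans h22) x y).eq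

/-- an extraspecial 2-group of isometries normalised by `H` -/
structure Extra2 (f : (ι → F) → (ι → F) → F) (H R : Subgroup (GL ι F)) (m : ℕ) : Prop where
  two_ne : (2 : F) ≠ 0
  le : R ≤ H ⊔ scalars ι F
  nrm : Nrm H R
  env_top : env R = ⊤
  fixes : FixesForm (matrixSet R) f
  type : IsSymplecticTypeGroup 2 R
  neg_one_mem : -1 ∈ R
  scalar_iff : ∀ x ∈ R, x ∈ scalars ι F ↔ x = 1 ∨ x = -1
  sq_mem : ∀ x ∈ R, x ^ 2 ∈ scalars ι F
  comm_mem : ∀ x ∈ R, ∀ y ∈ R, x * y * x⁻¹ * y⁻¹ ∈ scalars ι F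
  card_center : Nat.card (Subgroup.center R) = 2
  card : Nat.card R = 2 ^ (1 + 2 * m)
  one_le : 1 ≤ m
  dim : Fintype.card ι = 2 ^ m
  trace : ∀ x ∈ R, x ∉ scalars ι F → Matrix.trace (x : Matrix ι ι F) = 0

theorem sc_neg_one : sc ι (-1 : Fˣ) = -1 := Units.ext (by rw [coe_sc]; simp)

theorem scalar_isom [Nonempty ι] (hf : IsSesq (RingHom.id F) ε f) {x : GL ι F}
    (hx : x ∈ scalars ι F) (hi : x ∈ isom f) : x = 1 ∨ x = -1 := by
  obtain ⟨c, rfl⟩ := mem_scalars_iff_sc.1 hx
  have h1 : (c : F) * c = 1 := mult_unique hf.nondeg fun u v => by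
    rw [one_mul]; exact (hf.sesq0.sc_mulVec c u v).symm.trans (hi u v)
  rcases mul_self_eq_one_iff.1 h1 with h | h
  · left; rw [show c = 1 from Units.ext h, map_one]
  · right; rw [show c = -1 from Units.ext h, sc_neg_one]

theorem ExtraData.eq_two [Fintype F] {r m : ℕ} {R : Subgroup (GL ι F)} (h : ExtraData H r R m)
    (hf : IsSesq (RingHom.id F) ε f) (hs : H ≤ similarityGroup f) : r = 2 := by
  have := h.nonempty
  have hR := h.le.trans (sup_le hs hf.sesq0.scalars_le)
  by_contra hr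
  refine not_comm_of_env h.two_le h.env_top fun x hx y hy => ?_
  have h1 := commutator_pow_eq_one (h.comm_mem x hx y hy) (h.pow_mem x hx)
  rw [← commutatorElement_eq_one_iff_mul_comm]
  rcases scalar_isom hf (h.comm_mem x hx y hy)
    (commutator_mem_isom hf.nondeg (hR hx) (hR hy)) with h2 | h2
  · exact h2
  · rw [commutatorElement_def, h2] at h1 ⊢
    rwa [(h.prime.odd_of_ne_two hr).neg_one_pow] at h1

theorem bilin_extra [Fintype F] (hf : IsSesq (RingHom.id F) ε f) (hs : H ≤ similarityGroup f)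
    (hN : ∀ N : Subgroup (GL ι F), N ≤ H ⊔ scalars ι F → Nrm H N → N ≤ scalars ι F ∨ env N = ⊤)
    {r m : ℕ} {R : Subgroup (GL ι F)} (h : ExtraData H r R m) :
    ∃ R₁ : Subgroup (GL ι F), Extra2 f H R₁ m := by
  obtain rfl := h.eq_two hf hs
  have := h.nonempty
  have hR := h.le.trans (sup_le hs hf.sesq0.scalars_le)
  have h2 : (2 : F) ≠ 0 := odd_card_iff.1 (by
    have := h.dvd; have := Fintype.card_pos (α := F); rw [Nat.odd_iff]; omega)
  have hn : Nrm H (R ⊓ isom f) := h.nrm.inf (nrm_isom hs)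
  have hiff : ∀ x ∈ R ⊓ isom f, x ∈ scalars ι F ↔ x = 1 ∨ x = -1 := fun x hx =>
    ⟨fun h' => scalar_isom hf h' hx.2, by
      rintro (rfl | rfl); exacts [one_mem _, sc_neg_one (ι := ι) (F := F) ▸ sc_mem _]⟩
  have hneg : -1 ∈ R ⊓ isom f := ⟨h.mem_of_scalar _ (sc_neg_one (ι := ι) (F := F) ▸ sc_mem _)
    (Even.neg_one_pow (by decide)), fun u v => by
      rw [← sc_neg_one, hf.sesq0.sc_mulVec]; simp⟩
  have henv : env (R ⊓ isom f) = ⊤ := by
    refine (hN _ (inf_le_left.trans h.le) hn).resolve_left fun hle => ?_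
    have key : ∀ x (hx : x ∈ R), x ∈ scalars ι F ∨ simMult hf.nondeg ⟨x, hR hx⟩ = -1 := by
      intro x hx
      obtain ⟨c, hc⟩ := mem_scalars_iff_sc.1 (h.pow_mem x hx)
      have h4 : c * c = 1 := sc_injective (ι := ι) (by
        rw [map_mul, hc, ← pow_add, map_one]; exact h.pow_eq_one x hx)
      have h5 : ((simMult hf.nondeg (⟨x, hR hx⟩ ^ 2) : Fˣ) : F) = c * c :=
        simMult_eq _ fun u v => by
          rw [Subgroup.coe_pow, ← hc]; exact hf.sesq0.sc_mulVec c u v
      rw [← Units.val_mul, h4, map_pow, sq, Units.val_mul, Units.val_one] at h5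
      refine (mul_self_eq_one_iff.1 h5).imp (fun h6 => hle ⟨hx, fun u v => ?_⟩)
        fun h6 => Units.ext h6
      rw [simMult_spec hf.nondeg ⟨x, hR hx⟩, h6, one_mul]
    refine not_comm_of_env h.two_le h.env_top fun x hx y hy => ?_
    rcases key x hx with h1 | h1
    · exact mul_comm_of_mem_scalars h1 y
    rcases key y hy with h3 | h3
    · exact (mul_comm_of_mem_scalars h3 x).symm
    have h4 : x * y⁻¹ ∈ scalars ι F := hle ⟨R.mul_mem hx (R.inv_mem hy), fun u v => by
      have := simMult_spec hf.nondeg (⟨x, hR hx⟩ * ⟨y, hR hy⟩⁻¹) u v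
      rw [map_mul, map_inv, h1, h3, mul_inv_cancel, Units.val_one, one_mul] at this
      exact this⟩
    have := mul_comm_of_mem_scalars h4 y
    rw [inv_mul_cancel_right] at this
    conv_lhs => rw [this]
    group
  have hcen : ∀ x : (R ⊓ isom f : Subgroup (GL ι F)), x ∈ Subgroup.center _ ↔
      (x : GL ι F) ∈ scalars ι F := fun x => by rw [center_eq_of_env henv]; rfl
  have hc : Nat.card (Subgroup.center (R ⊓ isom f : Subgroup (GL ι F))) = 2 := by
    refine Nat.card_eq_two_iff.2 ⟨1, ⟨⟨-1, hneg⟩, (hcen _).2 ((hiff _ hneg).2 (Or.inr rfl))⟩,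
      fun h' => h2 ?_, Set.eq_univ_of_forall fun z => ?_⟩
    · have h3 : sc ι (1 : Fˣ) = sc ι (-1) := by
        rw [map_one, sc_neg_one]; exact congrArg (fun z : Subgroup.center _ => z.1.1) h'
      have h4 := congrArg Units.val (sc_injective h3)
      simp only [Units.val_one, Units.val_neg] at h4
      linear_combination h4
    · rcases (hiff _ z.1.2).1 ((hcen _).1 z.2) with h | h
      · exact Or.inl (Subtype.ext (Subtype.ext h))
      · exact Or.inr (Subtype.ext (Subtype.ext h))
  refine ⟨_, h2, inf_le_left.trans h.le, hn, henv, le_isom_iff.1 inf_le_right,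
    h.type_of_le inf_le_left hn henv, hneg, hiff, fun x hx => h.pow_mem x hx.1,
    fun x hx y hy => h.comm_mem x hx.1 y hy.1, hc, ?_, h.one_le, h.dim,
    fun x hx => h.trace x hx.1⟩
  rw [Subgroup.card_eq_card_quotient_mul_card_subgroup (Subgroup.center _),
    card_quotient_eq henv hcen fun x hx => h.trace x hx.1, hc, h.dim]
  ring

theorem Extra2.realisable [Finite F] {R : Subgroup (GL ι F)} {m : ℕ} (h : Extra2 f H R m)
    (F₀ : Subfield F) : RealisableOver F₀ (matrixSet R) := by
  refine realisable_of_trace (matrixSet_mul_mem R) (env_eq_top_iff.1 h.env_top) ?_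
  rintro _ ⟨x, hx, rfl⟩
  by_cases hs : x ∈ scalars ι F
  · rcases (h.scalar_iff x hx).1 hs with rfl | rfl
    · simp
    · simp
  · simp only [h.trace x hx hs]; exact F₀.zero_mem

theorem prime_card_of_bot_eq_top [Fintype F] (h : (⊥ : Subfield F) = ⊤) :
    (Fintype.card F).Prime := by
  obtain ⟨p, hchar, -, hp, -⟩ := FiniteField.card' F
  have := Fact.mk hp
  have h1 := Subfield.card_bot F p
  rw [h, Nat.card_congr Subfield.topEquiv.toEquiv, Nat.card_eq_fintype_card] at h1
  exact h1 ▸ hp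

theorem linearIndependent_of_trace {κ : Type*} [Fintype κ] (v : κ → GL ι F)
    (h1 : (1 : Matrix ι ι F).trace ≠ 0)
    (h : ∀ i j, j ≠ i → (((v i)⁻¹ * v j : GL ι F) : Matrix ι ι F).trace = 0) :
    LinearIndependent F fun i => (v i : Matrix ι ι F) := by
  classical
  rw [Fintype.linearIndependent_iff]
  intro g hg q
  have h2 := congrArg (fun a : Matrix ι ι F => Matrix.trace (Units.val (v q)⁻¹ * a)) hg
  simp only [Finset.mul_sum, mul_smul_comm, trace_sum, trace_smul, mul_zero, trace_zero,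
    smul_eq_mul] at h2
  rw [Finset.sum_eq_single q] at h2
  · rw [Units.inv_mul] at h2
    exact (mul_eq_zero.1 h2).resolve_right h1
  · intro q' _ hq'
    rw [← Units.val_mul, h q q' hq', mul_zero]
  · simp

theorem IdemSys.sum_finrank {E : Finset (Matrix ι ι F)} (hE : IdemSys E) :
    ∑ e ∈ E, Module.finrank F (LinearMap.range (Matrix.toLin' e)) = Fintype.card ι := by
  classical
  have h1 := DirectSum.isInternal_submodule_of_iSupIndep_of_iSup_eq_top
    (hE.iSupIndep (Equiv.refl E)) (hE.iSup_eq_top (Equiv.refl E))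
  have h2 := (LinearEquiv.ofBijective (DirectSum.coeLinearMap _) h1).finrank_eq
  rw [Module.finrank_directSum, Module.finrank_fintype_fun_eq_card] at h2
  rw [← h2, ← Finset.sum_coe_sort]; rfl

/-- commuting involutions lie in the span of the primitive idempotents of their algebra -/
theorem mem_span_primIdem (h2 : (2 : F) ≠ 0) {C : Subalgebra F (Matrix ι ι F)}
    {E : Finset (Matrix ι ι F)} (hE : (E : Set (Matrix ι ι F)) = primIdem C) (hsys : IdemSys E)
    {a : Matrix ι ι F} (ha : a ∈ C) (haa : a * a = 1) :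
    (∀ e ∈ E, a * e = e ∨ a * e = -e) ∧ a ∈ Submodule.span F (E : Set (Matrix ι ι F)) := by
  have key : ∀ e ∈ E, a * e = e ∨ a * e = -e := by
    intro e he
    have he' : e ∈ primIdem C := hE ▸ he
    have := he'.2.2.2 ((2 : F)⁻¹ • (1 + a)) (C.smul_mem (C.add_mem C.one_mem ha) _) (by
      rw [smul_mul_smul_comm, add_mul, mul_add, mul_add, haa, one_mul, one_mul, mul_one,
        add_comm a, ← two_smul F, smul_smul, inv_mul_cancel_right₀ h2])
    rw [smul_mul_assoc, add_mul, one_mul, smul_eq_zero, inv_smul_eq_iff₀ h2, two_smul] at this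
    rcases this with (h | h) | h
    · exact absurd h (inv_ne_zero h2)
    · exact Or.inr (eq_neg_of_add_eq_zero_right h)
    · exact Or.inl (add_left_cancel h)
  refine ⟨key, ?_⟩
  rw [← mul_one a, ← hsys.sum_eq, Finset.mul_sum]
  refine Submodule.sum_mem _ fun e he => ?_
  rcases key e he with h | h <;> rw [h]
  exacts [Submodule.subset_span he, Submodule.neg_mem _ (Submodule.subset_span he)]

/-- an elementary abelian subgroup `A` of `R` gives an orthogonal decomposition into at least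
`|A| / 2` non-degenerate subspaces -/
theorem Extra2.exists_idemSys (hf : IsSesq (RingHom.id F) ε f) {R : Subgroup (GL ι F)} {m : ℕ}
    [Finite R] (h : Extra2 f H R m) (A : Subgroup R) (hA : IsMulCommutative A)
    (hsq : ∀ x ∈ A, x * x = 1) : ∃ E : Finset (Matrix ι ι F), IdemSys E ∧
      (∀ e ∈ E, adj (RingHom.id F) f e = e) ∧ Nat.card A ≤ E.card * 2 ∧
      (E : Set (Matrix ι ι F)) = primIdem (env (A.map R.subtype)) := by
  classical
  have hC : ∀ x ∈ env (A.map R.subtype), ∀ y ∈ env (A.map R.subtype), x * y = y * x :=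
    fun x hx y hy => comm_env (fun z hz => (comm_env (fun w hw => by
      obtain ⟨a, ha, rfl⟩ := hz
      obtain ⟨b, hb, rfl⟩ := hw
      exact congrArg (fun z : A => (((z : R) : GL ι F) : Matrix ι ι F))
        (hA.is_comm.comm ⟨a, ha⟩ ⟨b, hb⟩)) hx).symm) hy
  have hsq' : ∀ a : A, (((a : R) : GL ι F) : Matrix ι ι F) * ((a : R) : GL ι F) = 1 := fun a =>
    congrArg (fun z : R => ((z : GL ι F) : Matrix ι ι F)) (hsq a a.2)
  obtain ⟨E, hE, hsys⟩ := exists_idemSys_primIdem _ hC
  refine ⟨E, hsys, fun e he => ?_, ?_, hE⟩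
  · refine env_induction (p := fun e => adj (RingHom.id F) f e = e) ?_ hf.adj_zero
      (fun a b ha hb => by rw [hf.adj_add, ha, hb]) (fun c a ha => by rw [hf.adj_smul', ha])
      (hE.le he).1
    rintro _ ⟨a, ha, rfl⟩
    exact (hf.adj_coe h.fixes a.2).trans (Units.inv_eq_of_mul_eq_one_right (hsq' ⟨a, ha⟩))
  · let Z := (Subgroup.center R).subgroupOf A
    let _ : Fintype (A ⧸ Z) := Fintype.ofFinite _
    have hli := linearIndependent_of_trace (fun q : A ⧸ Z => ((q.out : R) : GL ι F))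
      (by rw [trace_one, h.dim]; exact_mod_cast pow_ne_zero m h.two_ne) fun q q' hq => by
        refine h.trace _ (((q.out)⁻¹ * q'.out : A) : R).2 fun hs => hq ?_
        rw [← QuotientGroup.out_eq' q, ← QuotientGroup.out_eq' q', eq_comm, QuotientGroup.eq,
          Subgroup.mem_subgroupOf, center_eq_of_env h.env_top]
        exact hs
    have h1 := linearIndependent_le_span_aux' _ hli (E : Set (Matrix ι ι F)) (by
      rintro _ ⟨q, rfl⟩
      exact (mem_span_primIdem h.two_ne hE hsys (coe_mem_env ⟨_, q.out.2, rfl⟩) (hsq' _)).2)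
    rw [Subgroup.card_eq_card_quotient_mul_card_subgroup Z]
    refine Nat.mul_le_mul (by simpa using h1) (h.card_center ▸ ?_)
    exact Nat.card_le_card_of_injective (fun z => ⟨z.1.1, z.2⟩) fun a b hab =>
      Subtype.ext (Subtype.ext (congrArg (Subtype.val : Subgroup.center R → R) hab))

theorem two_le_rank (hf : IsSymplecticForm f) {e : Matrix ι ι F} (he : e * e = e) (h0 : e ≠ 0)
    (hsa : adj (RingHom.id F) f e = e) :
    2 ≤ Module.finrank F (LinearMap.range (Matrix.toLin' e)) := by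
  have hf' := isSesq_of_symp hf
  obtain ⟨w, hw⟩ : ∃ w, e *ᵥ w ≠ 0 := by
    by_contra hc; push Not at hc; exact h0 (eq_zero_of_forall_mulVec hc)
  obtain ⟨x, hx⟩ := (hf.nondegenerate _ hw).1
  rw [← he, ← mulVec_mulVec, hf'.adj_spec', hsa] at hx
  by_contra hc
  obtain ⟨v, hv⟩ := finrank_le_one_iff.1 (show Module.finrank F
    (LinearMap.range (Matrix.toLin' e)) ≤ 1 by omega)
  obtain ⟨a, ha⟩ := hv ⟨_, x, rfl⟩
  obtain ⟨b, hb⟩ := hv ⟨_, w, rfl⟩
  have ha' : a • (v : ι → F) = e *ᵥ x := congrArg Subtype.val ha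
  have hb' : b • (v : ι → F) = e *ᵥ w := congrArg Subtype.val hb
  rw [← ha', ← hb', hf.bilinear.smul_left, hf.bilinear.smul_right, hf.alternating] at hx
  simp at hx

theorem Extra2.minus (hf : IsSymplecticForm f) {R : Subgroup (GL ι F)} {m : ℕ} [Finite R]
    (h : Extra2 f H R m) : IsOfMinusType m R := by
  intro A hA hsq
  obtain ⟨E, hE, h1, h2, -⟩ := h.exists_idemSys (isSesq_of_symp hf) A hA hsq
  have h3 := Finset.card_nsmul_le_sum E _ 2 fun e he =>
    two_le_rank hf (hE.idem e he) (hE.ne_zero e he) (h1 e he)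
  rw [hE.sum_finrank, h.dim, smul_eq_mul] at h3
  have : 0 < 2 ^ m := by positivity
  rw [pow_succ]; omega

end CfsgLib.Asch
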