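import Mathlib
import Cfsg.Agent.Lib.Asch.Proj
import Cfsg.Agent.Lib.RootMax.NDCases
import Cfsg.Agent.Lib.Orth.Sim
import Cfsg.Agent.Lib.Orth.Normal
import Cfsg.Agent.Lib.Orth.Disc

/-! Types (plus or minus) of non-degenerate subspaces and orthogonal decompositions of a quadratic
space, discriminants, and the two families of maximal singular subspaces. -/

set_option autoImplicit false

namespace CfsgLib.Asch

open Cfsg Cfsg.Geo Matrix QuadraticMap Module CfsgLib.Orth CfsgLib.Forms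
open scoped MatrixGroups

variable {ι : Type} [Fintype ι] [DecidableEq ι] {F : Type*} [Field F]
  {Q : QuadraticForm F (ι → F)}

omit [Fintype ι] [DecidableEq ι] in
theorem isSesq_polar (hQ : (polarBilin Q).Nondegenerate) : IsSesq (RingHom.id F) 1 (polar Q) where
  invol _ := rfl
  add_left := polar_add_left Q
  smul_left := polar_smul_left Q
  refl v w := by simp [polar_comm Q v w]
  eps := by simp
  nondeg v hv := by
    obtain ⟨y, hy⟩ := exists_polar_ne_zero hQ hv
    exact ⟨⟨y, by rwa [polar_comm]⟩, y, hy⟩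

omit [Fintype ι] [DecidableEq ι] in
theorem toQF_nondegenerate {Q : (ι → F) → F} (hQ : IsNondegenerateQuadraticForm Q) :
    (polarBilin (RootMax.toQF hQ)).Nondegenerate := (OrthE.nondeg_iff _).1 (RootMax.toQF_nondeg hQ)

/-- orthogonal complement for the polar form -/
abbrev qperp (Q : QuadraticForm F (ι → F)) (W : Submodule F (ι → F)) : Submodule F (ι → F) :=
  (ofQuad Q).perp W

omit [Fintype ι] [DecidableEq ι] in
theorem mem_qperp {W : Submodule F (ι → F)} {v : ι → F} :
    v ∈ qperp Q W ↔ ∀ w ∈ W, polar Q w v = 0 := Iff.rfl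

omit [Fintype ι] [DecidableEq ι] in
theorem perp_eq_qperp (hQ : (polarBilin Q).Nondegenerate) (W : Submodule F (ι → F)) :
    (isSesq_polar hQ).perp W = qperp Q W := by
  ext v; simp only [IsSesq.mem_perp, mem_qperp, polar_comm Q v]

omit [DecidableEq ι] in
theorem finrank_qperp (hQ : (polarBilin Q).Nondegenerate) (W : Submodule F (ι → F)) :
    finrank F W + finrank F (qperp Q W) = Fintype.card ι := by
  rw [(ofQuad Q).finrank_perp (ofQuad_nondeg Q hQ), finrank_fintype_fun_eq_card]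

omit [DecidableEq ι] in
theorem qperp_qperp (hQ : (polarBilin Q).Nondegenerate) (W : Submodule F (ι → F)) :
    qperp Q (qperp Q W) = W := (ofQuad Q).perp_perp (ofQuad_nondeg Q hQ) W

omit [Fintype ι] [DecidableEq ι] in
theorem nondegOn_iff {W : Submodule F (ι → F)} :
    IsNondegenerateOn (polar Q) W ↔ Disjoint W (qperp Q W) :=
  ⟨RootMax.disjoint_perp_ofQuad, RootMax.isNondegenerateOn_of_disjoint⟩

omit [DecidableEq ι] in
theorem nondegOn_qperp (hQ : (polarBilin Q).Nondegenerate) {W : Submodule F (ι → F)}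
    (hW : IsNondegenerateOn (polar Q) W) : IsNondegenerateOn (polar Q) (qperp Q W) :=
  nondegOn_iff.2 ((ofQuad Q).disjoint_perp_perp (ofQuad_nondeg Q hQ) (nondegOn_iff.1 hW))

omit [DecidableEq ι] in
theorem isCompl_qperp (hQ : (polarBilin Q).Nondegenerate) {W : Submodule F (ι → F)}
    (hW : IsNondegenerateOn (polar Q) W) : IsCompl W (qperp Q W) :=
  (ofQuad Q).isCompl_perp (ofQuad_nondeg Q hQ) (nondegOn_iff.1 hW)

omit [Fintype ι] [DecidableEq ι] in
theorem nondeg_restrict {W : Submodule F (ι → F)} (hW : IsNondegenerateOn (polar Q) W) :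
    (polarBilin (Q.comp W.subtype)).Nondegenerate :=
  nondegenerate_of_polar fun x hx => by
    by_contra h0
    obtain ⟨y, hy, hy'⟩ := (hW x x.2 fun h => h0 (Subtype.ext h)).2
    exact hy' (hx ⟨y, hy⟩)

theorem fixQ_iff {H : Subgroup (GL ι F)} {q : (ι → F) → F} : FixesQuadForm (matrixSet H) q ↔
    ∀ x ∈ H, ∀ v, q ((x : Matrix ι ι F) *ᵥ v) = q v :=
  ⟨fun h x hx => h _ ⟨x, hx, rfl⟩, by rintro h _ ⟨x, hx, rfl⟩; exact h x hx⟩

theorem fixQ_iff_le {H : Subgroup (GL ι F)} {q : (ι → F) → F} : FixesQuadForm (matrixSet H) q ↔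
    H ≤ isometryGroup F q := fixQ_iff.trans (forall₂_congr fun _ _ => mem_isometryGroup.symm)

theorem le_stab_qperp (hQ : (polarBilin Q).Nondegenerate) {H : Subgroup (GL ι F)}
    (hH : FixesQuadForm (matrixSet H) Q) {W : Submodule F (ι → F)}
    (hW : H ≤ subspaceStabilizer W) : H ≤ subspaceStabilizer (qperp Q W) :=
  perp_eq_qperp hQ W ▸ (isSesq_polar hQ).le_stab_perp
    (le_similarityGroup_of_fixes (fixesForm_polar hH)) hW

omit [DecidableEq ι] in
theorem even_finrank_of_two (h2 : (2 : F) = 0) {W : Submodule F (ι → F)}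
    (hW : IsNondegenerateOn (polar Q) W) : Even (finrank F W) :=
  even_finrank_of_alt (polarBilin (Q.comp W.subtype))
    (fun x => by rw [polarBilin_apply_apply, polar_self', h2, zero_mul]) (nondeg_restrict hW)

/-! ### Plus type -/

omit [DecidableEq ι] in
theorem plus_top_iff : IsPlusTypeOn Q ⊤ ↔ ∃ U, IsLag Q U :=
  exists_congr fun U => by
    simp only [le_top, true_and, finrank_top]; rfl

omit [Fintype ι] [DecidableEq ι] in
theorem plus_bot : IsPlusTypeOn Q ⊥ := ⟨⊥, le_rfl, by simp [IsTotallySingularQuad], by simp⟩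

omit [DecidableEq ι] in
theorem plus_iff_lag {W : Submodule F (ι → F)} :
    IsPlusTypeOn Q W ↔ ∃ U, IsLag (Q.comp W.subtype) U := by
  constructor
  · rintro ⟨U, h1, h2, h3⟩
    exact ⟨U.comap W.subtype, fun u hu => h2 u hu,
      by rw [(Submodule.comapSubtypeEquivOfLe h1).finrank_eq, h3]⟩
  · rintro ⟨U, h1, h2⟩
    refine ⟨U.map W.subtype, Submodule.map_subtype_le W U, ?_, by
      rw [Submodule.finrank_map_subtype_eq, h2]⟩
    rintro _ ⟨u, hu, rfl⟩; exact h1 u hu

omit [DecidableEq ι] in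
theorem plus_sup {W W' : Submodule F (ι → F)} (h : IsPlusTypeOn Q W) (h' : IsPlusTypeOn Q W')
    (ho : AreOrthogonalFor (polar Q) W W') (hd : Disjoint W W') : IsPlusTypeOn Q (W ⊔ W') := by
  obtain ⟨U, h1, h2, h3⟩ := h
  obtain ⟨U', h1', h2', h3'⟩ := h'
  refine ⟨U ⊔ U', sup_le_sup h1 h1', fun w hw => ?_, ?_⟩
  · obtain ⟨u, hu, u', hu', rfl⟩ := Submodule.mem_sup.1 hw
    rw [Q_add, h2 u hu, h2' u' hu', ho u (h1 hu) u' (h1' hu')]; simp
  · have a1 := Submodule.finrank_sup_add_finrank_inf_eq U U'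
    have a2 := Submodule.finrank_sup_add_finrank_inf_eq W W'
    rw [disjoint_iff.1 (hd.mono h1 h1'), finrank_bot] at a1
    rw [disjoint_iff.1 hd, finrank_bot] at a2
    omega

omit [DecidableEq ι] in
theorem plus_qperp (hQ : (polarBilin Q).Nondegenerate) (h : IsPlusTypeOn Q ⊤)
    {W : Submodule F (ι → F)} (hW : IsNondegenerateOn (polar Q) W) (h' : IsPlusTypeOn Q W) :
    IsPlusTypeOn Q (qperp Q W) := by
  obtain ⟨T₀, -, h2, h3⟩ := h
  obtain ⟨S, h1', h2', h3'⟩ := h'
  rw [finrank_top, finrank_fintype_fun_eq_card] at h3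
  have hd := finrank_qperp hQ W
  obtain ⟨T, a1, a2, a3⟩ := (RootMax.ts_ofQuad h2').exists_le (ofQuad_nondeg Q hQ)
    (RootMax.ts_ofQuad h2) (by omega)
  have hc := isCompl_qperp hQ hW
  refine ⟨T ⊓ qperp Q W, inf_le_right, fun w hw => ts_ofQuad_iff.1 a1 w hw.1, ?_⟩
  have hS : S ⊔ qperp Q W = qperp Q S := by
    refine Submodule.eq_of_le_of_finrank_eq
      (sup_le (RootMax.ts_ofQuad h2').2 ((ofQuad Q).perp_anti h1')) ?_
    have b1 := Submodule.finrank_sup_add_finrank_inf_eq S (qperp Q W)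
    rw [disjoint_iff.1 (hc.disjoint.mono_left h1'), finrank_bot] at b1
    have := finrank_qperp hQ S
    omega
  have hT : T = S ⊔ T ⊓ qperp Q W := by
    rw [inf_comm, ← sup_inf_assoc_of_le _ a2, hS, eq_comm, inf_eq_right]
    exact a1.2.trans ((ofQuad Q).perp_anti a2)
  have b1 := Submodule.finrank_sup_add_finrank_inf_eq S (T ⊓ qperp Q W)
  rw [← hT, disjoint_iff.1 (hc.disjoint.mono h1' inf_le_right), finrank_bot] at b1
  omega

omit [DecidableEq ι] in
theorem plus_of_isometric {W W' : Submodule F (ι → F)} (e : AreIsometricFor Q W W')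
    (h : IsPlusTypeOn Q W) : IsPlusTypeOn Q W' := by
  obtain ⟨e, he⟩ := e
  obtain ⟨U, h1, h2⟩ := plus_iff_lag.1 h
  refine plus_iff_lag.2 ⟨U.map e.toLinearMap, ?_, by rw [e.finrank_map_eq, h2, e.finrank_eq]⟩
  rintro _ ⟨u, hu, rfl⟩; exact (he u).trans (h1 u hu)

omit [DecidableEq ι] in
theorem isometric_of_type [Finite F] {W W' : Submodule F (ι → F)}
    (hW : IsNondegenerateOn (polar Q) W) (hW' : IsNondegenerateOn (polar Q) W') {k : ℕ}
    (hk : finrank F W = 2 * k + 2) (hk' : finrank F W' = 2 * k + 2)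
    (h : IsPlusTypeOn Q W ↔ IsPlusTypeOn Q W') : AreIsometricFor Q W W' := by
  rw [plus_iff_lag, plus_iff_lag] at h
  by_cases h1 : ∃ U, IsLag (Q.comp W.subtype) U
  · obtain ⟨U', hU'⟩ := h.1 h1
    obtain ⟨U, hU⟩ := h1
    obtain ⟨e, he, -⟩ := exists_equiv_qPlus (nondeg_restrict hW) hU (m := k + 1) hk
    obtain ⟨e', he', -⟩ := exists_equiv_qPlus (nondeg_restrict hW') hU' (m := k + 1) hk'
    exact ⟨e.symm.trans e', fun w => (he' _).trans ((he _).symm.trans (by simp))⟩
  · obtain ⟨ζ, hζ⟩ := exists_aniso_one (F := F)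
    obtain ⟨e, he⟩ := exists_equiv_qMinus (nondeg_restrict hW) hk h1 hζ
    obtain ⟨e', he'⟩ := exists_equiv_qMinus (nondeg_restrict hW') hk' (mt h.2 h1) hζ
    exact ⟨e.symm.trans e', fun w => (he' _).trans ((he _).symm.trans (by simp))⟩

omit [DecidableEq ι] in
theorem exists_anti [Finite F] {W : Submodule F (ι → F)} (hW : IsNondegenerateOn (polar Q) W)
    (he : Even (finrank F W)) : ∃ ψ : W ≃ₗ[F] W, ∀ w, Q (ψ w) = -Q w := by
  by_cases h2 : (2 : F) = 0
  · exact ⟨LinearEquiv.refl F W, fun w => by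
      simp only [LinearEquiv.refl_apply]; linear_combination Q w * h2⟩
  have h1 := nondeg_restrict hW
  have h3 : (polarBilin (-(Q.comp W.subtype))).Nondegenerate := nondegenerate_of_polar fun x hx =>
    eq_zero_of_polar h1 fun y => by simpa [polar_neg] using hx y
  obtain ⟨g, hg⟩ := exists_equiv_of_isSquare_disc h2 h3 h1 (finBasis F W) (finBasis F W) rfl (by
    have : gram (⇑(-(Q.comp W.subtype))) (finBasis F W) = -gram (Q.comp W.subtype) (finBasis F W) := by
      ext i j; exact polar_neg _ _ _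
    rw [this, det_neg, Fintype.card_fin, he.neg_one_pow, one_mul]
    exact IsSquare.mul_self _)
  exact ⟨g, hg⟩

omit [DecidableEq ι] in
theorem plus_sup_of_isometric [Finite F] {W W' : Submodule F (ι → F)}
    (hW : IsNondegenerateOn (polar Q) W) (he : Even (finrank F W)) (e : AreIsometricFor Q W W')
    (ho : AreOrthogonalFor (polar Q) W W') (hd : Disjoint W W') : IsPlusTypeOn Q (W ⊔ W') := by
  obtain ⟨e, he'⟩ := e
  obtain ⟨ψ, hψ⟩ := exists_anti hW he
  let φ : W →ₗ[F] (ι → F) := W.subtype + W'.subtype ∘ₗ (ψ.trans e).toLinearMap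
  have hφ : ∀ u, φ u = u + e (ψ u) := fun u => rfl
  have hinj : Function.Injective φ := by
    rw [injective_iff_map_eq_zero]
    intro u hu
    refine Subtype.ext (Submodule.disjoint_def.1 hd u u.2 ?_)
    rw [eq_neg_of_add_eq_zero_left ((hφ u).symm.trans hu)]
    exact W'.neg_mem (e _).2
  refine ⟨LinearMap.range φ, ?_, ?_, ?_⟩
  · rintro _ ⟨u, rfl⟩; exact Submodule.add_mem_sup u.2 (e _).2
  · rintro _ ⟨u, rfl⟩
    rw [hφ, Q_add, he', hψ, ho _ u.2 _ (e _).2]; ring
  · have a2 := Submodule.finrank_sup_add_finrank_inf_eq W W'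
    rw [disjoint_iff.1 hd, finrank_bot, ← e.finrank_eq] at a2
    rw [LinearMap.finrank_range_of_inj hinj]; omega

/-! ### Orthogonal decompositions -/

section decomp

variable {t k : ℕ} {D : Fin t → Submodule F (ι → F)}

omit [Fintype ι] [DecidableEq ι] in
theorem orth_sup (hD : IsNondegenerateMDecomposition (polar Q) k D) {I : Finset (Fin t)} {i : Fin t}
    (hi : i ∉ I) : I.sup D ≤ qperp Q (D i) :=
  Finset.sup_le fun j hj w hw v hv => hD.orthogonal i j (fun h => hi (h ▸ hj)) v hv w hw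

omit [Fintype ι] [DecidableEq ι] in
theorem disjoint_sup_of_decomp (hD : IsNondegenerateMDecomposition (polar Q) k D)
    {I : Finset (Fin t)} {i : Fin t} (hi : i ∉ I) : Disjoint (D i) (I.sup D) :=
  (nondegOn_iff.1 (hD.nondegenerate i)).mono_right (orth_sup hD hi)

omit [Fintype ι] [DecidableEq ι] in
theorem sup_univ_of_decomp (hD : IsMDecomposition k D) : Finset.univ.sup D = ⊤ := by
  rw [Finset.sup_univ_eq_iSup, hD.iSup_eq_top]

omit [DecidableEq ι] in
theorem sup_erase_eq_qperp (hD : IsNondegenerateMDecomposition (polar Q) k D) (i : Fin t) :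
    (Finset.univ.erase i).sup D = qperp Q (D i) := by
  refine le_antisymm (orth_sup hD (Finset.notMem_erase i _)) fun v hv => ?_
  have h1 := sup_univ_of_decomp hD.decomp
  rw [← Finset.insert_erase (Finset.mem_univ i), Finset.sup_insert] at h1
  obtain ⟨a, ha, b, hb, rfl⟩ := Submodule.mem_sup.1 (h1 ▸ Submodule.mem_top : v ∈ _)
  have : a = 0 := Submodule.disjoint_def.1 (nondegOn_iff.1 (hD.nondegenerate i)) a ha
    (by simpa using (qperp Q (D i)).sub_mem hv (orth_sup hD (Finset.notMem_erase i _) hb))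
  rwa [this, zero_add]

omit [DecidableEq ι] in
theorem plus_sup_of_forall (hD : IsNondegenerateMDecomposition (polar Q) k D)
    (h : ∀ i, IsPlusTypeOn Q (D i)) (I : Finset (Fin t)) : IsPlusTypeOn Q (I.sup D) := by
  induction I using Finset.induction_on with
  | empty => exact plus_bot
  | insert i I hi ih =>
    rw [Finset.sup_insert]
    exact plus_sup (h i) ih (fun u hu v hv => orth_sup hD hi hv u hu) (disjoint_sup_of_decomp hD hi)

omit [DecidableEq ι] in
theorem plus_sup_of_even [Finite F] (hD : IsOrthogonalMDecomposition Q k D) (hk : Even k) (s : ℕ) :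
    ∀ I : Finset (Fin t), I.card = 2 * s → IsPlusTypeOn Q (I.sup D) := by
  induction s with
  | zero =>
    intro I hI
    rw [Finset.card_eq_zero.1 hI]
    exact plus_bot
  | succ s ih =>
    intro I₂ hI₂
    obtain ⟨a, I₁, ha, rfl, hI₁⟩ := Finset.card_eq_succ.1 (show I₂.card = (2 * s + 1) + 1 by omega)
    obtain ⟨b, I, hb, rfl, hI⟩ := Finset.card_eq_succ.1 hI₁
    have hab : a ≠ b := fun h => ha (h ▸ Finset.mem_insert_self _ _)
    have ha' : a ∉ I := fun h => ha (Finset.mem_insert_of_mem h)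
    rw [Finset.sup_insert, Finset.sup_insert, ← sup_assoc]
    have ho : I.sup D ≤ qperp Q (D a ⊔ D b) := by
      rw [qperp, PQ.perp_sup]; exact le_inf (orth_sup hD.decomp ha') (orth_sup hD.decomp hb)
    refine plus_sup (plus_sup_of_isometric (hD.decomp.nondegenerate a)
      ((hD.decomp.decomp.finrank_eq a).symm ▸ hk) (hD.isometric a b) (hD.decomp.orthogonal a b hab)
      (hD.decomp.decomp.indep.pairwiseDisjoint hab)) (ih I hI) (fun u hu v hv => ho hv u hu)
      (Disjoint.mono_right ho ?_)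
    exact PQ.disjoint_perp_sup _ (nondegOn_iff.1 (hD.decomp.nondegenerate a))
      (nondegOn_iff.1 (hD.decomp.nondegenerate b))
      fun w hw v hv => hD.decomp.orthogonal a b hab v hv w hw

omit [DecidableEq ι] in
theorem plus_of_even_even [Finite F] (hD : IsOrthogonalMDecomposition Q k D) (hk : Even k)
    (ht : Even t) : IsPlusTypeOn Q ⊤ := by
  obtain ⟨s, hs⟩ := ht
  rw [← sup_univ_of_decomp hD.decomp.decomp]
  exact plus_sup_of_even hD hk s _ (by simp; omega)

omit [DecidableEq ι] in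
theorem plus_iff_of_odd [Finite F] (hQ : (polarBilin Q).Nondegenerate)
    (hD : IsOrthogonalMDecomposition Q k D) (hk : Even k) (ht : Odd t) (i : Fin t) :
    IsPlusTypeOn Q ⊤ ↔ IsPlusTypeOn Q (D i) := by
  obtain ⟨s, hs⟩ := ht
  refine ⟨fun h => ?_, fun h => ?_⟩
  · have h1 := plus_sup_of_even hD hk s (Finset.univ.erase i) (by simp; omega)
    rw [sup_erase_eq_qperp hD.decomp] at h1
    have := plus_qperp hQ h (nondegOn_qperp hQ (hD.decomp.nondegenerate i)) h1
    rwa [qperp_qperp hQ] at this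
  · rw [← sup_univ_of_decomp hD.decomp.decomp]
    exact plus_sup_of_forall hD.decomp (fun j => plus_of_isometric (hD.isometric i j) h) _

theorem exists_basis_decomp (hD : IsNondegenerateMDecomposition (polar Q) k D)
    (c : ∀ i, Basis (Fin k) F (D i)) : ∃ b : Basis (Fin k × Fin t) F (ι → F),
      (gram Q b).det = ∏ i, (gram (Q.comp (D i).subtype) (c i)).det := by
  let v : Fin k × Fin t → ι → F := fun p => c p.2 p.1
  refine ⟨basisOfTopLeSpanOfCardEqFinrank v ?_ ?_, ?_⟩
  · rw [← hD.decomp.iSup_eq_top]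
    refine iSup_le fun i w hw => ?_
    have h2 := congrArg Subtype.val ((c i).sum_repr ⟨w, hw⟩)
    simp only [AddSubmonoidClass.coe_finsetSum, SetLike.val_smul] at h2
    rw [← h2]
    exact Submodule.sum_mem _ fun l _ => Submodule.smul_mem _ _ (Submodule.subset_span ⟨(l, i), rfl⟩)
  · simp [← card_eq_of_decomp hD.decomp, mul_comm]
  · rw [← det_blockDiagonal, coe_basisOfTopLeSpanOfCardEqFinrank]
    congr 1
    ext ⟨l, i⟩ ⟨l', j⟩
    rw [blockDiagonal_apply]
    split_ifs with h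
    · obtain rfl : i = j := h
      exact (polar_map_of_map_Q (D i).subtype (fun _ => rfl) _ _)
    · exact hD.orthogonal i j h _ (c i l).2 _ (c j l').2

end decomp

theorem plus_iff_disc [Finite F] (hQ : (polarBilin Q).Nondegenerate) (h2 : (2 : F) ≠ 0) {κ : Type*}
    [Fintype κ] [DecidableEq κ] (b : Basis κ F (ι → F)) {m : ℕ} (hm : Fintype.card ι = 2 * m) :
    IsPlusTypeOn Q ⊤ ↔ IsSquare ((gram Q b).det * (-1) ^ m) := by
  rw [gram_eq_toMatrix, ← exists_half_isotropic_iff h2 _ (polarBilin_isSymm Q) hQ b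
    (by rw [finrank_fintype_fun_eq_card, hm]), plus_top_iff]
  refine exists_congr fun U => ?_
  rw [IsLag, finrank_fintype_fun_eq_card, hm, and_comm]
  refine and_congr (by omega) ⟨fun h x hx y hy => polar_eq_zero_of_singular h hx hy, fun h x hx => ?_⟩
  have := h x hx x hx
  rw [polarBilin_apply_apply, polar_self'] at this
  exact (mul_eq_zero.1 this).resolve_left h2

theorem gram_isometric {W W' : Submodule F (ι → F)} (e : W ≃ₗ[F] W')
    (he : ∀ w : W, Q (e w) = Q w) {κ : Type*} (c : Basis κ F W) :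
    gram (Q.comp W'.subtype) (c.map e) = gram (Q.comp W.subtype) c := by
  ext i j
  exact polar_map_of_map_Q (Q := Q.comp W.subtype) (Q' := Q.comp W'.subtype) e.toLinearMap he _ _

/-- an even number of isometric summands -/
theorem plus_iff_of_even [Finite F] (hQ : (polarBilin Q).Nondegenerate) (h2 : (2 : F) ≠ 0)
    {t k : ℕ} {D : Fin t → Submodule F (ι → F)} (hD : IsOrthogonalMDecomposition Q k D)
    (ht : Even t) {m : ℕ} (hm : Fintype.card ι = 2 * m) :
    IsPlusTypeOn Q ⊤ ↔ IsSquare ((-1 : F) ^ m) := by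
  have h0 := hD.decomp.decomp.two_le
  let i0 : Fin t := ⟨0, by omega⟩
  choose e he using hD.isometric i0
  let c := finBasisOfFinrankEq F (D i0) (hD.decomp.decomp.finrank_eq i0)
  obtain ⟨b, hb⟩ := exists_basis_decomp hD.decomp fun i => c.map (e i)
  simp only [gram_isometric _ (he _), Finset.prod_const, Finset.card_univ, Fintype.card_fin] at hb
  obtain ⟨s, rfl⟩ := ht
  rw [plus_iff_disc hQ h2 b hm, hb, pow_add]
  exact isSquare_mul_self_mul_iff
    (pow_ne_zero _ (det_gram_ne_zero (nondeg_restrict (hD.decomp.nondegenerate i0)) c))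

/-- two non-isometric halves -/
theorem plus_iff_of_not_isometric [Finite F] (hQ : (polarBilin Q).Nondegenerate) (h2 : (2 : F) ≠ 0)
    {k : ℕ} {D : Fin 2 → Submodule F (ι → F)} (hD : IsNondegenerateMDecomposition (polar Q) k D)
    (hn : ¬ AreIsometricFor Q (D 0) (D 1)) : IsPlusTypeOn Q ⊤ ↔ ¬ IsSquare ((-1 : F) ^ k) := by
  let c := fun i => finBasisOfFinrankEq F (D i) (hD.decomp.finrank_eq i)
  obtain ⟨b, hb⟩ := exists_basis_decomp hD c
  rw [plus_iff_disc hQ h2 b (card_eq_of_decomp hD.decomp).symm,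
    isSquare_mul_iff_of_finite (det_gram_ne_zero hQ b) (by simp), hb, Fin.prod_univ_two]
  have : ¬ IsSquare ((gram (Q.comp (D 0).subtype) (c 0)).det *
      (gram (Q.comp (D 1).subtype) (c 1)).det) := fun h =>
    hn (exists_equiv_of_isSquare_disc h2 (nondeg_restrict (hD.nondegenerate 0))
      (nondeg_restrict (hD.nondegenerate 1)) (c 0) (c 1) rfl h)
  tauto

theorem isSquare_neg_one_pow_iff [Fintype F] (h2 : (2 : F) ≠ 0) {m : ℕ} (hm : Odd m) :
    IsSquare ((-1 : F) ^ m) ↔ Fintype.card F % 4 = 1 := by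
  have := card_odd_of_two_ne_zero h2
  rw [hm.neg_one_pow, FiniteField.isSquare_neg_one_iff]; omega

/-! ### The commutator subgroup -/

theorem mem_omegaGL {g : GL ι F} :
    g ∈ omegaGL Q ↔ ∃ h ∈ commutator (OG Q), ofOG Q h = g := by
  constructor
  · rintro ⟨x, hx, rfl⟩
    exact ⟨toOG Q x, (mem_Omega_iff Q x).1 hx, by simp [ofOG]⟩
  · rintro ⟨h, hh, rfl⟩
    exact ⟨(toOG Q).symm h, (mem_Omega_iff Q _).2 (by simpa using hh), rfl⟩

theorem omegaGL_le (q : (ι → F) → F) : omegaGL q ≤ isometryGroup F q := Subgroup.map_subtype_le _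

theorem fixQ_of_le_omega {q : (ι → F) → F} {H : Subgroup (GL ι F)} (h : H ≤ omegaGL q) :
    FixesQuadForm (matrixSet H) q := fixQ_iff_le.2 (h.trans (omegaGL_le q))

theorem det_of_mem_omegaGL {q : (ι → F) → F} {g : GL ι F} (h : g ∈ omegaGL q) :
    (g : Matrix ι ι F).det = 1 := by
  rw [ClMax.omegaGL_eq_commutator] at h
  have : ⁅isometryGroup F q, isometryGroup F q⁆ ≤ specialLinear ι F :=
    Subgroup.commutator_le.2 fun a _ b _ => by
      rw [specialLinear, MonoidHom.mem_ker, map_commutatorElement,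
        commutatorElement_eq_one_iff_mul_comm, mul_comm]
  exact ClMax.mem_specialLinear.1 (this h)

theorem even_of_mem_omegaGL [Finite F] (hQ : (polarBilin Q).Nondegenerate)
    (h5 : 5 ≤ Fintype.card ι) {U : Submodule F (ι → F)} (hU : IsLag Q U) {g : GL ι F}
    (hg : g ∈ omegaGL Q) :
    Even (finrank F U - finrank F ↥(U ⊓ U.map (toLin' (g : Matrix ι ι F)))) := by
  obtain ⟨h, hh, rfl⟩ := mem_omegaGL.1 hg
  have := (dickson_eq_one_iff_lag hQ (h24_five h5) hU h).1
    ((mem_commutator_iff hQ (h24_five h5) h).1 hh).1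
  have e : act h U = U.map (toLin' ((ofOG Q h : GL ι F) : Matrix ι ι F)) :=
    congrArg (U.map ·) (LinearMap.ext fun v => (ofOG_mulVec h v).symm)
  rwa [e] at this

/-- a submaximal singular subspace in plus type -/
theorem exists_lag_of_submaximal [Finite F] (hQ : (polarBilin Q).Nondegenerate)
    (h5 : 5 ≤ Fintype.card ι) (hp : IsPlusTypeOn Q ⊤) {H : Subgroup (GL ι F)} (hH : H ≤ omegaGL Q)
    {W : Submodule F (ι → F)} (hW : IsTotallySingularQuad Q W)
    (hd : 2 * (finrank F W + 1) = Fintype.card ι) (hle : H ≤ subspaceStabilizer W) :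
    ∃ U : Submodule F (ι → F), IsTotallySingularQuad Q U ∧ finrank F U = finrank F W + 1 ∧
      H ≤ subspaceStabilizer U := by
  obtain ⟨T, h1, h2⟩ := plus_top_iff.1 hp
  rw [finrank_fintype_fun_eq_card] at h2
  obtain ⟨U, a1, a2, a3⟩ := (RootMax.ts_ofQuad hW).exists_le (ofQuad_nondeg Q hQ)
    (RootMax.ts_ofQuad h1) (by omega)
  refine ⟨U, ts_ofQuad_iff.1 a1, by omega, le_subspaceStabilizer_iff.2 fun g hg => ?_⟩
  have b1 := even_of_mem_omegaGL hQ h5
    ⟨ts_ofQuad_iff.1 a1, by rw [finrank_fintype_fun_eq_card]; omega⟩ (hH hg)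
  have b2 : W ≤ U ⊓ U.map (toLin' (g : Matrix ι ι F)) := le_inf a2 fun w hw =>
    ⟨_, a2 (le_subspaceStabilizer_iff.1 hle _ (H.inv_mem hg) w hw), mulVec_inv_mulVec g w⟩
  have b3 := Submodule.finrank_mono b2
  have b4 := Submodule.finrank_mono (inf_le_right : U ⊓ U.map (toLin' (g : Matrix ι ι F)) ≤ _)
  have b5 := finrank_map_toLin' g U
  rw [← map_toLin'_le_iff, ← Submodule.eq_of_le_of_finrank_le
    (inf_le_right : U ⊓ U.map (toLin' (g : Matrix ι ι F)) ≤ _) (by
      obtain ⟨s, hs⟩ := b1; omega)]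
  exact inf_le_left

/-- two complementary maximal singular subspaces of odd dimension are not interchanged -/
theorem le_stab_of_pair_odd [Finite F] (hQ : (polarBilin Q).Nondegenerate)
    (h5 : 5 ≤ Fintype.card ι) {H : Subgroup (GL ι F)} (hH : H ≤ omegaGL Q) {k : ℕ} (hk : Odd k)
    {D : Fin 2 → Submodule F (ι → F)} (hD : IsMDecomposition k D)
    (hs : ∀ i, IsTotallySingularQuad Q (D i)) (hle : H ≤ decompositionStabilizer D) :
    H ≤ subspaceStabilizer (D 0) := by
  refine le_subspaceStabilizer_iff.2 fun g hg => ?_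
  have b1 := even_of_mem_omegaGL hQ h5 (U := D 0) ⟨hs 0, by
    rw [finrank_fintype_fun_eq_card, hD.finrank_eq, card_eq_of_decomp hD]⟩ (hH hg)
  obtain ⟨τ, hτ⟩ := hle hg
  rw [← map_toLin'_le_iff, hτ]
  by_cases h : τ 0 = 0
  · rw [h]
  · rw [hτ, disjoint_iff.1 (hD.indep.pairwiseDisjoint (Ne.symm h)), finrank_bot, hD.finrank_eq,
      Nat.sub_zero] at b1
    exact absurd b1 (Nat.not_even_iff_odd.2 hk)

end CfsgLib.Asch
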