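import Mathlib
import Cfsg.Agent.Lib.Asch.OrthType
import Cfsg.Agent.Lib.Asch.Bilin
import Cfsg.Agent.Lib.Asch.UnitaryA
import Cfsg.Agent.Lib.Orth.Descent

/-! Orthogonal decompositions and subfield structures obtained from orbits. -/

set_option autoImplicit false

namespace CfsgLib.Asch

open Cfsg Cfsg.Geo Matrix QuadraticMap Module CfsgLib.Orth CfsgLib.Forms
open scoped MatrixGroups

variable {ι : Type} [Fintype ι] [DecidableEq ι] {F : Type*} [Field F]
  {Q : QuadraticForm F (ι → F)} {H : Subgroup (GL ι F)}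

/-- image of a subspace -/
abbrev gmap (g : GL ι F) (W : Submodule F (ι → F)) : Submodule F (ι → F) :=
  W.map (toLin' (g : Matrix ι ι F))

theorem gmap_gmap (g h : GL ι F) (W : Submodule F (ι → F)) : gmap g (gmap h W) = gmap (g * h) W := by
  rw [gmap, gmap, gmap, Units.val_mul, toLin'_mul, Submodule.map_comp]

theorem gmap_one (W : Submodule F (ι → F)) : gmap 1 W = W := by simp [gmap]

theorem gmap_injective (g : GL ι F) : Function.Injective (gmap g) :=
  Submodule.map_injective_of_injective (toLin'_injective g)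

theorem fixQ_polar (hH : FixesQuadForm (matrixSet H) Q) {g : GL ι F} (hg : g ∈ H) (u v : ι → F) :
    polar Q ((g : Matrix ι ι F) *ᵥ u) ((g : Matrix ι ι F) *ᵥ v) = polar Q u v :=
  fixesForm_iff.1 (fixesForm_polar hH) g hg u v

theorem isometric_gmap (hH : FixesQuadForm (matrixSet H) Q) {g : GL ι F} (hg : g ∈ H)
    (W : Submodule F (ι → F)) : AreIsometricFor Q W (gmap g W) :=
  ⟨Submodule.equivMapOfInjective _ (toLin'_injective g) W, fun w => fixQ_iff.1 hH g hg w⟩

theorem nondegOn_gmap (hH : FixesQuadForm (matrixSet H) Q) {g : GL ι F} (hg : g ∈ H)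
    {W : Submodule F (ι → F)} (hW : IsNondegenerateOn (polar Q) W) :
    IsNondegenerateOn (polar Q) (gmap g W) := by
  rw [nondegOn_iff, Submodule.disjoint_def] at hW ⊢
  rintro _ ⟨w, hw, rfl⟩ h
  rw [hW w hw fun u hu => (fixQ_polar hH hg u w).symm.trans (h _ ⟨u, hu, rfl⟩), map_zero]

theorem orthDecomp_of_trans (hH : FixesQuadForm (matrixSet H) Q) {t k : ℕ}
    {D : Fin t → Submodule F (ι → F)} (hD : IsNondegenerateMDecomposition (polar Q) k D)
    (h : ∀ i j, ∃ h ∈ H, gmap h (D i) = D j) : IsOrthogonalMDecomposition Q k D :=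
  ⟨hD, fun i j => by obtain ⟨g, hg, h'⟩ := h i j; exact h' ▸ isometric_gmap hH hg _⟩

/-- a non-degenerate subspace whose images are equal or orthogonal to it -/
theorem decomp_of_orbit [Finite F] (hH : FixesQuadForm (matrixSet H) Q)
    (hirr : ActsIrreducibly (matrixSet H)) {W : Submodule F (ι → F)} (h0 : W ≠ ⊥) (h1 : W ≠ ⊤)
    (hW : IsNondegenerateOn (polar Q) W)
    (horb : ∀ h ∈ H, gmap h W = W ∨ gmap h W ≤ qperp Q W) :
    ∃ (t : ℕ) (D : Fin t → Submodule F (ι → F)), IsOrthogonalMDecomposition Q (finrank F W) D ∧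
      H ≤ decompositionStabilizer D ∧ ∃ i, D i = W := by
  let O : Set (Submodule F (ι → F)) := {U | ∃ h ∈ H, gmap h W = U}
  have : Finite (Submodule F (ι → F)) := Finite.of_injective _ SetLike.coe_injective
  let e := (Finite.equivFin O).symm
  let D : Fin (Nat.card O) → Submodule F (ι → F) := fun i => e i
  have hD : ∀ i, ∃ h ∈ H, gmap h W = D i := fun i => (e i).2
  have hD' : ∀ h ∈ H, ∃ i, D i = gmap h W := fun h hh =>
    ⟨e.symm ⟨_, h, hh, rfl⟩, congrArg Subtype.val (e.apply_symm_apply _)⟩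
  have hinj : Function.Injective D := Subtype.val_injective.comp e.injective
  have hmap : ∀ g ∈ H, ∀ i, ∃ j, D j = gmap g (D i) := fun g hg i => by
    obtain ⟨h, hh, h'⟩ := hD i
    rw [← h', gmap_gmap]; exact hD' _ (H.mul_mem hg hh)
  have horth : ∀ i j, i ≠ j → AreOrthogonalFor (polar Q) (D i) (D j) := fun i j hij => by
    obtain ⟨h, hh, e1⟩ := hD i
    obtain ⟨g, hg, e2⟩ := hD j
    rcases horb _ (H.mul_mem (H.inv_mem hh) hg) with h' | h'
    · exact absurd (hinj (by rw [← e1, ← e2, ← h', gmap_gmap, mul_inv_cancel_left, h'])) hij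
    · rw [← e1, ← e2]
      rintro _ ⟨u, hu, rfl⟩ _ ⟨v, hv, rfl⟩
      rw [toLin'_apply, toLin'_apply, ← fixQ_polar hH (H.inv_mem hh), inv_mulVec_mulVec,
        mulVec_mulVec]
      exact h' ⟨v, hv, rfl⟩ u hu
  have hnd : ∀ i, IsNondegenerateOn (polar Q) (D i) := fun i => by
    obtain ⟨h, hh, e1⟩ := hD i
    exact e1 ▸ nondegOn_gmap hH hh hW
  obtain ⟨i₀, hi₀⟩ := hD' 1 H.one_mem
  rw [gmap_one] at hi₀
  have htop : iSup D = ⊤ := by
    refine (irred_iff.1 hirr _ fun g hg => map_toLin'_le_iff.1 ?_).resolve_left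
      fun h => h0 (eq_bot_iff.2 (hi₀ ▸ h ▸ le_iSup D i₀))
    rw [Submodule.map_iSup]
    exact iSup_le fun i => by obtain ⟨j, hj⟩ := hmap g hg i; exact hj.ge.trans (le_iSup D j)
  refine ⟨_, D, orthDecomp_of_trans hH ⟨⟨?_, ?_, fun i => ?_, fun i => ?_, htop⟩, hnd, horth⟩
    fun i j => ?_, fun g hg => ?_, i₀, hi₀⟩
  · by_contra h
    refine h1 (eq_top_iff.2 (htop ▸ iSup_le fun i => ?_))
    rw [show i = i₀ from Fin.ext (by omega), hi₀]
  · exact Nat.pos_of_ne_zero (mt Submodule.finrank_eq_zero.1 h0)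
  · obtain ⟨h, -, e1⟩ := hD i
    rw [← e1, finrank_map_toLin']
  · refine (nondegOn_iff.1 (hnd i)).mono_right (iSup₂_le fun j hj => ?_)
    exact fun v hv u hu => horth i j (Ne.symm hj) u hu v hv
  · obtain ⟨h, hh, e1⟩ := hD i
    obtain ⟨g, hg, e2⟩ := hD j
    exact ⟨_, H.mul_mem hg (H.inv_mem hh), by rw [← e1, gmap_gmap, inv_mul_cancel_right, e2]⟩
  · choose s hs using hmap g hg
    exact ⟨Equiv.ofBijective s (Finite.injective_iff_bijective.1 fun i j h =>
      hinj (gmap_injective g (by rw [← hs, ← hs, h]))), fun i => (hs i).symm⟩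

/-- a vector whose images are proportional or orthogonal to it -/
theorem frame_of_orbit [Finite F] (hH : FixesQuadForm (matrixSet H) Q)
    (hirr : ActsIrreducibly (matrixSet H)) (h2 : 2 ≤ Fintype.card ι) {v : ι → F}
    (hv : polar Q v v ≠ 0) (horb : ∀ h ∈ H, (h : Matrix ι ι F) *ᵥ v ∈ Submodule.span F {v} ∨
      polar Q v ((h : Matrix ι ι F) *ᵥ v) = 0) :
    ∃ D : Fin (Fintype.card ι) → Submodule F (ι → F), IsOrthogonalMDecomposition Q 1 D ∧
      H ≤ decompositionStabilizer D := by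
  have h0 : v ≠ 0 := by rintro rfl; simp at hv
  have h1 := finrank_span_singleton (K := F) h0
  obtain ⟨t, D, hD, hle, -⟩ := decomp_of_orbit hH hirr (W := Submodule.span F {v}) (by simpa)
    (fun h => by rw [h, finrank_top, finrank_fintype_fun_eq_card] at h1; omega)
    (nondegOn_iff.2 (Submodule.disjoint_def.2 fun w hw hw' => by
      obtain ⟨c, rfl⟩ := Submodule.mem_span_singleton.1 hw
      have := mem_qperp.1 hw' v (Submodule.mem_span_singleton_self v)
      rw [polar_smul_right, smul_eq_mul, mul_eq_zero] at this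
      rw [this.resolve_right hv, zero_smul])) fun h hh => by
    rw [gmap, Submodule.map_span, Set.image_singleton]
    refine (horb h hh).imp (fun h' => Submodule.eq_of_le_of_finrank_eq
      ((Submodule.span_singleton_le_iff_mem _ _).2 h') ?_) fun h' => ?_
    · rw [← Set.image_singleton, ← Submodule.map_span, finrank_map_toLin']
    · refine (Submodule.span_singleton_le_iff_mem _ _).2 (mem_qperp.2 fun w hw => ?_)
      obtain ⟨c, rfl⟩ := Submodule.mem_span_singleton.1 hw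
      rw [polar_smul_left, toLin'_apply, h', smul_zero]
  rw [h1] at hD
  obtain rfl : t = Fintype.card ι := by simpa using card_eq_of_decomp hD.decomp.decomp
  exact ⟨D, hD, hle⟩

theorem mem_decomp_of_le {t : ℕ} {D : Fin t → Submodule F (ι → F)}
    (hle : H ≤ decompositionStabilizer D) {g : GL ι F} (hg : g ∈ H) (i : Fin t) :
    ∃ j, gmap g (D i) = D j := by
  obtain ⟨τ, hτ⟩ := hle hg
  exact ⟨_, hτ i⟩

omit [DecidableEq ι] in
theorem matrix_ext_decomp {t k : ℕ} {D : Fin t → Submodule F (ι → F)} (hD : IsMDecomposition k D)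
    {a b : Matrix ι ι F} (h : ∀ i, ∀ v ∈ D i, a *ᵥ v = b *ᵥ v) : a = b := by
  classical
  refine matrix_ext_mulVec fun v => ?_
  refine Submodule.iSup_induction D (motive := fun v => a *ᵥ v = b *ᵥ v)
    (hD.iSup_eq_top ▸ Submodule.mem_top) h (by simp) fun x y hx hy => ?_
  rw [mulVec_add, mulVec_add, hx, hy]

theorem not_noComm_of_decomp {σ : F →+* F} {ε : F} {f : (ι → F) → (ι → F) → F} (hf : IsSesq σ ε f)
    {t k : ℕ} {D : Fin t → Submodule F (ι → F)} (hD : IsNondegenerateMDecomposition f k D)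
    (hle : H ≤ decompositionStabilizer D) : ¬ NoComm f H := by
  intro hc
  let C : Subalgebra F (Matrix ι ι F) :=
    { carrier := {x | ∀ i, ∃ c : F, ∀ v ∈ D i, x *ᵥ v = c • v}
      mul_mem' := fun {a b} ha hb i => by
        obtain ⟨c, hc⟩ := ha i
        obtain ⟨d, hd⟩ := hb i
        exact ⟨d * c, fun v hv => by rw [← mulVec_mulVec, hd v hv, mulVec_smul, hc v hv, smul_smul]⟩
      add_mem' := fun {a b} ha hb i => by
        obtain ⟨c, hc⟩ := ha i
        obtain ⟨d, hd⟩ := hb i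
        exact ⟨c + d, fun v hv => by rw [add_mulVec, hd v hv, hc v hv, add_smul]⟩
      algebraMap_mem' := fun c i => ⟨c, fun v _ => by
        rw [Algebra.algebraMap_eq_smul_one, smul_mulVec, one_mulVec]⟩ }
  have hC : C = ⊥ := by
    refine hc C (fun g hg x hx i => ?_) (hf.adjClosed_iff.2 fun x hx i => ?_)
      fun x hx y hy => matrix_ext_decomp hD.decomp fun i v hv => ?_
    · obtain ⟨j, hj⟩ := mem_decomp_of_le hle (H.inv_mem hg) i
      obtain ⟨c, hc⟩ := hx j
      refine ⟨c, fun v hv => ?_⟩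
      conv_lhs => rw [← mulVec_inv_mulVec g v, cj_mulVec, hc _ (hj ▸ ⟨v, hv, rfl⟩), mulVec_smul,
        mulVec_inv_mulVec]
    · obtain ⟨c, hc⟩ := hx i
      refine ⟨σ c, fun v hv => hf.ext_right fun u => ?_⟩
      refine Submodule.iSup_induction D (motive := fun u => f u (adj σ f x *ᵥ v) = f u (σ c • v))
        (hD.decomp.iSup_eq_top ▸ Submodule.mem_top) (fun j w hw => ?_)
        (by simp [hf.sesq0.zero_left]) fun x y hx hy => by rw [hf.add_left, hf.add_left, hx, hy]
      rw [← hf.adj_spec, hf.sesq0.smul_right, hf.invol]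
      by_cases hij : j = i
      · rw [hc w (hij ▸ hw), hf.smul_left]
      · obtain ⟨d, hd⟩ := hx j
        rw [hd w hw, hf.smul_left, hD.orthogonal j i hij w hw v hv, mul_zero, mul_zero]
    · obtain ⟨c, hc⟩ := hx i
      obtain ⟨d, hd⟩ := hy i
      rw [← mulVec_mulVec, ← mulVec_mulVec, hc v hv, hd v hv, mulVec_smul, mulVec_smul, hc v hv,
        hd v hv, smul_comm]
  have ht := hD.decomp.two_le
  let i : Fin t := ⟨0, by omega⟩
  let j : Fin t := ⟨1, by omega⟩
  have hc := hf.isCompl_perp (hf.inf_perp_eq_bot (hD.nondegenerate i))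
  let p := LinearMap.toMatrix' ((D i).projection _ hc)
  have h1 : ∀ v ∈ D i, p *ᵥ v = v := fun v hv => by
    rw [LinearMap.toMatrix'_mulVec]; exact Submodule.projection_apply_of_mem_left hc hv
  have h2 : ∀ l, l ≠ i → ∀ v ∈ D l, p *ᵥ v = 0 := fun l hl v hv => by
    rw [LinearMap.toMatrix'_mulVec]
    exact Submodule.projection_apply_of_mem_right hc fun w hw => hD.orthogonal l i hl v hv w hw
  obtain ⟨c, hc'⟩ := mem_bot_iff.1 (hC ▸ (show p ∈ C from fun l => by
    by_cases hl : l = i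
    · exact ⟨1, fun v hv => by rw [one_smul, h1 v (hl ▸ hv)]⟩
    · exact ⟨0, fun v hv => by rw [zero_smul, h2 l hl v hv]⟩))
  have hne : ∀ l, ∃ v ∈ D l, v ≠ 0 := fun l => Submodule.exists_mem_ne_zero_of_ne_bot fun h => by
    have := hD.decomp.finrank_eq l; have := hD.decomp.pos
    rw [h, finrank_bot] at *; omega
  obtain ⟨v, hv, hv0⟩ := hne i
  obtain ⟨w, hw, hw0⟩ := hne j
  have h3 := h1 v hv
  have h4 := h2 j (by simp [i, j]) w hw
  rw [hc', smul_mulVec, one_mulVec] at h3 h4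
  rw [(smul_eq_zero.1 h4).resolve_right hw0, zero_smul] at h3
  exact hv0 h3.symm

/-- a perfect group cannot permute at most four summands transitively -/
theorem not_irred_of_perfect (hp : ⁅H, H⁆ = H) {t k : ℕ} {D : Fin t → Submodule F (ι → F)}
    (hD : IsMDecomposition k D) (hle : H ≤ decompositionStabilizer D)
    (hs : Group.IsSolvable (Equiv.Perm (Fin t))) : ¬ ActsIrreducibly (matrixSet H) := by
  intro hirr
  have hne : ∀ l, D l ≠ ⊥ := fun l h => by
    have := hD.finrank_eq l; have := hD.pos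
    rw [h, finrank_bot] at *; omega
  have hinj : Function.Injective D := hD.indep.injective hne
  let φ : decompositionStabilizer D →* Equiv.Perm (Fin t) := MonoidHom.mk' (fun g => g.2.choose)
    fun a b => Equiv.ext fun i => hinj (by
      rw [← (a * b).2.choose_spec, Equiv.Perm.mul_apply, ← a.2.choose_spec, ← b.2.choose_spec]
      exact (gmap_gmap _ _ _).symm)
  have h1 : (H.subgroupOf (decompositionStabilizer D)).map φ = ⊥ := by
    refine Comp.eq_bot_of_perfect_of_le_solvable ?_ le_top inferInstance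
    rw [← Subgroup.map_commutator]
    congr 1
    apply Subgroup.map_injective (decompositionStabilizer D).subtype_injective
    rw [Subgroup.map_commutator, Subgroup.map_subgroupOf_eq_of_le hle, hp]
  have ht := hD.two_le
  rcases irred_iff.1 hirr (D ⟨0, by omega⟩) (fun g hg => map_toLin'_le_iff.1 (by
    have h2 : φ ⟨g, hle hg⟩ = 1 := Subgroup.mem_bot.1 (h1 ▸ Subgroup.mem_map_of_mem φ hg)
    have h3 := (hle hg).choose_spec ⟨0, by omega⟩
    rw [show (hle hg).choose = 1 from h2] at h3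
    exact h3.le)) with h | h
  · exact hne _ h
  · have : Disjoint (D ⟨0, by omega⟩) (D ⟨1, by omega⟩) := hD.indep.pairwiseDisjoint (by simp)
    exact hne _ (top_disjoint.1 (h ▸ this))

/-! ### Subfields -/

/-- `H` preserves a subfield structure carrying a multiple of the form -/
def OSub [Fintype F] (Q : (ι → F) → F) (H : Subgroup (GL ι F)) : Prop :=
  ∃ (F₀ : Subfield F) (r : ℕ) (P : GL ι F) (ζ : F), r.Prime ∧ Fintype.card F = Nat.card F₀ ^ r ∧
    ζ ≠ 0 ∧ IsQuadFormRationalStructure (fun v => ζ * Q v) F₀ P ∧ H ≤ subfieldSubgroup F₀ P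

theorem quadRational_of_basis {F₀ : Subfield F} {P : GL ι F} {ζ : F}
    (h1 : IsFormRationalStructure (polar Q) F₀ ζ P)
    (h2 : ∀ i, ζ * Q ((P : Matrix ι ι F) *ᵥ Pi.single i 1) ∈ F₀) :
    IsQuadFormRationalStructure (fun v => ζ * Q v) F₀ P := by
  intro u hu
  have key : ∀ s : Finset ι, (∀ j, (∑ i ∈ s, u i • (Pi.single i 1 : ι → F)) j ∈ F₀) ∧
      ζ * Q ((P : Matrix ι ι F) *ᵥ ∑ i ∈ s, u i • (Pi.single i 1 : ι → F)) ∈ F₀ := fun s => by
    induction s using Finset.induction_on with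
    | empty => simp
    | insert i s hi ih =>
      rw [Finset.sum_insert hi]
      refine ⟨fun j => F₀.add_mem (F₀.mul_mem (hu i) (rat_single F₀ i j)) (ih.1 j), ?_⟩
      rw [mulVec_add, Q_add, mul_add, mul_add, mulVec_smul, Q_smul, mul_left_comm, ← mulVec_smul]
      exact F₀.add_mem (F₀.add_mem (F₀.mul_mem (F₀.mul_mem (hu i) (hu i)) (h2 i)) ih.2)
        (h1 _ _ (fun j => F₀.mul_mem (hu i) (rat_single F₀ i j)) ih.1)
  have := (key Finset.univ).2
  rwa [← pi_eq_sum_univ'] at this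

theorem exists_GL_of_span {O : Set (ι → F)} (hO : ⊤ ≤ Submodule.span F O) :
    ∃ P : GL ι F, ∀ i, (P : Matrix ι ι F) *ᵥ Pi.single i 1 ∈ O := by
  let b₀ := Basis.ofSpan hO
  let b := b₀.reindex (b₀.indexEquiv (Pi.basisFun F ι))
  let _ := (Pi.basisFun F ι).invertibleToMatrix b
  refine ⟨unitOfInvertible ((Pi.basisFun F ι).toMatrix b), fun i => ?_⟩
  have hb : b i ∈ O := Basis.ofSpan_subset hO ⟨_, (b₀.reindex_apply _ i).symm⟩
  convert hb using 1
  rw [mulVec_single_one]; ext j; simp [Basis.toMatrix_apply]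

theorem subfield_of_orbit [Fintype F] (hQ : (polarBilin Q).Nondegenerate)
    (hH : FixesQuadForm (matrixSet H) Q) (hirr : ActsIrreducibly (matrixSet H)) {v : ι → F}
    (hv : v ≠ 0) {F₀ : Subfield F} (h0 : F₀ ≠ ⊤) {ζ : F} (hζ : ζ ≠ 0) (h1 : ζ * Q v ∈ F₀)
    (h2 : ∀ h ∈ H, ζ * polar Q v ((h : Matrix ι ι F) *ᵥ v) ∈ F₀) : OSub Q H := by
  obtain ⟨F₁, r, hle, hr, hc⟩ := exists_maximal_subfield h0
  let O : Set (ι → F) := {w | ∃ h ∈ H, (h : Matrix ι ι F) *ᵥ v = w}
  have hO : ⊤ ≤ Submodule.span F O := by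
    refine ((irred_iff.1 hirr _ fun g hg => map_toLin'_le_iff.1 ?_).resolve_left fun h => hv ?_).ge
    · rw [Submodule.map_span]
      refine Submodule.span_mono ?_
      rintro _ ⟨_, ⟨h, hh, rfl⟩, rfl⟩
      exact ⟨_, H.mul_mem hg hh, by rw [Units.val_mul, ← mulVec_mulVec]; rfl⟩
    · exact (Submodule.mem_bot F).1 (h ▸ Submodule.subset_span ⟨1, H.one_mem, by simp⟩)
  obtain ⟨P, hb⟩ := exists_GL_of_span hO
  have hOO : ∀ x ∈ O, ∀ y ∈ O, ζ * polar Q x y ∈ F₁ := by
    rintro _ ⟨g, hg, rfl⟩ _ ⟨h, hh, rfl⟩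
    rw [← fixQ_polar hH (H.inv_mem hg), inv_mulVec_mulVec, mulVec_mulVec, ← Units.val_mul]
    exact hle (h2 _ (H.mul_mem (H.inv_mem hg) hh))
  have hf := (isSesq_polar hQ).inCoord (Equiv.refl ι) P
  have hG : Rat F₁ (((Units.mk0 ζ hζ : Fˣ) : F) • (hf.gramU : Matrix ι ι F)) := fun i j =>
    hOO _ (hb i) _ (hb j)
  refine ⟨F₁, r, P, ζ, hr, hc, hζ, quadRational_of_basis (fun u w hu hw => ?_) fun i => ?_,
    fun g hg => mem_subfieldSubgroup.2 ⟨1, ?_⟩⟩
  · rw [← inCoord_refl (polar Q), hf.sesq0.eq_gform, ← gform_smul]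
    exact hG.gform_mem (fun _ h => h) hu hw
  · obtain ⟨g, hg, h⟩ := hb i
    rw [← h, fixQ_iff.1 hH g hg]; exact hle h1
  · have h3 : Rat F₁ (ζ • ((hf.gramU : Matrix ι ι F) * cj P⁻¹ (g : Matrix ι ι F))) := fun i j => by
      obtain ⟨h, hh, h'⟩ := hb j
      have := hOO _ (hb i) _ ⟨_, H.mul_mem hg hh, rfl⟩
      rw [Units.val_mul, ← mulVec_mulVec, h', ← mulVec_inv_mulVec P (_ *ᵥ _ *ᵥ _),
        ← inCoord_refl (polar Q), ← cj_mulVec P⁻¹, inv_mulVec_mulVec, hf.sesq0.eq_gform,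
        gform_mulVec_right, gform_single] at this
      exact this
    have := hG.inv_smul.mul h3
    rwa [smul_mul_smul_comm, Units.inv_mul_cancel_left, Units.val_inv_eq_inv_val, Units.val_mk0,
      inv_mul_cancel₀ hζ] at this

theorem subfield_of_realisable [Fintype F] (hQ : (polarBilin Q).Nondegenerate)
    (h2 : 2 ≤ Fintype.card ι) {N : Subgroup (GL ι F)} (hN : env N = ⊤) (hn : Nrm H N)
    (hfix : FixesQuadForm (matrixSet N) Q) {F₀ : Subfield F} (h0 : F₀ ≠ ⊤)
    (hr : RealisableOver F₀ (matrixSet N)) : OSub Q H := by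
  obtain ⟨F₁, r, P, ζ, -, h3, h4, h5, h6, h7, h8⟩ :=
    c5_form (isSesq_polar hQ) (fun _ _ h => h) hN hn (fixesForm_polar hfix) h0 hr
  refine ⟨F₁, r, P, ζ, h3, h4, h5, quadRational_of_basis h6 fun i => ?_, h7⟩
  by_cases hchar : (2 : F) = 0
  swap
  · have := F₁.mul_mem (F₁.inv_mem (natCast_mem F₁ 2)) (h6 _ _ (rat_single F₁ i) (rat_single F₁ i))
    rwa [polar_self', mul_left_comm ζ, Nat.cast_ofNat, inv_mul_cancel_left₀ hchar] at this
  by_contra hi
  obtain ⟨φ, hφ1, hφ2⟩ : ∃ φ : F →ₗ[F₁] F₁, (∀ c ∈ F₁, φ c = 0) ∧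
      φ (ζ * Q ((P : Matrix ι ι F) *ᵥ Pi.single i 1)) ≠ 0 := by
    obtain ⟨φ, a1, a2⟩ := Submodule.exists_dual_map_eq_bot_of_notMem
      (p := Submodule.span F₁ {(1 : F)}) (x := ζ * Q ((P : Matrix ι ι F) *ᵥ Pi.single i 1))
      (fun h => by
        obtain ⟨c, hc⟩ := Submodule.mem_span_singleton.1 h
        exact hi (hc ▸ F₁.mul_mem c.2 F₁.one_mem)) inferInstance
    exact ⟨φ, fun c hc => (Submodule.mem_bot _).1 (a2 ▸ Submodule.mem_map_of_mem
      (Submodule.mem_span_singleton.2 ⟨(⟨c, hc⟩ : F₁), mul_one c⟩)), a1⟩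
  let d : (ι → F) → F := fun u => φ (ζ * Q ((P : Matrix ι ι F) *ᵥ u))
  have hd : ∀ u : ι → F, (∀ j, u j ∈ F₁) → d u = ∑ j, u j ^ 2 * d (Pi.single j 1) := fun u hu => by
    have key : ∀ s : Finset ι, (∀ j, (∑ i ∈ s, u i • (Pi.single i 1 : ι → F)) j ∈ F₁) ∧
        d (∑ i ∈ s, u i • (Pi.single i 1 : ι → F)) = ∑ j ∈ s, u j ^ 2 * d (Pi.single j 1) :=
      fun s => by
      induction s using Finset.induction_on with
      | empty => simp [d]
      | insert i s hi ih =>
        rw [Finset.sum_insert hi, Finset.sum_insert hi, ← ih.2]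
        refine ⟨fun j => F₁.add_mem (F₁.mul_mem (hu i) (rat_single F₁ i j)) (ih.1 j), ?_⟩
        simp only [d]
        rw [mulVec_add, Q_add, mul_add, mul_add, map_add, map_add, hφ1 _ (h6 (u i • Pi.single i 1) _
          (fun j => F₁.mul_mem (hu i) (rat_single F₁ i j)) ih.1), add_zero, mulVec_smul, Q_smul,
          mul_left_comm, Subfield.coe_add, _root_.sq]
        congr 1
        exact congrArg Subtype.val (φ.map_smul ⟨_, F₁.mul_mem (hu i) (hu i)⟩ _)
    have := (key Finset.univ).2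
    rwa [← pi_eq_sum_univ'] at this
  let D : (ι → F) → F := fun x => ∑ j, x j ^ 2 * d (Pi.single j 1)
  have hsq : ∀ a b : F, (a + b) ^ 2 = a ^ 2 + b ^ 2 := fun a b => by linear_combination a * b * hchar
  have hadd : ∀ x y, D (x + y) = D x + D y := fun x y => by
    simp only [D, Pi.add_apply, hsq, add_mul, Finset.sum_add_distrib]
  have hsmul : ∀ (c : F) x, D (c • x) = c ^ 2 * D x := fun c x => by
    simp only [D, Pi.smul_apply, smul_eq_mul, mul_pow, Finset.mul_sum, mul_assoc]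
  let D' : (ι → F) →+ F := AddMonoidHom.mk' D hadd
  have := semi_eq_zero hchar h2 (absIrred_of_env hN).1
    (D := fun v => D (((P⁻¹ : GL ι F) : Matrix ι ι F) *ᵥ v)) (fun u v => by rw [mulVec_add, hadd])
    (fun c v => by rw [mulVec_smul, hsmul]) (fun g hg v hv => by
      rw [← cj_mulVec P⁻¹, ← hv]
      generalize ((P⁻¹ : GL ι F) : Matrix ι ι F) *ᵥ v = x
      conv_lhs => rw [pi_eq_sum_univ' x, mulVec_sum]
      refine (map_sum D' _ _).trans (Finset.sum_congr rfl fun j _ => ?_)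
      rw [mulVec_smul]
      refine (hsmul _ _).trans (congrArg _ ((hd _ fun l => ?_).symm.trans ?_))
      · rw [mulVec_single_one]; exact h8 g hg l j
      · simp only [d]
        rw [← cj_mulVec P, cj_cj_inv, fixQ_iff.1 hfix g hg])
    ((P : Matrix ι ι F) *ᵥ Pi.single i 1)
  rw [inv_mulVec_mulVec] at this
  exact hφ2 (Subtype.ext ((hd _ (rat_single F₁ i)).trans this))

/-- in odd dimension the multiple can be taken to be one -/
theorem OSub.one [Fintype F] (h : OSub Q H) {m : ℕ} (hm : Fintype.card ι = 2 * m + 1)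
    (hQ : (polarBilin Q).Nondegenerate) (hdet : ∀ F₀ : Subfield F, (gramMatrix (polar Q)).det ∈ F₀) :
    ∃ (F₀ : Subfield F) (r : ℕ) (P : GL ι F), r.Prime ∧ Fintype.card F = Nat.card F₀ ^ r ∧
      IsQuadFormRationalStructure Q F₀ P ∧ H ≤ subfieldSubgroup F₀ P := by
  obtain ⟨F₀, r, P, ζ, h1, h2, h3, h4, h5⟩ := h
  have hf := isSesq_polar hQ
  have hG : Rat F₀ (ζ • ((P : Matrix ι ι F)ᵀ * gramMatrix (polar Q) * (P : Matrix ι ι F))) := fun i j => by
    have a1 := F₀.sub_mem (F₀.sub_mem (h4 (Pi.single i 1 + Pi.single j 1) fun l =>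
      F₀.add_mem (rat_single F₀ i l) (rat_single F₀ j l)) (h4 _ (rat_single F₀ i)))
      (h4 _ (rat_single F₀ j))
    have a2 := gform_mulVec (RingHom.id F) (gramMatrix (polar Q)) P P (Pi.single i 1) (Pi.single j 1)
    rw [gform_single, ← hf.sesq0.eq_gform] at a2
    rwa [mulVec_add, ← mul_sub, ← mul_sub, ← polar, a2] at a1
  obtain ⟨G₀, hG₀⟩ := rat_iff_exists.1 hG
  have h6 : (ζ • ((P : Matrix ι ι F)ᵀ * gramMatrix (polar Q) * (P : Matrix ι ι F))).det ∈ F₀ := by
    rw [← hG₀, ← RingHom.mapMatrix_apply, ← RingHom.map_det]; exact G₀.det.2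
  have h7 := F₀.mul_mem (F₀.inv_mem h6) (hdet F₀)
  have h8 := hf.isUnit_det.ne_zero
  have h9 := (Matrix.isUnits_det_units P).ne_zero
  rw [det_smul, Matrix.det_mul, Matrix.det_mul, det_transpose, hm] at h7
  refine ⟨F₀, r, sc ι (Units.mk0 (ζ ^ m * (P : Matrix ι ι F).det) (by simp [h3, h9]))⁻¹ * P, h1, h2,
    fun u hu => ?_, by rwa [subfieldSubgroup_sc_mul]⟩
  rw [Units.val_mul, coe_sc, smul_mul_assoc, one_mul, smul_mulVec, Q_smul]
  convert F₀.mul_mem h7 (h4 u hu) using 1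
  simp only [Units.val_inv_eq_inv_val, Units.val_mk0]
  field_simp
  ring

/-- a form defined over a subfield of index two is of plus type -/
theorem plus_of_index_two [Fintype F] (hQ : (polarBilin Q).Nondegenerate) {m : ℕ}
    (hm : Fintype.card ι = 2 * m + 2) {F₀ : Subfield F} {P : GL ι F} {ζ : F} (hζ : ζ ≠ 0)
    (hc : Fintype.card F = Nat.card F₀ ^ 2)
    (h : IsQuadFormRationalStructure (fun v => ζ * Q v) F₀ P) : IsPlusTypeOn Q ⊤ := by
  let L : (ι → F₀) →ₗ[F₀] (ι → F) := ((toLin' (P : Matrix ι ι F)).restrictScalars F₀).comp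
    (LinearMap.compLeft (Algebra.linearMap F₀ F) ι)
  have hL : ∀ u, L u = (P : Matrix ι ι F) *ᵥ fun k => (u k : F) := fun _ => rfl
  let q : (ι → F₀) → F₀ := fun u => ⟨ζ * Q (L u), h _ fun i => (u i).2⟩
  have hq : ∀ u v, ((polar q u v : F₀) : F) = ζ * polar Q (L u) (L v) := fun u v => by
    simp only [polar, q, AddSubgroupClass.coe_sub, map_add]; ring
  have hs : ∀ (a : F₀) u, L (a • u) = (a : F) • L u := fun a u => L.map_smul a u
  let Q₀ : QuadraticForm F₀ (ι → F₀) := QuadraticMap.ofPolar q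
    (fun a u => Subtype.ext (by simp only [q, hs, Q_smul]; simp; ring))
    (fun u u' v => Subtype.ext (by rw [Subfield.coe_add, hq, hq, hq, map_add, polar_add_left]; ring))
    (fun a u v => Subtype.ext (by
      rw [hq, hs, polar_smul_left, smul_eq_mul, smul_eq_mul, Subfield.coe_mul, hq]; ring))
  let E : Ext F₀.subtype Q₀ Q := ⟨P, (P⁻¹ : GL ι F), P.mul_inv, P.inv_mul, (Units.mk0 ζ hζ)⁻¹,
    fun v => by simp [Q₀, q, hL, hζ]⟩
  have hm' : finrank F₀ (ι → F₀) = 2 * m + 2 := by rw [finrank_fintype_fun_eq_card, hm]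
  rw [plus_top_iff]
  by_cases h1 : ∃ U, IsLag Q₀ U
  · obtain ⟨U, hU⟩ := h1
    obtain ⟨e, he, -⟩ := exists_equiv_qPlus (E.nondegenerate_of hQ) hU (m := m + 1) hm'
    exact (E.precomp e one_ne_zero (by simpa using he)).exists_isLag
  · obtain ⟨b, hb⟩ := exists_aniso_one (F := F₀)
    obtain ⟨e, he⟩ := exists_equiv_qMinus (E.nondegenerate_of hQ) hm' h1 hb
    have h2 : finrank F₀ F = 2 := Nat.pow_right_injective (Finite.one_lt_card (α := F₀))
      (Module.natCard_eq_pow_finrank.symm.trans (Nat.card_eq_fintype_card.trans hc))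
    obtain ⟨U, hU⟩ := exists_isLag_qMinus (m := m) (not_aniso_of_finrank_two h2 1 b)
    exact ⟨_, ((E.precomp e one_ne_zero (by simpa using he)).toStd
      (qMinus_map _ m 1 b)).isLag_map hU⟩

theorem OSub.odd [Fintype F] (h : OSub Q H) (hQ : (polarBilin Q).Nondegenerate) {m : ℕ}
    (hm : Fintype.card ι = 2 * m + 2) (hp : ¬ IsPlusTypeOn Q ⊤) :
    ∃ (F₀ : Subfield F) (r : ℕ) (P : GL ι F) (ζ : F), r.Prime ∧ Odd r ∧
      Fintype.card F = Nat.card F₀ ^ r ∧ ζ ≠ 0 ∧
      IsQuadFormRationalStructure (fun v => ζ * Q v) F₀ P ∧ H ≤ subfieldSubgroup F₀ P := by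
  obtain ⟨F₀, r, P, ζ, h1, h2, h3, h4, h5⟩ := h
  refine ⟨F₀, r, P, ζ, h1, h1.eq_two_or_odd'.resolve_left ?_, h2, h3, h4, h5⟩
  rintro rfl
  exact hp (plus_of_index_two hQ hm h3 h2 h4)

theorem ne_top_of_card_eq_pow [Fintype F] {F₀ : Subfield F} {r : ℕ} (hr : r.Prime)
    (hc : Fintype.card F = Nat.card F₀ ^ r) : F₀ ≠ ⊤ := by
  rintro rfl
  rw [Nat.card_congr Subfield.topEquiv.toEquiv, Nat.card_eq_fintype_card] at hc
  exact (Nat.pow_eq_self_iff Fintype.one_lt_card).1 hc.symm ▸ hr |> Nat.not_prime_one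

end CfsgLib.Asch
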