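import Mathlib
import Cfsg.Agent.Lib.Asch.OrthOrbit
import Cfsg.Agent.Lib.ClMax.ExtSp

/-! Extension fields normalised by a subgroup of an orthogonal group. -/

set_option autoImplicit false

namespace CfsgLib.Asch

open Cfsg Cfsg.Geo Matrix QuadraticMap Module CfsgLib.Orth CfsgLib.Forms
open scoped MatrixGroups

variable {ι : Type} [Fintype ι] [DecidableEq ι] {F : Type*} [Field F]
  {Q : QuadraticForm F (ι → F)} {H : Subgroup (GL ι F)} {r : ℕ} {K : Subalgebra F (Matrix ι ι F)}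

theorem field_dvd_card [Finite F] [Nonempty ι] (hK : IsFieldSubalgebra r K) :
    r ∣ Fintype.card ι :=
  ClMax.with_ext_field hK fun _ _ _ _ _ _ _ h _ _ _ => ⟨_, h.symm⟩

theorem eq_zero_of_field (hK : IsFieldSubalgebra r K) {x : Matrix ι ι F} (hx : x ∈ K) {v : ι → F}
    (hv : v ≠ 0) (hxv : x *ᵥ v = 0) : x = 0 := by
  by_contra h0
  obtain ⟨y, hy, hxy⟩ := hK.inv x hx h0
  exact hv (by rw [← one_mulVec v, ← hxy, hK.comm x hx y hy, ← mulVec_mulVec, hxv, mulVec_zero])

theorem cj_comm_of_field [Finite F] [Nonempty ι] (hK : IsFieldSubalgebra r K) (hst : Stab H K)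
    {g h : GL ι F} (hg : g ∈ H) (hh : h ∈ H) {k : Matrix ι ι F} (hk : k ∈ K) :
    cj g (cj h k) = cj h (cj g k) := by
  let _ : Field K := (isField_of_isFieldSubalgebra hK).toField
  have : Finite K := Module.finite_of_finite F
  let a : K ≃ₐ[F] K := hst.equiv hg
  let b : K ≃ₐ[F] K := hst.equiv hh
  have : a (b ⟨k, hk⟩) = b (a ⟨k, hk⟩) := by
    rw [← AlgEquiv.mul_apply, mul_comm' a b, AlgEquiv.mul_apply]
  exact congrArg Subtype.val this

theorem IsSesq.det_adj {σ : F →+* F} {ε : F} {f : (ι → F) → (ι → F) → F} (hf : IsSesq σ ε f)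
    (a : Matrix ι ι F) : (adj σ f a).det = σ a.det := by
  have := congrArg det (hf.transpose_mul_gram a)
  rw [Matrix.det_mul, Matrix.det_mul, det_transpose, mul_comm,
    mul_right_inj' hf.isUnit_det.ne_zero, ← RingHom.mapMatrix_apply, ← RingHom.map_det] at this
  rw [this, hf.invol]

theorem exists_fixed_of_odd (hQ : (polarBilin Q).Nondegenerate) (h2 : (2 : F) ≠ 0)
    (hn : Odd (Fintype.card ι)) {g : GL ι F} (hg : g ∈ omegaGL Q) :
    ∃ v, v ≠ 0 ∧ (g : Matrix ι ι F) *ᵥ v = v := by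
  have hf := isSesq_polar hQ
  have h1 := hf.det_adj ((g : Matrix ι ι F) - 1)
  rw [hf.adj_sub, hf.adj_one, hf.adj_coe (fixesForm_polar (fixQ_of_le_omega le_rfl)) hg,
    show ((g⁻¹ : GL ι F) : Matrix ι ι F) - 1 = (g⁻¹ : GL ι F) * -((g : Matrix ι ι F) - 1) by
      simp [mul_sub], Matrix.det_mul, det_of_mem_omegaGL (inv_mem hg), one_mul, det_neg,
    hn.neg_one_pow, RingHom.id_apply] at h1
  obtain ⟨v, h3, h4⟩ := exists_mulVec_eq_zero_iff.2 ((mul_eq_zero.1
    (show 2 * ((g : Matrix ι ι F) - 1).det = 0 by linear_combination -h1)).resolve_left h2)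
  exact ⟨v, h3, by rwa [sub_mulVec, one_mulVec, sub_eq_zero] at h4⟩

theorem not_field_full [Finite F] (hQ : (polarBilin Q).Nondegenerate) (h2 : (2 : F) ≠ 0)
    (hn : Odd (Fintype.card ι)) (h1 : 2 ≤ Fintype.card ι) (hH : H ≤ omegaGL Q)
    (hirr : ActsIrreducibly (matrixSet H)) (hK : IsFieldSubalgebra (Fintype.card ι) K) :
    ¬ Stab H K := by
  intro hst
  have : Nonempty ι := Fintype.card_pos_iff.1 (by omega)
  have hc : ∀ g ∈ H, ∀ h ∈ H, g * h = h * g := fun g hg h hh => by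
    have h3 : (h * g)⁻¹ * (g * h) ∈ H := H.mul_mem (H.inv_mem (H.mul_mem hh hg)) (H.mul_mem hg hh)
    obtain ⟨v, hv, h4⟩ := exists_fixed_of_odd hQ h2 hn (hH h3)
    let φ : K →ₗ[F] (ι → F) :=
      { toFun := fun k => (k : Matrix ι ι F) *ᵥ v
        map_add' := fun a b => add_mulVec _ _ _
        map_smul' := fun c a => smul_mulVec _ _ _ }
    have h5 := (LinearMap.injective_iff_surjective_of_finrank_eq_finrank (f := φ) (by
      rw [hK.finrank_eq, finrank_fintype_fun_eq_card])).1 ((injective_iff_map_eq_zero φ).2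
        fun k hk => Subtype.ext (eq_zero_of_field hK k.2 hv hk))
    refine (inv_mul_eq_one.1 (Units.ext (matrix_ext_mulVec fun w => ?_))).symm
    obtain ⟨k, rfl⟩ := h5 w
    have h6 := cj_mulVec ((h * g)⁻¹ * (g * h)) k v
    rw [h4, cj_mul, cj_mul, cj_comm_of_field hK hst hg hh k.2, ← cj_mul h g, cj_inv_cj] at h6
    rw [Units.val_one, one_mulVec]
    exact h6.symm
  refine not_le_scalars_of_irred h1 hirr fun g hg => ?_
  obtain ⟨v, hv, h4⟩ := exists_fixed_of_odd hQ h2 hn (hH hg)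
  rcases irred_iff.1 hirr (LinearMap.eqLocus (toLin' (g : Matrix ι ι F)) LinearMap.id)
    (fun h hh w hw => by
      have hw' : (g : Matrix ι ι F) *ᵥ w = w := hw
      show (g : Matrix ι ι F) *ᵥ (h : Matrix ι ι F) *ᵥ w = (h : Matrix ι ι F) *ᵥ w
      rw [mulVec_mulVec, ← Units.val_mul, hc g hg h hh, Units.val_mul, ← mulVec_mulVec, hw'])
    with h | h
  · exact absurd ((Submodule.mem_bot F).1 (h ▸ h4)) hv
  · exact mem_scalars_of_eq_smul (c := 1) (matrix_ext_mulVec fun w => by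
      rw [one_smul, one_mulVec]; exact (h ▸ Submodule.mem_top : w ∈ LinearMap.eqLocus _ _))

omit [Fintype ι] [DecidableEq ι] in
theorem symp_polar (hQ : (polarBilin Q).Nondegenerate) (h2 : (2 : F) = 0) :
    IsSymplecticForm (polar Q) :=
  ⟨(isSesq_polar hQ).sesq0.bilin, fun u v => by
    rw [polar_comm]; linear_combination polar Q v u * h2,
    fun v => by rw [polar_self', h2, zero_mul], (isSesq_polar hQ).nondeg⟩

theorem two_mul_dvd_of_selfAdjoint [Fintype F] [Nonempty ι] (hQ : (polarBilin Q).Nondegenerate)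
    (h2 : (2 : F) = 0) (hK : IsFieldSubalgebra r K) (hsa : IsSelfAdjointFor (polar Q) K) :
    2 * r ∣ Fintype.card ι := by
  refine ClMax.with_ext_field hK fun L _ _ _ _ _ _ h h3 _ _ => ?_
  obtain ⟨l, hl⟩ := ClMax.exists_dual_ne_zero F L
  have : FiniteDimensional L (ι → F) := Module.Finite.of_finite
  obtain ⟨f, h4, h5, -⟩ := ClMax.exists_extForm (K := L) hQ (fun k u v => by
    obtain ⟨a, ha, h'⟩ := h3 k
    rw [h', h']; exact hsa a ha u v) (fun k v => by
    obtain ⟨a, ha, h'⟩ := h3 k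
    rw [h']; exact selfAdjoint_alt (symp_polar hQ h2) hK hsa a ha v) (l := l)
    (by rintro rfl; simp at hl)
  obtain ⟨s, hs⟩ := even_finrank_of_alt f h4 h5
  exact ⟨s, by rw [← h, hs]; ring⟩

theorem exists_eq_of_finrank_two (hK : finrank F K = 2) {s : Matrix ι ι F} (hs : s ∈ K)
    (hs' : s ∉ (⊥ : Subalgebra F (Matrix ι ι F))) {k : Matrix ι ι F} (hk : k ∈ K) :
    ∃ a b : F, a • 1 + b • s = k := by
  have : Nontrivial (Matrix ι ι F) := nontrivial_of_ne s 0 (by rintro rfl; exact hs' (zero_mem _))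
  have h1 : LinearIndependent F ![1, s] := (LinearIndependent.pair_iff' one_ne_zero).2
    fun a ha => hs' (mem_bot_iff.2 ⟨a, ha.symm⟩)
  have h2 := finrank_span_eq_card h1
  rw [range_cons_cons_empty] at h2
  have h3 : Submodule.span F {1, s} = Subalgebra.toSubmodule K :=
    Submodule.eq_of_le_of_finrank_eq (Submodule.span_le.2 (Set.insert_subset K.one_mem
      (Set.singleton_subset_iff.2 hs))) (h2.trans hK.symm)
  exact Submodule.mem_span_pair.1 (h3 ▸ hk)

/-- a non-self-adjoint field of degree two acts by similarities -/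
theorem quad_sim_of_field [Finite F] (hQ : (polarBilin Q).Nondegenerate)
    (hH : FixesQuadForm (matrixSet H) Q) (hirr : ActsIrreducibly (matrixSet H))
    (h1 : 2 ≤ Fintype.card ι) (hK : IsFieldSubalgebra 2 K) (hadj : IsAdjointClosedFor (polar Q) K)
    (hsa : ¬ IsSelfAdjointFor (polar Q) K) (hst : Stab H K) :
    ∀ k ∈ K, ∃ c : F, ∀ v, Q (k *ᵥ v) = c * Q v := by
  have hf := isSesq_polar hQ
  obtain ⟨j, hj, hj'⟩ : ∃ j ∈ K, ∀ v, Q v = polar Q (j *ᵥ v) v := by
    by_cases h2 : (2 : F) = 0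
    · obtain ⟨j, hj, h⟩ := half_of_field h2 hf hK hadj hsa
      exact ⟨j, hj, congrFun (quad_unique h1 hirr (fun c v => by rw [Q_smul, _root_.sq])
        (quadK_nondeg hf h).smul (fun u v => (quadK_polar hf h u v).symm) hH
        (fixes_quadK h2 (symp_polar hQ h2) (fixesForm_polar hH) h fun g hg =>
          ⟨j, h, rfl, hK.comm _ (hst g hg j hj) j hj⟩))⟩
    · exact ⟨(2 : F)⁻¹ • 1, K.smul_mem K.one_mem _, fun v => by
        rw [smul_mulVec, one_mulVec, polar_smul_left, polar_self', smul_eq_mul,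
          inv_mul_cancel_left₀ h2]⟩
  intro k hk
  have h3 := K.mul_mem (hf.adjClosed_iff.1 hadj k hk) hk
  obtain ⟨c, hc⟩ : ∃ c : F, adj (RingHom.id F) (polar Q) k * k = c • 1 := mem_bot_iff.1 (by
    by_contra h
    refine hsa (hf.selfAdjoint_iff.2 fun x hx => ?_)
    obtain ⟨a, b, rfl⟩ := exists_eq_of_finrank_two hK.finrank_eq h3 h hx
    rw [hf.adj_add, hf.adj_smul', hf.adj_smul', hf.adj_one, hf.adj_mul, hf.adj_adj])
  refine ⟨c, fun v => ?_⟩
  rw [hj', hj' v, mulVec_mulVec, hK.comm j hj k hk, ← mulVec_mulVec, hf.adj_spec, mulVec_mulVec, hc,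
    smul_mulVec, one_mulVec, polar_smul_right, smul_eq_mul]

omit [DecidableEq ι] in
theorem qperp_lag (hQ : (polarBilin Q).Nondegenerate) {U : Submodule F (ι → F)} (hU : IsLag Q U) :
    qperp Q U = U := by
  have h1 := finrank_qperp hQ U
  have h2 := hU.2
  rw [finrank_fintype_fun_eq_card] at h2
  exact (Submodule.eq_of_le_of_finrank_eq (show U ≤ qperp Q U from (RootMax.ts_ofQuad hU.1).2) (by omega)).symm

theorem four_dvd_of_field_sim [Finite F] [Nonempty ι] (hQ : (polarBilin Q).Nondegenerate)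
    (hK : IsFieldSubalgebra 2 K) (hsim : ∀ k ∈ K, ∃ c : F, ∀ v, Q (k *ᵥ v) = c * Q v)
    (hp : IsPlusTypeOn Q ⊤) : 4 ∣ Fintype.card ι := by
  obtain ⟨U, hU⟩ := plus_top_iff.1 hp
  obtain ⟨j, hj, hj'⟩ : ∃ k ∈ K, k ∉ (⊥ : Subalgebra F (Matrix ι ι F)) := by
    by_contra hc
    push Not at hc
    have := hK.finrank_eq
    rw [show K = ⊥ from eq_bot_iff.2 hc, Subalgebra.finrank_bot] at this
    omega
  have halt : ∀ u ∈ U, polar Q u (j *ᵥ u) = 0 := fun u hu => by
    obtain ⟨c, hc⟩ := hsim _ (K.add_mem K.one_mem hj)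
    obtain ⟨d, hd⟩ := hsim _ hj
    simpa [add_mulVec, Q_add, hd, hU.1 u hu] using hc u
  refine ClMax.with_ext_field hK fun L _ _ _ _ _ h1 _ h3 h4 _ => ?_
  let R : Submodule L (ι → F) :=
    { carrier := {u | ∀ k : L, k • u ∈ U}
      add_mem' := fun ha hb k => by rw [smul_add]; exact U.add_mem (ha k) (hb k)
      zero_mem' := fun k => by simp
      smul_mem' := fun c u hu k => by rw [smul_smul]; exact hu _ }
  have hRU : R.restrictScalars F ≤ U := fun u hu => by simpa using hu 1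
  have hR : finrank F (R.restrictScalars F) = 2 * finrank L R :=
    (ClMax.finrank_mul_finrank_ext F L R).symm.trans (by rw [h1])
  obtain ⟨C', hC'⟩ := (R.restrictScalars F).exists_isCompl
  have hC : R.restrictScalars F ⊔ C' ⊓ U = U := by
    rw [← sup_inf_assoc_of_le _ hRU, hC'.sup_eq_top, top_inf_eq]
  have h5 := Submodule.finrank_sup_add_finrank_inf_eq (R.restrictScalars F) (C' ⊓ U)
  rw [hC, disjoint_iff.1 (hC'.disjoint.mono_right inf_le_left), finrank_bot, hR] at h5
  let a : LinearMap.BilinForm F ↥(C' ⊓ U) :=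
    (polarBilin Q).compl₁₂ (Submodule.subtype _) (toLin' j ∘ₗ Submodule.subtype _)
  have ha : a.IsAlt := fun u => halt u u.2.2
  obtain ⟨s, hs⟩ := even_finrank_of_alt a ha (by
    rw [LinearMap.BilinForm.Nondegenerate,
      LinearMap.IsRefl.nondegenerate_iff_separatingRight ha.isRefl]
    intro c hc
    have h6 : j *ᵥ (c : ι → F) ∈ U := (qperp_lag hQ hU).le <| mem_qperp.2 fun u hu => by
      obtain ⟨x, hx, y, hy, hxy⟩ := Submodule.mem_sup.1 (hC.ge hu)
      obtain ⟨k, hk⟩ := h4 j hj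
      have h7 := halt _ (U.add_mem (hRU hx) c.2.2)
      rw [mulVec_add, polar_add_left, polar_add_right, polar_add_right, halt _ (hRU hx),
        halt _ c.2.2, polar_eq_zero_of_singular hU.1 c.2.2 (hk x ▸ hx k)] at h7
      rw [← hxy, polar_add_left, show polar Q y (j *ᵥ c) = 0 from hc ⟨y, hy⟩]
      simpa using h7
    refine Subtype.ext (Submodule.disjoint_def.1 hC'.disjoint c (fun k => ?_) c.2.1)
    obtain ⟨b, hb, h⟩ := h3 k
    obtain ⟨x, y, rfl⟩ := exists_eq_of_finrank_two hK.finrank_eq hj hj' hb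
    rw [h, add_mulVec, smul_mulVec, smul_mulVec, one_mulVec]
    exact U.add_mem (U.smul_mem _ c.2.2) (U.smul_mem _ h6))
  have h7 := hU.2
  rw [finrank_fintype_fun_eq_card] at h7
  omega

theorem exists_mat_of_form {σ : F →+* F} {ε : F} {f β : (ι → F) → (ι → F) → F} (hf : IsSesq σ ε f)
    (hβ : IsSesq0 σ β) : ∃ a : Matrix ι ι F, ∀ u v, f (a *ᵥ u) v = β u v :=
  ⟨(gramMatrix β * (gramMatrix f)⁻¹)ᵀ, fun u v => by
    rw [hf.sesq0.eq_gform, gform_mulVec_left, transpose_transpose,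
      nonsing_inv_mul_cancel_right _ _ hf.isUnit_det, ← hβ.eq_gform]⟩

/-- a self-adjoint field over which the space is a plane is not maximal commutative -/
theorem exists_comm_of_half [Fintype F] [Nonempty ι] (hQ : (polarBilin Q).Nondegenerate)
    (hH : FixesQuadForm (matrixSet H) Q) (hK : IsFieldSubalgebra r K)
    (hsa : IsSelfAdjointFor (polar Q) K) (hn : Fintype.card ι = 2 * r) (hst : Stab H K) :
    ∃ C : Subalgebra F (Matrix ι ι F), Stab H C ∧ IsAdjointClosedFor (polar Q) C ∧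
      (∀ x ∈ C, ∀ y ∈ C, x * y = y * x) ∧ K < C := by
  have hf := isSesq_polar hQ
  let S : F → Set (Matrix ι ι F) := fun c =>
    {a | (∀ k ∈ K, k * a = a * k) ∧ ∀ v, polar Q (a *ᵥ v) v = c * Q v}
  suffices ∃ c, ∃ j ∈ S c, j ∉ K ∧ ∀ x ∈ S c, ∀ y ∈ S c, x * y = y * x by
    obtain ⟨c, j, h1, h2, h3⟩ := this
    have hX : ∀ x ∈ (K : Set _) ∪ S c, x ∈ ctr (Subalgebra.centralizer F ((K : Set _) ∪ S c)) := by
      refine fun x hx => mem_ctr.2 ⟨fun y hy => ?_, fun y hy => (hy x hx).symm⟩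
      rcases hx with hx | hx <;> rcases hy with hy | hy
      exacts [hK.comm y hy x hx, (hy.1 x hx).symm, hx.1 y hy, h3 y hy x hx]
    have hXst : Stab H ((K : Set _) ∪ S c) := by
      rintro g hg x (hx | hx)
      · exact Or.inl (hst g hg x hx)
      refine Or.inr ⟨fun k hk => ?_, fun v => ?_⟩
      · rw [← cj_cj_inv g k, ← map_mul, ← map_mul, hx.1 _ (hst _ (H.inv_mem hg) k hk)]
      · rw [← mulVec_inv_mulVec g v, cj_mulVec, fixQ_polar hH hg, hx.2, fixQ_iff.1 hH g hg]
    have hXadj : ∀ x ∈ (K : Set _) ∪ S c, adj (RingHom.id F) (polar Q) x ∈ (K : Set _) ∪ S c := by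
      rintro x (hx | hx)
      · exact Or.inl (by rwa [hf.selfAdjoint_iff.1 hsa x hx])
      refine Or.inr ⟨fun k hk => ?_, fun v => by rw [← hf.adj_spec', polar_comm, hx.2]⟩
      rw [← hf.selfAdjoint_iff.1 hsa k hk, ← hf.adj_mul, ← hf.adj_mul, hx.1 k hk]
    refine ⟨_, hXst.centralizer.ctr, hf.adjClosed_ctr (hf.adjClosed_iff.2 fun a ha x hx => ?_),
      ctr_comm _, SetLike.lt_iff_le_and_exists.2
        ⟨fun x hx => hX x (Or.inl hx), j, hX j (Or.inr h1), h2⟩⟩
    have := congrArg (adj (RingHom.id F) (polar Q)) (ha _ (hXadj x hx))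
    rwa [hf.adj_mul, hf.adj_mul, hf.adj_adj, eq_comm] at this
  refine ClMax.with_ext_field hK fun L _ _ _ _ _ h1 h2 h3 h4 _ => ?_
  have : FiniteDimensional L (ι → F) := Module.Finite.of_finite
  have hd : finrank L (ι → F) = 2 :=
    Nat.eq_of_mul_eq_mul_left (h1 ▸ finrank_pos) (h2.trans (hn.trans (mul_comm _ _)))
  let b := finBasisOfFinrankEq L _ hd
  have hb : ∀ v, v = b.repr v 0 • b 0 + b.repr v 1 • b 1 := fun v => by
    rw [← Fin.sum_univ_two fun i => b.repr v i • b i, b.sum_repr]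
  have hlin : ∀ c, ∀ a ∈ S c, ∀ (k : L) v, a *ᵥ (k • v) = k • a *ᵥ v := fun c a ha k v => by
    obtain ⟨x, hx, h⟩ := h3 k
    rw [h, h, mulVec_mulVec, mulVec_mulVec, ha.1 x hx]
  have hsa' : ∀ (k : L) u v, polar Q (k • u) v = polar Q u (k • v) := fun k u v => by
    obtain ⟨x, hx, h⟩ := h3 k
    rw [h, h, hsa x hx]
  have hskew : ∀ s ∈ S 0, ∀ u v, polar Q (s *ᵥ u) v = -polar Q (s *ᵥ v) u := fun s hs u v => by
    have := hs.2 (u + v)
    rw [mulVec_add, polar_add_left, polar_add_right, polar_add_right, hs.2, hs.2] at this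
    linear_combination this
  have h2L : (2 : F) = 0 → (2 : L) = 0 := fun h => by
    rw [← map_ofNat (algebraMap F L) 2, h, map_zero]
  have hS0 : ∀ s ∈ S 0, ∀ (k : L) v, polar Q (s *ᵥ v) (k • v) = 0 := fun s hs k v => by
    by_cases h : (2 : F) = 0
    · obtain ⟨l, rfl⟩ := exists_sq_of_two (h2L h) k
      rw [mul_smul, ← hsa', ← hlin 0 s hs, hs.2, zero_mul]
    · have := hskew s hs (k • v) v
      rw [hlin 0 s hs, hsa'] at this
      exact mul_left_cancel₀ h (by linear_combination this)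
  have hker : ∀ s ∈ S 0, s *ᵥ b 0 = 0 → s = 0 := fun s hs h => by
    have h5 : s *ᵥ b 1 = 0 := eq_zero_of_polar hQ fun y => by
      rw [hb y, polar_add_right, hS0 s hs, hskew s hs, hlin 0 s hs, h]; simp
    exact eq_zero_of_forall_mulVec fun v => by
      rw [hb v, mulVec_add, hlin 0 s hs, hlin 0 s hs, h, h5]; simp
  have hprop : ∀ s ∈ S 0, s ≠ 0 → ∀ s' ∈ S 0, ∃ k ∈ K, s' = k * s := fun s hs h0 s' hs' => by
    let P : Submodule L (ι → F) :=
      { carrier := {w | ∀ k : L, polar Q w (k • b 0) = 0}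
        add_mem' := fun hx hy k => by rw [polar_add_left, hx k, hy k, add_zero]
        zero_mem' := fun k => polar_zero_left _ _
        smul_mem' := fun c x hx k => by rw [hsa', smul_smul]; exact hx _ }
    have hP : finrank L P < 2 := hd ▸ Submodule.finrank_lt fun h => b.ne_zero 0
      (eq_zero_of_polar hQ fun y => by
        simpa [polar_comm Q y] using (h ▸ Submodule.mem_top : y ∈ P) 1)
    have h5 : Submodule.span L {s *ᵥ b 0} = P := Submodule.eq_of_le_of_finrank_le
      ((Submodule.span_singleton_le_iff_mem _ _).2 fun k => hS0 s hs k _)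
      (by rw [finrank_span_singleton (mt (hker s hs) h0)]; omega)
    obtain ⟨k, hk⟩ := Submodule.mem_span_singleton.1 (h5.ge fun k => hS0 s' hs' k _)
    obtain ⟨x, hx, h⟩ := h3 k
    refine ⟨x, hx, sub_eq_zero.1 (hker _ ⟨fun y hy => ?_, fun v => ?_⟩ ?_)⟩
    · rw [mul_sub, sub_mul, hs'.1 y hy, ← mul_assoc, hK.comm y hy x hx, mul_assoc, hs.1 y hy,
        mul_assoc]
    · rw [sub_mulVec, polar_sub_left, hs'.2, ← mulVec_mulVec, ← h, hsa', hS0 s hs, sub_zero]
    · rw [sub_mulVec, ← mulVec_mulVec, ← h, hk, sub_self]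
  have hsm : ∀ (c : F) v i, b.repr (c • v) i = c • b.repr v i := fun c v i => by
    rw [← algebraMap_smul L c v, map_smul, Finsupp.smul_apply, algebraMap_smul]
  have hbal : ∀ φ₁ φ₂ φ₃ φ₄ : L →ₗ[F] F, ∃ a : Matrix ι ι F, (∀ k ∈ K, k * a = a * k) ∧
      ∀ u v, polar Q (a *ᵥ u) v = φ₁ (b.repr u 0 * b.repr v 0) + φ₂ (b.repr u 0 * b.repr v 1) +
        φ₃ (b.repr u 1 * b.repr v 0) + φ₄ (b.repr u 1 * b.repr v 1) := fun φ₁ φ₂ φ₃ φ₄ => by
    obtain ⟨a, ha⟩ := exists_mat_of_form hf (β := fun u v => φ₁ (b.repr u 0 * b.repr v 0) +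
      φ₂ (b.repr u 0 * b.repr v 1) + φ₃ (b.repr u 1 * b.repr v 0) + φ₄ (b.repr u 1 * b.repr v 1))
      ⟨fun x y v => by simp only [map_add, Finsupp.add_apply, add_mul]; ring,
        fun c x v => by simp [mul_add, hsm], fun x y v => by
          simp only [map_add, Finsupp.add_apply, mul_add]; ring,
        fun c x v => by simp [mul_add, hsm]⟩
    refine ⟨a, fun k hk => matrix_ext_mulVec fun u => hf.ext_left fun v => ?_, ha⟩
    obtain ⟨x, h⟩ := h4 k hk
    rw [← mulVec_mulVec, ← mulVec_mulVec, ← h, ← h, hsa', ha, ha]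
    simp only [map_smul, Finsupp.smul_apply, smul_eq_mul, mul_left_comm, mul_assoc]
  by_cases hchar : (2 : F) = 0
  · choose ρ hρ using exists_sq_of_two (h2L hchar)
    have hinj : ∀ x y : L, x * x = y * y → x = y := fun x y h => sub_eq_zero.1
      (mul_self_eq_zero.1 (by linear_combination h + (y * y - x * y) * h2L hchar))
    have halt : ∀ (x y : L) v, polar Q (x • v) (y • v) = 0 := fun x y v =>
      by simpa [smul_smul, hsa'] using hS0 1 ⟨by simp, by simp [polar_self', hchar]⟩ (x * y) v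
    let q : (ι → F) → L →ₗ[F] F := fun v =>
      { toFun := fun x => Q (ρ x • v)
        map_add' := fun x y => by
          rw [hinj (ρ (x + y)) (ρ x + ρ y) (by
            linear_combination hρ x + hρ y - hρ (x + y) - ρ x * ρ y * h2L hchar), add_smul, Q_add,
            halt, add_zero]
        map_smul' := fun c x => by
          obtain ⟨d, rfl⟩ := exists_sq_of_two hchar c
          rw [hinj (ρ ((d * d) • x)) (d • ρ x) (by rw [← hρ, smul_mul_smul_comm, ← hρ]),
            smul_assoc, Q_smul]; rfl }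
    have hq : ∀ (x : L) v, q v (x * x) = Q (x • v) := fun x v =>
      congrArg (fun y => Q (y • v)) (hinj _ _ (hρ (x * x)).symm)
    obtain ⟨j, a1, a2⟩ := hbal (q (b 0)) ((polarBilin Q).flip (b 1) ∘ₗ
      (LinearMap.toSpanSingleton L _ (b 0)).restrictScalars F) 0 (q (b 1))
    have a3 : ∀ v, polar Q (j *ᵥ v) v = 1 * Q v := fun v => by
      conv_rhs => rw [hb v]
      rw [a2, hq, hq, Q_add, ← hsa', smul_smul, mul_comm (b.repr v 1)]
      simp [add_right_comm]
    refine ⟨1, j, ⟨a1, a3⟩, fun hj => ?_, fun x hx y hy => ?_⟩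
    · obtain ⟨v, hv⟩ := exists_Q_ne_zero_pi hQ
      exact hv (by rw [← one_mul (Q v), ← a3, selfAdjoint_alt (symp_polar hQ hchar) hK hsa j hj])
    · obtain ⟨k, hk, h⟩ := hprop 1 ⟨by simp, by simp [polar_self', hchar]⟩ one_ne_zero (x - y)
        ⟨fun k hk => by rw [mul_sub, sub_mul, hx.1 k hk, hy.1 k hk], fun v => by
          rw [sub_mulVec, polar_sub_left, hx.2, hy.2]; simp⟩
      rw [eq_add_of_sub_eq h, mul_one, add_mul, mul_add, hy.1 k hk]
  · obtain ⟨l, hl⟩ := ClMax.exists_dual_ne_zero F L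
    obtain ⟨j, a1, a2⟩ := hbal 0 l (-l) 0
    have a3 : j ∈ S 0 := ⟨a1, fun v => by simp [a2, mul_comm]⟩
    have a4 : j ∉ K := fun hj => by
      have := hsa j hj (b 0) (b 1)
      rw [polar_comm Q (b 0), a2, a2] at this
      simp [hl] at this
      exact hchar (by linear_combination this)
    refine ⟨0, j, a3, a4, fun x hx y hy => ?_⟩
    have h0 : j ≠ 0 := fun h => a4 (h ▸ K.zero_mem)
    obtain ⟨k, hk, rfl⟩ := hprop j a3 h0 x hx
    obtain ⟨k', hk', rfl⟩ := hprop j a3 h0 y hy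
    rw [mul_assoc, ← mul_assoc j, ← a1 k' hk', mul_assoc k' j (k * j), ← mul_assoc j, ← a1 k hk]
    simp only [← mul_assoc, hK.comm k hk k' hk']

/-- `form_comm` for a given algebra -/
theorem form_comm' [Fintype F] [Nonempty ι] {σ : F →+* F} {ε : F} {f : (ι → F) → (ι → F) → F}
    (hf : IsSesq σ ε f) (hH : FixesForm (matrixSet H) f) (hirr : ActsIrreducibly (matrixSet H))
    {C : Subalgebra F (Matrix ι ι F)} (hst : Stab H C) (hadj : IsAdjointClosedFor f C)
    (hC : ∀ x ∈ C, ∀ y ∈ C, x * y = y * x) : IsFieldSubalgebra (finrank F C) C ∨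
    (∃ (t k : ℕ) (D : Fin t → Submodule F (ι → F)), IsNondegenerateMDecomposition f k D ∧
      H ≤ decompositionStabilizer D ∧
      ∀ i j, ∃ h ∈ H, (D i).map (Matrix.toLin' (h : Matrix ι ι F)) = D j) ∨
    (∃ (k : ℕ) (D : Fin 2 → Submodule F (ι → F)), IsMDecomposition k D ∧
      (∀ i, IsTotallySingularFor f (D i)) ∧ H ≤ decompositionStabilizer D) := by
  classical
  refine (comm_dichotomy hirr hst hC).imp_right ?_
  rintro ⟨E, hE, hsys, h2⟩
  have hs := le_similarityGroup_of_fixes hH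
  have hadj' := hf.adjClosed_iff.1 hadj
  have hstE : Stab H (E : Set (Matrix ι ι F)) := hE ▸ hst.primIdem
  have hEadj : ∀ e ∈ E, adj σ f e ∈ E := by
    intro e he
    rw [← Finset.mem_coe, hE] at he ⊢
    obtain ⟨h1, h2, h3, h4⟩ := he
    refine ⟨hadj' e h1, by rw [← hf.adj_mul, h2],
      fun h => h3 (hf.adj_injective (h.trans hf.adj_zero.symm)), fun y hy hyy => ?_⟩
    have := h4 _ (hadj' y hy) (by rw [← hf.adj_mul, hyy])
    rw [hC _ (hadj' y hy) e h1] at this
    rcases this with h | h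
    · left; simpa [hf.adj_mul, hf.adj_adj, hf.adj_zero] using congrArg (adj σ f) h
    · right; simpa [hf.adj_mul, hf.adj_adj] using congrArg (adj σ f) h
  by_cases hex : ∃ e ∈ E, adj σ f e = e
  · obtain ⟨e, he, hee⟩ := hex
    refine Or.inl (hf.decomp_of_selfAdjoint hirr hsys hstE h2 fun e' he' => ?_)
    obtain ⟨h, hh, rfl⟩ := hsys.trans hirr hstE e he e' he'
    rw [hf.adj_cj (hs hh), hee]
  push Not at hex
  let E' := E.image fun e => e + adj σ f e
  have hmul : ∀ e ∈ E, ∀ g ∈ E, (e + adj σ f e) * g =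
      if e + adj σ f e = g + adj σ f g then g else 0 := by
    intro e he g hg
    by_cases h1 : e = g
    · subst h1
      rw [if_pos rfl, add_mul, hsys.idem e he, hsys.orth _ (hEadj e he) e he (hex e he), add_zero]
    by_cases h2 : adj σ f e = g
    · subst h2
      rw [hf.adj_adj, if_pos (add_comm _ _), add_mul, hsys.idem _ hg, hsys.orth e he _ hg h1,
        zero_add]
    have h3 : (e + adj σ f e) * g = 0 := by
      rw [add_mul, hsys.orth e he g hg h1, hsys.orth _ (hEadj e he) g hg h2, add_zero]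
    rw [h3, if_neg]
    intro h
    rw [h, add_mul, hsys.idem g hg, hsys.orth _ (hEadj g hg) g hg (hex g hg), add_zero] at h3
    exact hsys.ne_zero g hg h3
  have hmul2 : ∀ e ∈ E, ∀ g ∈ E, (e + adj σ f e) * (g + adj σ f g) =
      if e + adj σ f e = g + adj σ f g then g + adj σ f g else 0 := by
    intro e he g hg
    rw [mul_add, hmul e he g hg, hmul e he _ (hEadj g hg), hf.adj_adj, add_comm (adj σ f g) g]
    split_ifs <;> simp
  have hsys' : IdemSys E' := by
    refine ⟨fun x hx => ?_, fun x hx h0 => ?_, fun x hx y hy hxy => ?_, ?_⟩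
    · obtain ⟨e, he, rfl⟩ := Finset.mem_image.1 hx
      rw [hmul2 e he e he, if_pos rfl]
    · obtain ⟨e, he, rfl⟩ := Finset.mem_image.1 hx
      have := hmul e he e he
      rw [if_pos rfl, h0, zero_mul] at this
      exact hsys.ne_zero e he this.symm
    · obtain ⟨e, he, rfl⟩ := Finset.mem_image.1 hx
      obtain ⟨g, hg, rfl⟩ := Finset.mem_image.1 hy
      rw [hmul2 e he g hg, if_neg hxy]
    · rw [← mul_one (∑ e ∈ E', e), ← hsys.sum_eq, Finset.mul_sum]
      refine Finset.sum_congr rfl fun g hg => ?_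
      rw [Finset.sum_mul, Finset.sum_eq_single (g + adj σ f g), hmul g hg g hg, if_pos rfl]
      · intro x hx hne
        obtain ⟨e, he, rfl⟩ := Finset.mem_image.1 hx
        rw [hmul e he g hg, if_neg hne]
      · exact fun h => absurd (Finset.mem_image_of_mem _ hg) h
  by_cases h2' : 2 ≤ E'.card
  · refine Or.inl (hf.decomp_of_selfAdjoint hirr hsys' (fun h hh x hx => ?_) h2' fun x hx => ?_)
    · obtain ⟨e, he, rfl⟩ := Finset.mem_image.1 hx
      exact Finset.mem_image.2 ⟨_, hstE h hh e he, by rw [map_add, hf.adj_cj (hs hh)]⟩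
    · obtain ⟨e, he, rfl⟩ := Finset.mem_image.1 hx
      rw [hf.adj_add, hf.adj_adj, add_comm]
  · obtain ⟨e, he⟩ : E.Nonempty := Finset.card_pos.1 (by omega)
    have hcard : E.card = 2 := by
      refine le_antisymm ((Finset.card_le_card (t := {e, adj σ f e}) fun g hg => ?_).trans
        Finset.card_le_two) h2
      have h1 := hmul e he g hg
      rw [if_pos (Finset.card_le_one.1 (by omega : E'.card ≤ 1) _ (Finset.mem_image_of_mem _ he) _
        (Finset.mem_image_of_mem _ hg))] at h1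
      by_contra hc
      simp only [Finset.mem_insert, Finset.mem_singleton, not_or] at hc
      rw [add_mul, hsys.orth e he g hg (Ne.symm hc.1), hsys.orth _ (hEadj e he) g hg (Ne.symm hc.2),
        add_zero] at h1
      exact hsys.ne_zero g hg h1.symm
    let τ := (E.equivFinOfCardEq hcard).symm
    obtain ⟨k, hD, hle⟩ := hsys.decomp hirr hstE le_rfl τ
    refine Or.inr ⟨k, _, hD, ?_, hle⟩
    rintro i _ ⟨u, rfl⟩ _ ⟨v, rfl⟩
    rw [Matrix.toLin'_apply, Matrix.toLin'_apply, hf.adj_spec, mulVec_mulVec,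
      hsys.orth _ (hEadj _ (τ i).2) _ (τ i).2 (hex _ (τ i).2), zero_mulVec, hf.sesq0.zero_right]

end CfsgLib.Asch
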