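import Mathlib
import Cfsg.Agent.Lib.Asch.OrthOrbit
import Cfsg.Agent.Lib.Asch.BilinExtra

/-! Orthogonal decompositions with small summands over small fields. -/

set_option autoImplicit false

namespace CfsgLib.Asch

open Cfsg Cfsg.Geo Matrix QuadraticMap Module CfsgLib.Orth CfsgLib.Forms
open scoped MatrixGroups

variable {ι : Type} [Fintype ι] [DecidableEq ι] {F : Type*} [Field F]
  {Q : QuadraticForm F (ι → F)} {H : Subgroup (GL ι F)}

omit [DecidableEq ι] in
theorem exists_plus_coord {W : Submodule F (ι → F)} (hW : IsNondegenerateOn (polar Q) W) {m : ℕ}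
    (hd : finrank F W = 2 * m) (hp : IsPlusTypeOn Q W) :
    ∃ φ : (Fin m ⊕ Fin m → F) →ₗ[F] (ι → F), Function.Injective φ ∧ LinearMap.range φ = W ∧
      (∀ x, Q (φ x) = qPlus m F x) ∧ ∀ x y, polar Q (φ x) (φ y) = polar (qPlus m F) x y := by
  obtain ⟨U, hU⟩ := plus_iff_lag.1 hp
  obtain ⟨e, he, -⟩ := exists_equiv_qPlus (nondeg_restrict hW) hU hd
  exact ⟨W.subtype ∘ₗ e.toLinearMap, W.injective_subtype.comp e.injective, by
    rw [LinearMap.range_comp, LinearEquiv.range, Submodule.map_subtype_top], he,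
    polar_map_of_map_Q _ he⟩

omit [DecidableEq ι] in
/-- the vectors of norm one in a hyperbolic plane -/
theorem exists_plus_plane {W : Submodule F (ι → F)} (hW : IsNondegenerateOn (polar Q) W)
    (hd : finrank F W = 2) (hp : IsPlusTypeOn Q W) : ∃ v ∈ W, Q v = 1 ∧ ∀ w ∈ W, Q w = 1 →
      ∃ a : F, a ≠ 0 ∧ polar Q v w = a + a⁻¹ ∧ (a * a = 1 → w = a • v) := by
  obtain ⟨φ, -, rfl, h1, h2⟩ := exists_plus_coord hW (m := 1) hd hp
  refine ⟨φ 1, ⟨_, rfl⟩, by simp [h1, qPlus_apply], ?_⟩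
  rintro _ ⟨x, rfl⟩ hx
  rw [h1, qPlus_apply, Fin.sum_univ_one] at hx
  refine ⟨x (.inl 0), left_ne_zero_of_mul_eq_one hx, ?_, fun h => ?_⟩
  · simp [h2, polar_qPlus, eq_inv_of_mul_eq_one_right hx, add_comm]
  · rw [← map_smul]
    congr 1
    ext (i | i) <;> obtain rfl := Subsingleton.elim i 0
    · simp
    · simpa using mul_left_cancel₀ (left_ne_zero_of_mul_eq_one hx) (hx.trans h.symm)

theorem mul_self_eq_one_of_card_le [Fintype F] (h : Fintype.card F ≤ 3) {a : F} (ha : a ≠ 0) :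
    a * a = 1 := by
  have h1 := FiniteField.pow_card_sub_one_eq_one a ha
  have h2 := Fintype.one_lt_card (α := F)
  interval_cases Fintype.card F
  · rw [show a = 1 by simpa using h1, mul_one]
  · simpa [_root_.sq] using h1

theorem stab_line_of_plus_plane [Fintype F] (hH : FixesQuadForm (matrixSet H) Q)
    (h3 : Fintype.card F ≤ 3) {W : Submodule F (ι → F)} (hW : IsNondegenerateOn (polar Q) W)
    (hd : finrank F W = 2) (hp : IsPlusTypeOn Q W) (hle : H ≤ subspaceStabilizer W) :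
    ∃ v, Q v ≠ 0 ∧ H ≤ subspaceStabilizer (Submodule.span F {v}) := by
  obtain ⟨v, hv, h1, h2⟩ := exists_plus_plane hW hd hp
  refine ⟨v, h1 ▸ one_ne_zero, le_subspaceStabilizer_iff.2 fun g hg => map_toLin'_le_iff.1 ?_⟩
  obtain ⟨a, ha, -, h⟩ := h2 _ (le_subspaceStabilizer_iff.1 hle g hg v hv)
    ((fixQ_iff.1 hH g hg v).trans h1)
  rw [Submodule.map_span, Set.image_singleton, Submodule.span_singleton_le_iff_mem, toLin'_apply,
    h (mul_self_eq_one_of_card_le h3 ha)]
  exact Submodule.smul_mem _ _ (Submodule.mem_span_singleton_self v)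

omit [Fintype ι] [DecidableEq ι] in
theorem nondegOn_span (h2 : (2 : F) ≠ 0) {v : ι → F} (hv : Q v ≠ 0) :
    IsNondegenerateOn (polar Q) (Submodule.span F {v}) :=
  nondegOn_iff.2 (Submodule.disjoint_def.2 fun w hw hw' => by
    obtain ⟨c, rfl⟩ := Submodule.mem_span_singleton.1 hw
    have := mem_qperp.1 hw' v (Submodule.mem_span_singleton_self v)
    rw [polar_smul_right, polar_self', smul_eq_mul, mul_eq_zero] at this
    rw [this.resolve_right (mul_ne_zero h2 hv), zero_smul])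

section decomp

variable {t k : ℕ} {D : Fin t → Submodule F (ι → F)}

theorem mem_or_orth (hD : IsOrthogonalMDecomposition Q k D) (hle : H ≤ decompositionStabilizer D)
    {g : GL ι F} (hg : g ∈ H) (i : Fin t) : gmap g (D i) = D i ∨ gmap g (D i) ≤ qperp Q (D i) := by
  obtain ⟨j, hj⟩ := mem_decomp_of_le hle hg i
  by_cases h : j = i
  · exact Or.inl (h ▸ hj)
  · exact Or.inr (hj ▸ fun v hv u hu => hD.decomp.orthogonal i j (Ne.symm h) u hu v hv)

theorem vec_mem_or_orth (hD : IsOrthogonalMDecomposition Q k D)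
    (hle : H ≤ decompositionStabilizer D) {g : GL ι F} (hg : g ∈ H) {i : Fin t} {v : ι → F}
    (hv : v ∈ D i) : (g : Matrix ι ι F) *ᵥ v ∈ D i ∨ polar Q v ((g : Matrix ι ι F) *ᵥ v) = 0 :=
  (mem_or_orth hD hle hg i).imp (fun h => h.le ⟨v, hv, rfl⟩) fun h => h ⟨v, hv, rfl⟩ v hv

/-- an irreducible group moves a vector off its orthogonal complement -/
theorem exists_polar_ne_zero_of_irred (hQ : (polarBilin Q).Nondegenerate)
    (hH : FixesQuadForm (matrixSet H) Q) (hirr : ActsIrreducibly (matrixSet H)) {v : ι → F}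
    (hv : v ≠ 0) : ∃ g ∈ H, polar Q v ((g : Matrix ι ι F) *ᵥ v) ≠ 0 := by
  by_contra hc
  push Not at hc
  let W : Submodule F (ι → F) :=
    { carrier := {w | ∀ g ∈ H, polar Q w ((g : Matrix ι ι F) *ᵥ v) = 0}
      add_mem' := fun ha hb g hg => by rw [polar_add_left, ha g hg, hb g hg, add_zero]
      zero_mem' := fun g _ => polar_zero_left _ _
      smul_mem' := fun c w hw g hg => by rw [polar_smul_left, hw g hg, smul_zero] }
  rcases irred_iff.1 hirr W (fun h hh w hw g hg => by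
    rw [← fixQ_polar hH (H.inv_mem hh), inv_mulVec_mulVec, mulVec_mulVec, ← Units.val_mul]
    exact hw _ (H.mul_mem (H.inv_mem hh) hg)) with h | h
  · exact hv ((Submodule.mem_bot F).1 (h ▸ (hc : v ∈ W)))
  · exact hv (eq_zero_of_polar hQ fun y => by
      simpa [polar_comm Q v] using (h ▸ Submodule.mem_top : y ∈ W) 1 H.one_mem)

variable [Fintype F] (hQ : (polarBilin Q).Nondegenerate) (hH : FixesQuadForm (matrixSet H) Q)
  (hirr : ActsIrreducibly (matrixSet H))
include hQ hH hirr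

theorem not_plus_planes_two (hq : Fintype.card F = 2) (hD : IsOrthogonalMDecomposition Q 2 D)
    (hle : H ≤ decompositionStabilizer D) (i : Fin t) : ¬ IsPlusTypeOn Q (D i) := fun hp => by
  obtain ⟨v, hv, h1, h2⟩ :=
    exists_plus_plane (hD.decomp.nondegenerate i) (hD.decomp.decomp.finrank_eq i) hp
  obtain ⟨g, hg, h⟩ := exists_polar_ne_zero_of_irred hQ hH hirr (v := v)
    (by rintro rfl; simp at h1)
  obtain ⟨a, ha, h3, -⟩ := h2 _ ((vec_mem_or_orth hD hle hg hv).resolve_right h)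
    ((fixQ_iff.1 hH g hg v).trans h1)
  have h4 := FiniteField.cast_card_eq_zero F
  have h5 := FiniteField.pow_card_sub_one_eq_one a ha
  rw [hq] at h4 h5
  rw [h3, show a = 1 by simpa using h5] at h
  exact h (by simpa [one_add_one_eq_two] using h4)

theorem osub_of_plus_planes_four (hq : Fintype.card F = 4) (hD : IsOrthogonalMDecomposition Q 2 D)
    (hle : H ≤ decompositionStabilizer D) {i : Fin t} (hp : IsPlusTypeOn Q (D i)) : OSub Q H := by
  obtain ⟨v, hv, h1, h2⟩ :=
    exists_plus_plane (hD.decomp.nondegenerate i) (hD.decomp.decomp.finrank_eq i) hp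
  refine subfield_of_orbit hQ hH hirr (v := v) (by rintro rfl; simp at h1) (F₀ := ⊥)
    (fun h => absurd (hq ▸ prime_card_of_bot_eq_top h) (by decide)) one_ne_zero
    (by simp [h1]) fun g hg => ?_
  rcases vec_mem_or_orth hD hle hg hv with h | h
  · obtain ⟨a, ha, h3, -⟩ := h2 _ h ((fixQ_iff.1 hH g hg v).trans h1)
    have h5 := FiniteField.pow_card_sub_one_eq_one a ha
    rw [hq] at h5
    rw [h3, one_mul]
    rcases mul_eq_zero.1 (show (a - 1) * (a + a⁻¹ + 1) = 0 by
      field_simp; linear_combination h5) with h | h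
    · simp [sub_eq_zero.1 h, add_mem, one_mem]
    · simp [eq_neg_of_add_eq_zero_left h]
  · simp [h]

omit hQ in
theorem frame_of_plus_planes_five (hq : Fintype.card F = 5) (hD : IsOrthogonalMDecomposition Q 2 D)
    (hle : H ≤ decompositionStabilizer D) {i : Fin t} (hp : IsPlusTypeOn Q (D i)) :
    ∃ D : Fin (Fintype.card ι) → Submodule F (ι → F), IsOrthogonalMDecomposition Q 1 D ∧
      H ≤ decompositionStabilizer D := by
  obtain ⟨v, hv, h1, h2⟩ :=
    exists_plus_plane (hD.decomp.nondegenerate i) (hD.decomp.decomp.finrank_eq i) hp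
  have := card_eq_of_decomp hD.decomp.decomp
  have := hD.decomp.decomp.two_le
  refine frame_of_orbit hH hirr (by omega) (v := v) (by
    rw [polar_self', h1, mul_one]; exact odd_card_iff.1 (hq ▸ by decide)) fun g hg => ?_
  rcases vec_mem_or_orth hD hle hg hv with h | h
  · obtain ⟨a, ha, h3, h4⟩ := h2 _ h ((fixQ_iff.1 hH g hg v).trans h1)
    have h5 := FiniteField.pow_card_sub_one_eq_one a ha
    rw [hq] at h5
    rcases mul_eq_zero.1 (show (a * a - 1) * (a + a⁻¹) = 0 by
      field_simp; linear_combination h5) with h | h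
    · exact Or.inl (h4 (sub_eq_zero.1 h) ▸
        Submodule.smul_mem _ _ (Submodule.mem_span_singleton_self v))
    · exact Or.inr (h3.trans h)
  · exact Or.inr h

omit hQ in
theorem frame_of_aniso_three (hq : Fintype.card F = 3) (h2 : 2 ≤ Fintype.card ι)
    {W : Submodule F (ι → F)} {v : ι → F} (hv : v ∈ W) (h0 : Q v ≠ 0)
    (han : ∀ u ∈ W, polar Q v u = 0 → Q u = 0 → u = 0)
    (horb : ∀ g ∈ H, (g : Matrix ι ι F) *ᵥ v ∈ W ∨ polar Q v ((g : Matrix ι ι F) *ᵥ v) = 0) :
    ∃ D : Fin (Fintype.card ι) → Submodule F (ι → F), IsOrthogonalMDecomposition Q 1 D ∧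
      H ≤ decompositionStabilizer D := by
  have h3 : (2 : F) ≠ 0 := odd_card_iff.1 (hq ▸ by decide)
  refine frame_of_orbit hH hirr h2 (v := v) (by rw [polar_self']; exact mul_ne_zero h3 h0)
    fun g hg => or_iff_not_imp_right.2 fun h => ?_
  have h4 := mul_self_eq_one_of_card_le hq.le (div_ne_zero h (mul_ne_zero h3 h0))
  set c := polar Q v ((g : Matrix ι ι F) *ᵥ v) / (2 * Q v) with hc
  have h5 : polar Q v ((g : Matrix ι ι F) *ᵥ v) = c * (2 * Q v) := by rw [hc]; field_simp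
  have := han _ (W.sub_mem ((horb g hg).resolve_right h) (W.smul_mem c hv))
    (by rw [polar_sub_right, polar_smul_right, polar_self', h5, smul_eq_mul, sub_self])
    (by rw [Q_sub, Q_smul, fixQ_iff.1 hH g hg, polar_smul_right, polar_comm, h5, smul_eq_mul]
        linear_combination (-Q v) * h4)
  exact sub_eq_zero.1 this ▸ Submodule.smul_mem _ _ (Submodule.mem_span_singleton_self v)

omit [DecidableEq ι] hQ hH hirr in
theorem exists_aniso_three (hq : Fintype.card F = 3) {W : Submodule F (ι → F)}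
    (hW : IsNondegenerateOn (polar Q) W) (hk : finrank F W = 2 ∨ finrank F W = 3) :
    ∃ v ∈ W, Q v ≠ 0 ∧ ∀ u ∈ W, polar Q v u = 0 → Q u = 0 → u = 0 := by
  have h2 : (2 : F) ≠ 0 := odd_card_iff.1 (hq ▸ by decide)
  obtain ⟨b, h3, h4⟩ := exists_orth_basis (nondeg_restrict hW) h2
  replace h3 : ∀ i j, i ≠ j → polar Q (b i : ι → F) (b j) = 0 := fun i j h =>
    (polar_map_of_map_Q W.subtype (fun _ => rfl) _ _).trans (h3 i j h)
  replace h4 : ∀ i, Q (b i : ι → F) ≠ 0 := h4
  have key : ∀ v b c, v ∈ W → (∀ u ∈ W, ∃ x y z : F, u = x • v + y • b + z • c) →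
      polar Q v b = 0 → polar Q v c = 0 → polar Q b c = 0 → Q v ≠ 0 → Q b ≠ 0 →
      Q c = Q b ∨ c = 0 → ∃ v ∈ W, Q v ≠ 0 ∧ ∀ u ∈ W, polar Q v u = 0 → Q u = 0 → u = 0 := by
    refine fun v b c a1 a2 a3 a4 a5 a6 a7 a8 => ⟨v, a1, a6, fun u hu h5 h6 => ?_⟩
    obtain ⟨x, y, z, rfl⟩ := a2 u hu
    obtain rfl : x = 0 := by simpa [polar_self', a3, a4, a6, h2] using h5
    rcases a8 with a8 | rfl
    · have h7 : y * y + z * z = 0 := by simpa [Q_add, Q_smul, a5, a8, ← add_mul, a7] using h6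
      have h8 := fun a : F => or_iff_not_imp_left.2 (mul_self_eq_one_of_card_le hq.le (a := a))
      rcases h8 y with h | h <;> rcases h8 z with h' | h' <;>
        simp [h, h', one_add_one_eq_two, h2] at h7 ⊢
    · obtain rfl : y = 0 := by simpa [Q_smul, a7] using h6
      simp
  have hs : ∀ u ∈ W, ∃ x : Fin (finrank F W) → F, u = ∑ i, x i • (b i : ι → F) := fun u hu =>
    ⟨b.repr ⟨u, hu⟩, (congrArg Subtype.val (b.sum_repr ⟨u, hu⟩)).symm.trans
      (by simp only [AddSubmonoidClass.coe_finsetSum, SetLike.val_smul])⟩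
  obtain ⟨c, h3, h4, hs, hb⟩ : ∃ c : Fin (finrank F W) → ι → F, (∀ i j, i ≠ j →
      polar Q (c i) (c j) = 0) ∧ (∀ i, Q (c i) ≠ 0) ∧ (∀ u ∈ W, ∃ x : Fin (finrank F W) → F,
        u = ∑ i, x i • c i) ∧ ∀ i, c i ∈ W := ⟨_, h3, h4, hs, fun i => (b i).2⟩
  revert c
  rcases hk with hk | hk <;> rw [hk] <;> intro c h3 h4 hs hb
  · exact key (c 0) (c 1) 0 (hb 0) (fun u hu => by
      obtain ⟨x, rfl⟩ := hs u hu; exact ⟨x 0, x 1, 0, by simp⟩) (h3 _ _ (by decide)) (by simp)
      (by simp) (h4 _) (h4 _) (Or.inr rfl)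
  · have key' : ∀ i j l : Fin 3, i ≠ j → i ≠ l → j ≠ l → (∀ x : Fin 3 → ι → F,
        ∑ a, x a = x i + x j + x l) → Q (c l) = Q (c j) → _ := fun i j l a1 a2 a3 a4 a5 =>
      key (c i) (c j) (c l) (hb i) (fun u hu => by
        obtain ⟨x, rfl⟩ := hs u hu; exact ⟨x i, x j, x l, a4 _⟩) (h3 _ _ a1) (h3 _ _ a2) (h3 _ _ a3)
        (h4 _) (h4 _) (Or.inl a5)
    by_cases h01 : Q (c 0) = Q (c 1)
    · exact key' 2 1 0 (by decide) (by decide) (by decide)
        (fun x => by rw [Fin.sum_univ_three]; abel) h01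
    by_cases h02 : Q (c 0) = Q (c 2)
    · exact key' 1 2 0 (by decide) (by decide) (by decide)
        (fun x => by rw [Fin.sum_univ_three]; abel) h02
    have h7 := fun i => mul_self_eq_one_iff.1 (mul_self_eq_one_of_card_le hq.le (h4 i))
    refine key' 0 2 1 (by decide) (by decide) (by decide)
      (fun x => by rw [Fin.sum_univ_three]; abel) ?_
    rcases h7 0 with h | h <;> rcases h7 1 with h' | h' <;> rcases h7 2 with h'' | h'' <;>
      simp_all only [not_true_eq_false]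

omit hQ in
theorem frame_of_decomp_three (hq : Fintype.card F = 3) (hk : k = 2 ∨ k = 3)
    (hD : IsOrthogonalMDecomposition Q k D) (hle : H ≤ decompositionStabilizer D) :
    ∃ D : Fin (Fintype.card ι) → Submodule F (ι → F), IsOrthogonalMDecomposition Q 1 D ∧
      H ≤ decompositionStabilizer D := by
  have := card_eq_of_decomp hD.decomp.decomp
  have := hD.decomp.decomp.two_le
  obtain ⟨v, hv, h0, han⟩ := exists_aniso_three hq (hD.decomp.nondegenerate ⟨0, by omega⟩)
    (by rwa [hD.decomp.decomp.finrank_eq])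
  exact frame_of_aniso_three hH hirr hq (by nlinarith [hD.decomp.decomp.pos]) hv h0 han
    fun g hg => vec_mem_or_orth hD hle hg hv

theorem frame_of_dim_three (hq : Fintype.card F = 3) (hn : Fintype.card ι = 3) :
    ∃ D : Fin 3 → Submodule F (ι → F), IsOrthogonalMDecomposition Q 1 D ∧
      H ≤ decompositionStabilizer D := by
  obtain ⟨v, hv, h0, han⟩ := exists_aniso_three hq (W := ⊤) (Q := Q)
    (fun v _ h => by
      obtain ⟨⟨x, hx⟩, y, hy⟩ := (isSesq_polar hQ).nondeg v h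
      exact ⟨⟨x, trivial, hx⟩, y, trivial, hy⟩)
    (Or.inr (by rw [finrank_top, finrank_fintype_fun_eq_card, hn]))
  exact hn ▸ frame_of_aniso_three hH hirr hq (by omega) hv h0 han fun g hg => Or.inl trivial

theorem osub_of_frame (hq : ¬ (Fintype.card F).Prime) (hD : IsOrthogonalMDecomposition Q 1 D)
    (hle : H ≤ decompositionStabilizer D) : OSub Q H := by
  have := hD.decomp.decomp.two_le
  let i : Fin t := ⟨0, by omega⟩
  obtain ⟨⟨v, hv⟩, h0, h1⟩ := finrank_eq_one_iff'.1 (hD.decomp.decomp.finrank_eq i)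
  replace h0 : v ≠ 0 := fun h => h0 (Subtype.ext h)
  replace h1 : ∀ w ∈ D i, ∃ c : F, c • v = w := fun w hw =>
    (h1 ⟨w, hw⟩).imp fun c hc => congrArg Subtype.val hc
  have h2 : Q v ≠ 0 := fun h => by
    obtain ⟨w, hw, hw'⟩ := (hD.decomp.nondegenerate i v hv h0).2
    obtain ⟨c, rfl⟩ := h1 w hw
    exact hw' (by rw [polar_smul_right, polar_self', h, mul_zero, smul_zero])
  refine subfield_of_orbit hQ hH hirr h0 (F₀ := ⊥) (fun h => hq (prime_card_of_bot_eq_top h))
    (inv_ne_zero h2) (by simp [h2]) fun g hg => ?_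
  rcases vec_mem_or_orth hD hle hg hv with h | h
  · obtain ⟨c, hc⟩ := h1 _ h
    have h3 := fixQ_iff.1 hH g hg v
    rw [← hc, Q_smul, mul_eq_right₀ h2, mul_self_eq_one_iff] at h3
    rw [← hc, polar_smul_right, polar_self', smul_eq_mul, ← mul_assoc c, mul_comm,
      mul_inv_cancel_right₀ h2]
    rcases h3 with rfl | rfl <;> simpa using natCast_mem (⊥ : Subfield F) 2
  · simp [h]

omit hQ in
theorem minus_planes_of_four (hq : Fintype.card F = 2) (hD : IsOrthogonalMDecomposition Q 4 D)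
    (hle : H ≤ decompositionStabilizer D) {i : Fin t} (hp : IsPlusTypeOn Q (D i)) :
    ∃ (t' : ℕ) (D' : Fin t' → Submodule F (ι → F)), IsOrthogonalMDecomposition Q 2 D' ∧
      (∀ j, ¬ IsPlusTypeOn Q (D' j)) ∧ H ≤ decompositionStabilizer D' := by
  obtain ⟨φ, hφ, hr, h1, h2⟩ := exists_plus_coord (hD.decomp.nondegenerate i) (m := 2)
    (hD.decomp.decomp.finrank_eq i) hp
  have h7 : ∀ a : F, a = 0 ∨ a = 1 := fun a => or_iff_not_imp_left.2 fun ha => by
    simpa [hq] using FiniteField.pow_card_sub_one_eq_one a ha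
  have h8 : (1 + 1 : F) = 0 := by simpa [hq, one_add_one_eq_two] using FiniteField.cast_card_eq_zero F
  let p : Fin 2 → (Fin 2 → F) →ₗ[F] F := fun i => LinearMap.proj i
  let ψ : (Fin 2 → F) →ₗ[F] (Fin 2 ⊕ Fin 2 → F) :=
    LinearMap.pi (φ := fun _ => F) (Sum.elim ![p 0, p 1] ![p 0 + p 1, p 1])
  have hψ : ∀ x, ψ x = Sum.elim ![x 0, x 1] ![x 0 + x 1, x 1] := fun x => by
    ext (j | j) <;> fin_cases j <;> rfl
  let W := LinearMap.range (φ ∘ₗ ψ)
  have hW : W ≤ D i := hr ▸ LinearMap.range_comp_le_range _ _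
  have han : ∀ w ∈ W, Q w = 0 → w = 0 := by
    rintro _ ⟨x, rfl⟩ hx
    rw [LinearMap.comp_apply, h1, hψ, qPlus_apply] at hx
    rw [show x = 0 by
      rcases h7 (x 0) with h | h <;> rcases h7 (x 1) with h' | h' <;>
        simp_all [funext_iff, Fin.forall_fin_two], map_zero]
  have hd : finrank F W = 2 := by
    rw [LinearMap.finrank_range_of_inj (f := φ ∘ₗ ψ) (hφ.comp fun x y h => ?_), finrank_fin_fun]
    ext j; fin_cases j
    exacts [congrFun h (.inl 0), congrFun h (.inl 1)]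
  have hnd : IsNondegenerateOn (polar Q) W := nondegOn_iff.2 (Submodule.disjoint_def.2 (by
    rintro _ ⟨x, rfl⟩ hx
    have a1 := mem_qperp.1 hx _ ⟨![1, 0], rfl⟩
    have a2 := mem_qperp.1 hx _ ⟨![0, 1], rfl⟩
    simp only [LinearMap.comp_apply, h2, hψ, polar_qPlus] at a1 a2
    rw [show x = 0 by
      rcases h7 (x 0) with h | h <;> rcases h7 (x 1) with h' | h' <;>
        simp_all [funext_iff, Fin.forall_fin_two], map_zero]))
  have hns : ∀ w ∈ D i, w = 0 ∨ Q w ≠ 0 → w ∈ W ∨ w ∈ qperp Q W := by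
    rw [← hr]
    rintro _ ⟨x, rfl⟩ (hx | hx)
    · exact Or.inl (hx ▸ W.zero_mem)
    rw [h1, qPlus_apply] at hx
    by_cases h : x (.inr 0) = x (.inl 0) + x (.inl 1) ∧ x (.inr 1) = x (.inl 1)
    · refine Or.inl ⟨![x (.inl 0), x (.inl 1)], congrArg φ ?_⟩
      rw [hψ]; ext (j | j) <;> fin_cases j <;> simp [h]
    · refine Or.inr (mem_qperp.2 ?_)
      rintro _ ⟨y, rfl⟩
      rw [LinearMap.comp_apply, h2, hψ, polar_qPlus]
      rcases h7 (x (.inl 0)) with h | h <;> rcases h7 (x (.inl 1)) with h' | h' <;>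
        rcases h7 (x (.inr 0)) with h'' | h'' <;> rcases h7 (x (.inr 1)) with h''' | h''' <;>
        simp_all <;> grind
  have hc := card_eq_of_decomp hD.decomp.decomp
  have := hD.decomp.decomp.two_le
  obtain ⟨t', D', a1, a2, j, hj⟩ := decomp_of_orbit hH hirr (W := W)
    (fun h => by rw [h, finrank_bot] at hd; omega)
    (fun h => by rw [h, finrank_top, finrank_fintype_fun_eq_card] at hd; omega) hnd fun g hg => by
    rcases mem_or_orth hD hle hg i with h | h
    · have : (gmap g W : Set (ι → F)) ⊆ W ∪ qperp Q W := by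
        rintro _ ⟨w, hw, rfl⟩
        refine hns _ (h.le ⟨w, hW hw, rfl⟩) (or_iff_not_imp_right.2 fun h' => ?_)
        rw [han w hw ((fixQ_iff.1 hH g hg w).symm.trans (not_not.1 h')), map_zero]
      refine (AddSubgroupClass.subset_union.1 this).imp_left fun h' =>
        Submodule.eq_of_le_of_finrank_eq h' (finrank_map_toLin' g W)
    · exact Or.inr ((Submodule.map_mono hW).trans (h.trans ((ofQuad Q).perp_anti hW)))
  refine ⟨t', D', hd ▸ a1, fun l hl => ?_, a2⟩
  obtain ⟨U, b1, b2, b3⟩ := plus_of_isometric (a1.isometric l j) hl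
  rw [hj] at b1 b3
  rw [show U = ⊥ from eq_bot_iff.2 fun u hu => han u (b1 hu) (b2 u hu), finrank_bot] at b3
  omega

end decomp

end CfsgLib.Asch
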