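import Mathlib
import Cfsg.Agent.Lib.Asch.OrthField
import Cfsg.Agent.Lib.Asch.OrthSmall
import Cfsg.Agent.Lib.Asch.UnitaryB
import Cfsg.Agent.Lib.CasesSp.Small
import Cfsg.Agent.Lib.NonMax.Tens
import Cfsg.Agent.Lib.SLCases.Proper

/-! Tensor decompositions, extraspecial groups and components normalised by a subgroup of an
orthogonal group. -/

set_option autoImplicit false

namespace CfsgLib.Asch

open Cfsg Cfsg.Geo Matrix QuadraticMap Module CfsgLib.Orth
open CfsgLib.NonMax (tau tau_apply tau_form coord_kron_tau)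
open CfsgLib.SLCases (det_coord)
open scoped MatrixGroups Kronecker

variable {ι : Type} [Fintype ι] [DecidableEq ι] {F : Type*} [Field F]
  {Q : QuadraticForm F (ι → F)} {H : Subgroup (GL ι F)}

theorem gram_basisFun (Q : QuadraticForm F (ι → F)) :
    gram Q (Pi.basisFun F ι) = gramMatrix (polar Q) := by
  ext i j; simp [Orth.gram, gramMatrix]

theorem isSquare_det_of_symp {f : (ι → F) → (ι → F) → F} (hf : IsSymplecticForm f) :
    IsSquare (gramMatrix f).det := by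
  let B := CasesSp.toB hf.bilinear
  obtain ⟨m, b, h1, h2, h3⟩ := CfsgLib.Forms.exists_symplectic_basis B (CasesSp.toB_alt hf)
    (CasesSp.toB_nondeg hf.bilinear hf.nondegenerate)
  let e := b.indexEquiv (Pi.basisFun F ι)
  have h4 : LinearMap.BilinForm.toMatrix b B = Matrix.J (Fin m) F := by
    ext (i | i) (j | j)
    · simp [h1, Matrix.J]
    · have := hf.skew (b (Sum.inl i)) (b (Sum.inr j))
      have h5 : f (b (Sum.inr j)) (b (Sum.inl i)) = _ := h3 j i
      simp [Matrix.J, B, this, h5, one_apply, eq_comm]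
    · simp [h3, Matrix.J, one_apply]
    · simp [h2, Matrix.J]
  have h5 : (LinearMap.BilinForm.toMatrix (b.reindex e) B).det = 1 := by
    rw [← SymplecticGroup.det_eq_one (SymplecticGroup.J_mem (Fin m) F), ← h4,
      ← Matrix.det_submatrix_equiv_self e.symm]
    congr 1
    ext i j; simp
  have h6 : gramMatrix f = LinearMap.BilinForm.toMatrix (Pi.basisFun F ι) B := by
    ext i j; simp [gramMatrix, B]
  rw [h6, ← LinearMap.BilinForm.toMatrix_mul_basis_toMatrix (b.reindex e) (Pi.basisFun F ι),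
    Matrix.det_mul, Matrix.det_mul, Matrix.det_transpose, h5, mul_one]
  exact ⟨_, rfl⟩

theorem det_sq_of_sim {ε : F} {f : (ι → F) → (ι → F) → F} (hf : IsSesq (RingHom.id F) ε f)
    {g : Matrix ι ι F} {c : F} (h : ∀ u v, f (g *ᵥ u) (g *ᵥ v) = c * f u v) :
    g.det ^ 2 = c ^ Fintype.card ι := by
  have h1 : gᵀ * gramMatrix f * g = c • gramMatrix f := gform_ext (σ := RingHom.id F) fun u v => by
    have := h u v
    rwa [hf.sesq0.eq_gform, hf.sesq0.eq_gform, gform_mulVec, ← gform_smul, RingHom.coe_id,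
      Matrix.map_id] at this
  have h2 := congrArg Matrix.det h1
  rw [Matrix.det_mul, Matrix.det_mul, det_transpose, det_smul] at h2
  exact mul_right_cancel₀ hf.isUnit_det.ne_zero (by linear_combination h2)

theorem two_mul_finrank_le (hQ : (polarBilin Q).Nondegenerate) {W : Submodule F (ι → F)}
    (hW : IsTotallySingularFor (polar Q) W) : 2 * finrank F W ≤ Fintype.card ι := by
  have h1 := finrank_qperp hQ W
  have h2 : finrank F W ≤ finrank F (qperp Q W) :=
    Submodule.finrank_mono fun v hv => mem_qperp.2 fun w hw => hW w hw v hv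
  omega

/-- an idempotent `e` with `e + e* = 1` and singular image -/
theorem plus_of_idem (hQ : (polarBilin Q).Nondegenerate) {e : Matrix ι ι F} (he : e * e = e)
    (hadj : e + adj (RingHom.id F) (polar Q) e = 1) (h0 : ∀ v, Q (e *ᵥ v) = 0) :
    IsPlusTypeOn Q ⊤ := by
  have hf := isSesq_polar hQ
  have h1 : adj (RingHom.id F) (polar Q) e = 1 - e := eq_sub_of_add_eq' hadj
  have h2 := two_mul_finrank_le hQ (W := LinearMap.range (toLin' e)) (by
    rintro _ ⟨u, rfl⟩ _ ⟨v, rfl⟩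
    rw [toLin'_apply, toLin'_apply, hf.adj_spec, h1, mulVec_mulVec, sub_mul, one_mul, he, sub_self,
      zero_mulVec, polar_zero_right])
  have h3 := two_mul_finrank_le hQ (W := LinearMap.range (toLin' (1 - e))) (by
    rintro _ ⟨u, rfl⟩ _ ⟨v, rfl⟩
    rw [toLin'_apply, toLin'_apply, ← h1, ← hf.adj_spec', h1, mulVec_mulVec, mul_sub, mul_one, he,
      sub_self, zero_mulVec, polar_zero_right])
  have h4 : LinearMap.range (toLin' e) ⊔ LinearMap.range (toLin' (1 - e)) = ⊤ :=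
    eq_top_iff.2 fun v _ => Submodule.mem_sup.2 ⟨_, ⟨v, rfl⟩, _, ⟨v, rfl⟩, by
      simp [sub_mulVec]⟩
  have h5 := Submodule.finrank_add_le_finrank_add_finrank (LinearMap.range (toLin' e))
    (LinearMap.range (toLin' (1 - e)))
  rw [h4, finrank_top, finrank_fintype_fun_eq_card] at h5
  refine ⟨LinearMap.range (toLin' e), le_top, ?_, ?_⟩
  · rintro _ ⟨v, rfl⟩; exact h0 v
  · rw [finrank_top, finrank_fintype_fun_eq_card]; omega

/-- a skew-adjoint square root of `-1` in dimension divisible by four -/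
theorem plus_of_skew [Finite F] (hQ : (polarBilin Q).Nondegenerate) (h2 : (2 : F) ≠ 0) {m : ℕ}
    (hm : Fintype.card ι = 4 * m) {x : Matrix ι ι F} (hx : x * x = -1)
    (hadj : adj (RingHom.id F) (polar Q) x = -x) : IsPlusTypeOn Q ⊤ := by
  have hf := isSesq_polar hQ
  have hxu : x.det ≠ 0 := fun h => by
    have := congrArg Matrix.det hx
    rw [Matrix.det_mul, h, det_neg, det_one, mul_zero, mul_one] at this
    exact pow_ne_zero _ (neg_ne_zero.2 one_ne_zero) this.symm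
  have h1 : IsSymplecticForm (fun u v => polar Q u (x *ᵥ v)) := by
    have hs : ∀ u v, polar Q u (x *ᵥ v) = -polar Q v (x *ᵥ u) := fun u v => by
      rw [hf.adj_spec', hadj, neg_mulVec, polar_neg_left, polar_comm]
    refine ⟨⟨fun a b v => polar_add_left _ _ _ _, fun c a v => polar_smul_left _ _ _ _,
      fun v a b => by rw [mulVec_add, polar_add_right], fun c v a => by
        rw [mulVec_smul, polar_smul_right, smul_eq_mul]⟩, hs, fun v => ?_, fun v hv => ?_⟩
    · exact (mul_eq_zero.1 (show 2 * polar Q v (x *ᵥ v) = 0 by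
        linear_combination hs v v)).resolve_left h2
    · have hv' : x *ᵥ v ≠ 0 := fun h => hv (by
        have := congrArg (x *ᵥ ·) h
        simpa [mulVec_mulVec, hx, neg_mulVec] using this)
      obtain ⟨y, hy⟩ := (hf.nondeg _ hv').1
      exact ⟨⟨y, hy⟩, y, by rw [hs]; exact neg_ne_zero.2 hy⟩
  have h3 : gramMatrix (fun u v => polar Q u (x *ᵥ v)) = gramMatrix (polar Q) * x := by
    rw [← gramMatrix_gform (RingHom.id F) (gramMatrix (polar Q) * x)]
    congr 1
    funext u v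
    rw [hf.sesq0.eq_gform, gform_mulVec_right, RingHom.coe_id, Matrix.map_id]
  have h4 := isSquare_det_of_symp h1
  have h5 : (1 + x).det * (1 + x).det = 2 ^ (2 * m) * 2 ^ (2 * m) * x.det := by
    rw [← Matrix.det_mul, show (1 + x) * (1 + x) = (2 : F) • x by
      rw [add_mul, mul_add, mul_add, hx, two_smul, one_mul, one_mul, mul_one]; abel, det_smul, hm]
    ring
  have h6 : IsSquare x.det :=
    (isSquare_mul_self_mul_iff (pow_ne_zero _ h2)).1 ⟨_, h5.symm⟩
  obtain ⟨d, hd⟩ := h6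
  rw [h3, Matrix.det_mul, hd, mul_comm,
    isSquare_mul_self_mul_iff (fun h => hxu (by rw [hd, h, mul_zero]))] at h4
  rw [plus_iff_disc hQ h2 (Pi.basisFun F ι) (m := 2 * m) (by omega), gram_basisFun, pow_mul]
  simpa using h4

theorem Extra2.card_eq [Finite F] [Nonempty ι] {f : (ι → F) → (ι → F) → F} {R : Subgroup (GL ι F)}
    {m : ℕ} (h : Extra2 f H R m) : Fintype.card ι = 2 ^ m :=
  CasesSp.card_eq_of_extraspecial (CasesSp.extraspecial_of_type h.type h.card_center)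
    (absIrred_of_env h.env_top) h.card

theorem Extra2.plus [Finite F] (hQ : (polarBilin Q).Nondegenerate) {R : Subgroup (GL ι F)} {m : ℕ}
    (h : Extra2 (polar Q) H R m) {k : ℕ} (hk : Fintype.card ι = 4 * k) (h2 : 2 ≤ Fintype.card ι) :
    IsPlusTypeOn Q ⊤ := by
  have hf := isSesq_polar hQ
  by_cases hx : ∃ x ∈ R, x ^ 2 = -1
  · obtain ⟨x, hx, h1⟩ := hx
    have h3 : (x : Matrix ι ι F) * x = -1 := by
      rw [← Units.val_mul, ← pow_two, h1]; rfl
    refine plus_of_skew hQ h.two_ne hk h3 ?_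
    rw [hf.adj_coe h.fixes hx]
    exact Units.inv_eq_of_mul_eq_one_right (by rw [mul_neg, h3, neg_neg])
  · exfalso
    have h1 : ∀ x ∈ R, x * x = 1 := fun x hx' => by
      rw [← pow_two]
      exact ((h.scalar_iff _ (R.pow_mem hx' 2)).1 (h.sq_mem x hx')).resolve_right
        fun h => hx ⟨x, hx', h⟩
    have h3 : ∀ x ∈ R, ∀ y ∈ R, x * y = y * x := fun x hx y hy => by
      have a := h1 _ (R.mul_mem hx hy)
      calc x * y = x * (x * y * (x * y)) * y⁻¹ * (y * y) := by rw [a]; group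
        _ = x * x * (y * x) * (y * y⁻¹) * (y * y) := by group
        _ = y * x := by rw [h1 x hx, h1 y hy]; group
    refine not_comm_of_two_le (F := F) h2 fun a b => ?_
    refine comm_env (N := R) (fun y hy => (comm_env (N := R) (fun x hx => ?_)
      (h.env_top ▸ Algebra.mem_top)).symm) (h.env_top ▸ Algebra.mem_top)
    rw [← Units.val_mul, h3 y hy x hx, Units.val_mul]

section tensor

variable {n₁ n₂ : ℕ} {e : ι ≃ Fin n₁ × Fin n₂} {P : GL ι F}
  {f₁ : (Fin n₁ → F) → (Fin n₁ → F) → F} {f₂ : (Fin n₂ → F) → (Fin n₂ → F) → F} {ε₁ ε₂ : F}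

/-- the quadratic form vanishes on pure tensors -/
theorem TensorData.pure_zero [Finite F] (hQ : (polarBilin Q).Nondegenerate)
    (hH : FixesQuadForm (matrixSet H) Q) (hirr : ActsIrreducibly (matrixSet H))
    (h : TensorData (RingHom.id F) (polar Q) H e P f₁ f₂ ε₁ ε₂) (hf₁ : IsSymplecticForm f₁)
    (x₁ : Fin n₁ → F) (x₂ : Fin n₂ → F) :
    Q ((P : Matrix ι ι F) *ᵥ ((fun a : Fin n₁ × Fin n₂ => x₁ a.1 * x₂ a.2) ∘ e)) = 0 := by
  by_cases h2 : (2 : F) = 0
  · obtain ⟨k, hk, h1, h3⟩ := h.quad_of_two h2 (symp_polar hQ h2) (fixesForm_polar hH) hirr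
    have h4 := h.card_eq
    have := h.two_le₁
    have := h.two_le₂
    have h5 := quad_unique (by nlinarith) hirr (Q := Q)
      (fun c v => by rw [Q.map_smul, smul_eq_mul, _root_.sq])
      (quadK_nondeg (isSesq_polar hQ) hk).smul
      (fun u v => (quadK_polar (isSesq_polar hQ) hk u v).symm) hH h1
    rw [h5]; exact h3 x₁ x₂
  · obtain ⟨c, -, hc⟩ := tau_form h.sesq₁.sesq0 h.sesq₂.sesq0 h.struct
    have := hc x₁ x₂ x₁ x₂
    rw [hf₁.alternating, mul_zero, zero_mul, QuadraticMap.polar_self, two_nsmul, ← two_mul] at this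
    exact (mul_eq_zero.1 this).resolve_left h2

theorem plus_of_pure_two {e : ι ≃ Fin 2 × Fin n₂}
    (h : ∀ (x₁ : Fin 2 → F) (x₂ : Fin n₂ → F),
      Q ((P : Matrix ι ι F) *ᵥ ((fun a : Fin 2 × Fin n₂ => x₁ a.1 * x₂ a.2) ∘ e)) = 0) :
    IsPlusTypeOn Q ⊤ := by
  refine ⟨LinearMap.range (tau e P 1), le_top, ?_, ?_⟩
  · rintro _ ⟨y, rfl⟩; exact h 1 y
  · rw [LinearMap.finrank_range_of_inj fun y y' hy => ?_]
    · simp [Fintype.card_congr e]
    · rw [tau_apply, tau_apply] at hy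
      funext j
      simpa using congrFun ((coordV e P).symm.injective hy) (0, j)

theorem TensorData.not_three [Fintype F] {f : (ι → F) → (ι → F) → F} {ε : F}
    (hf : IsSesq (RingHom.id F) ε f) (hs : H ≤ similarityGroup f) (hc : NoComm f H)
    (h : TensorData (RingHom.id F) f H e P f₁ f₂ 1 ε₂) : ¬ (Fintype.card F = 3 ∧ n₁ = 3) :=
  fun h' => CasesSp.not_noComm_three h'.1 h.sesq₁.symm (by simp [h'.2]) (h.projL_le hs)
    (h.noComm hf hc)

/-- the type of a tensor product `3 × 4` -/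
theorem plus_of_three_four [Finite F] (hQ : (polarBilin Q).Nondegenerate) (h2 : (2 : F) ≠ 0)
    {e : ι ≃ Fin 3 × Fin 4} {f₁ : (Fin 3 → F) → (Fin 3 → F) → F}
    {f₂ : (Fin 4 → F) → (Fin 4 → F) → F} (hf₁ : IsSymmetricForm f₁) (hf₂ : IsSymmetricForm f₂)
    (h : IsTensorFormStructure id (polar Q) f₁ f₂ e P) (hp : IsPlusTypeOn Q ⊤) :
    IsPlusTypeOn (fun v => f₂ v v) ⊤ := by
  obtain ⟨c, hc, h⟩ := h
  have h₂ := quadratic_of_symm hf₂ h2
  have h1 : gram Q ((Pi.basisFun F (Fin 3 × Fin 4)).map (coordV e P).symm) =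
      c • (gramMatrix f₁ ⊗ₖ gramMatrix f₂) := by
    ext a b
    have := h (Pi.single a 1) (Pi.single b 1)
    rw [show (id : F → F) = RingHom.id F from rfl, formOfGram_eq, gform_single] at this
    simp only [Orth.gram, of_apply, Basis.map_apply, Pi.basisFun_apply]
    exact this
  have h3 : gramMatrix (polar (RootMax.toQF h₂)) = (2 : F) • gramMatrix f₂ := by
    ext a b; exact polar_of_symm hf₂ _ _
  rw [plus_iff_disc hQ h2 ((Pi.basisFun F (Fin 3 × Fin 4)).map (coordV e P).symm) (m := 6)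
    (by simp [Fintype.card_congr e]), h1, det_smul, det_kronecker] at hp
  refine (plus_iff_disc (toQF_nondegenerate h₂) h2 (Pi.basisFun F _) (m := 2) (by simp)).2 ?_
  rw [gram_basisFun, h3, det_smul]
  have h4 := (isSesq_of_symm hf₁).isUnit_det.ne_zero
  have h5 := (isSesq_of_symm hf₂).isUnit_det.ne_zero
  have h6 : IsSquare (gramMatrix f₂).det :=
    (isSquare_mul_self_mul_iff (c := c ^ 6 * (gramMatrix f₁).det ^ 2 * (gramMatrix f₂).det)
      (by positivity)).1 (by convert hp using 1; simp; ring)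
  exact (IsSquare.mul ⟨4, by simp; norm_num⟩ h6).mul ⟨-1, by ring⟩

theorem exists_coordV_symm {κ : Type} [Fintype κ] [DecidableEq κ] (e : ι ≃ κ)
    (φ : (κ → F) ≃ₗ[F] (ι → F)) : ∃ P : GL ι F, ∀ x, (coordV e P).symm x = φ x := by
  obtain ⟨P, -, hP⟩ := CasesSp.exists_isom_of_equiv (f := fun _ _ => (0 : F))
    ((LinearEquiv.funCongrLeft F F e.symm).trans φ) fun _ _ => rfl
  refine ⟨P, fun x => (hP _).trans ?_⟩
  rw [LinearEquiv.trans_apply]
  congr 1
  ext a; simp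

theorem finrank_range_of_injective {κ : Type} [Fintype κ] [DecidableEq κ]
    (φ : Matrix κ κ F →ₐ[F] Matrix ι ι F) (h : Function.Injective φ) :
    finrank F φ.range = Fintype.card κ * Fintype.card κ := by
  rw [← (AlgEquiv.ofInjective φ h).toLinearEquiv.finrank_eq, Module.finrank_matrix]; simp

theorem skew_decomp (h2 : (2 : F) ≠ 0) {x : Matrix (Fin 2 × Fin 2) (Fin 2 × Fin 2) F}
    (hx : xᵀ * (J2 F ⊗ₖ J2 F) = -((J2 F ⊗ₖ J2 F) * x)) :
    ∃ a b : Matrix (Fin 2) (Fin 2) F, a.trace = 0 ∧ b.trace = 0 ∧ x = a ⊗ₖ 1 + 1 ⊗ₖ b := by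
  have e : ∀ p q, (xᵀ * (J2 F ⊗ₖ J2 F)) p q = -((J2 F ⊗ₖ J2 F) * x) p q := fun p q =>
    congrFun (congrFun hx p) q
  have e1 := e (0, 0) (0, 0)
  have e2 := e (0, 1) (0, 1)
  have e3 := e (1, 0) (1, 0)
  have e4 := e (1, 1) (1, 1)
  have e5 := e (0, 0) (0, 1)
  have e6 := e (0, 0) (1, 0)
  have e7 := e (0, 0) (1, 1)
  have e8 := e (0, 1) (1, 0)
  have e9 := e (0, 1) (1, 1)
  have e10 := e (1, 0) (1, 1)
  simp only [mul_apply, Fintype.sum_prod_type, Fin.sum_univ_two, J2, transpose_apply,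
    kroneckerMap_apply, of_apply, cons_val', cons_val_zero, cons_val_one, cons_val_fin_one]
    at e1 e2 e3 e4 e5 e6 e7 e8 e9 e10
  refine ⟨!![(x (0, 0) (0, 0) + x (0, 1) (0, 1)) / 2, x (0, 0) (1, 0);
      x (1, 0) (0, 0), -((x (0, 0) (0, 0) + x (0, 1) (0, 1)) / 2)],
    !![(x (0, 0) (0, 0) - x (0, 1) (0, 1)) / 2, x (0, 0) (0, 1);
      x (0, 1) (0, 0), -((x (0, 0) (0, 0) - x (0, 1) (0, 1)) / 2)], by simp, by simp, ?_⟩
  ext ⟨i, j⟩ ⟨k, l⟩
  fin_cases i <;> fin_cases j <;> fin_cases k <;> fin_cases l <;> simp <;> grind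

theorem mul_self_of_trace {a : Matrix (Fin 2) (Fin 2) F} (ha : a.trace = 0) :
    a * a = (-a.det) • 1 := by
  rw [trace_fin_two] at ha
  ext i j
  fin_cases i <;> fin_cases j <;> simp [mul_apply, det_fin_two] <;> grind

theorem eq_zero_or_of_sq (h2 : (2 : F) ≠ 0) {a b : Matrix (Fin 2) (Fin 2) F} (ha : a.trace = 0)
    (hb : b.trace = 0) {c : F} (h : (a ⊗ₖ 1 + 1 ⊗ₖ b) * (a ⊗ₖ 1 + 1 ⊗ₖ b) = c • 1) :
    a = 0 ∨ b = 0 := by
  by_contra h0
  push Not at h0
  simp only [add_mul, mul_add, ← mul_kronecker_mul, mul_one, one_mul, mul_self_of_trace ha,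
    mul_self_of_trace hb, smul_kronecker, kronecker_smul, one_kronecker_one] at h
  have h1 : a ⊗ₖ b = ((c + a.det + b.det) / 2) •
      ((1 : Matrix (Fin 2) (Fin 2) F) ⊗ₖ (1 : Matrix (Fin 2) (Fin 2) F)) := by
    refine smul_right_injective _ h2 ?_
    simp only [smul_smul, mul_div_cancel₀ _ h2, one_kronecker_one, add_smul, ← h, two_smul,
      neg_smul]
    abel
  have key : ∀ {a : Matrix (Fin 2) (Fin 2) F}, a ≠ 0 → ∃ i j, a i j ≠ 0 := fun h => by
    by_contra h'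
    push Not at h'
    exact h (Matrix.ext h')
  obtain ⟨c₁, -, h3, -⟩ := kron_factor (key h0.1) (key h0.2) h1
  have h4 : c₁ * 2 = 0 := by simpa [h3] using ha
  exact h0.1 (by rw [h3, (mul_eq_zero.1 h4).resolve_right h2, zero_smul])

theorem isSesq_J2 : IsSesq (RingHom.id F) (-1) (gform (RingHom.id F) (J2 F)) :=
  isSesq_gform (fun _ => rfl) (by simp [J2]) (by
    ext i j; fin_cases i <;> fin_cases j <;> simp [J2])

theorem isSesq_J2_J2 : IsSesq (RingHom.id F) 1 (gform (RingHom.id F) (J2 F ⊗ₖ J2 F)) :=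
  isSesq_gform (fun _ => rfl) (by simp [det_kronecker, J2]) (by
    ext ⟨i, j⟩ ⟨k, l⟩
    fin_cases i <;> fin_cases j <;> fin_cases k <;> fin_cases l <;> simp [J2])

/-- a similarity of `J ⊗ J` preserves or swaps the factors -/
theorem norm_or_swap (h2 : (2 : F) ≠ 0) {g : GL (Fin 2 × Fin 2) F}
    (hg : g ∈ similarityGroup (gform (RingHom.id F) (J2 F ⊗ₖ J2 F))) :
    (∀ a, ∃ a', cj g (a ⊗ₖ 1) = a' ⊗ₖ 1) ∨ ∀ a, ∃ a', cj g (a ⊗ₖ 1) = 1 ⊗ₖ a' := by
  have hf := isSesq_J2_J2 (F := F)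
  let ψ : Matrix (Fin 2) (Fin 2) F →ₐ[F] _ := (cj g).toAlgHom.comp (kronL (Fin 2))
  have hψ : ∀ a, ψ a = cj g (a ⊗ₖ 1) := fun _ => rfl
  let L := (kronL (κ := Fin 2) (F := F) (Fin 2)).range.toSubmodule.comap ψ.toLinearMap
  let R := (kronR (μ := Fin 2) (F := F) (Fin 2)).range.toSubmodule.comap ψ.toLinearMap
  have key : ((⊤ : Submodule F (Matrix (Fin 2) (Fin 2) F)) : Set (Matrix (Fin 2) (Fin 2) F)) ⊆
      (L : Set (Matrix (Fin 2) (Fin 2) F)) ∪ (R : Set (Matrix (Fin 2) (Fin 2) F)) := by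
    intro a _
    obtain ⟨a₀, c, h0, rfl⟩ : ∃ (a₀ : Matrix (Fin 2) (Fin 2) F) (c : F), a₀.trace = 0 ∧
        a = a₀ + c • 1 := ⟨a - (a.trace / 2) • 1, a.trace / 2, by simp [div_mul_cancel₀ _ h2],
          by simp⟩
    have h1 : adj (RingHom.id F) (gform (RingHom.id F) (J2 F ⊗ₖ J2 F)) (ψ a₀) = -ψ a₀ := by
      rw [hψ, hf.adj_cj hg, ← map_neg]
      congr 1
      refine hf.adj_eq fun u v => ?_
      rw [gform_mulVec_left, gform_mulVec_right, RingHom.coe_id, Matrix.map_id,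
        ← kroneckerMap_transpose, mul_neg, ← mul_kronecker_mul, ← mul_kronecker_mul,
        ← neg_one_smul F, ← smul_kronecker, transpose_one, one_mul, mul_one]
      congr 2
      rw [trace_fin_two] at h0
      ext i j
      fin_cases i <;> fin_cases j <;> simp [mul_apply, J2, vecMul, dotProduct] <;> grind
    have h3 := hf.transpose_mul_gram (ψ a₀)
    rw [h1, gramMatrix_gform, RingHom.coe_id, Matrix.map_id, mul_neg] at h3
    obtain ⟨x, y, hx, hy, h4⟩ := skew_decomp h2 h3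
    have h5 : ψ (a₀ + c • 1) = ψ a₀ + c • 1 := by rw [map_add, map_smul, map_one]
    rcases eq_zero_or_of_sq h2 hx hy (c := -a₀.det) (by
      rw [← h4, ← map_mul, mul_self_of_trace h0, map_smul, map_one]) with rfl | rfl
    · refine Or.inr ⟨y + c • 1, ?_⟩
      show kronR (Fin 2) (y + c • 1) = ψ _
      rw [h5, h4, map_add, map_smul, map_one, zero_kronecker, zero_add, kronR_apply]
    · refine Or.inl ⟨x + c • 1, ?_⟩
      show kronL (Fin 2) (x + c • 1) = ψ _
      rw [h5, h4, map_add, map_smul, map_one, kronecker_zero, add_zero, kronL_apply]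
  refine (AddSubgroupClass.subset_union.1 key).imp (fun h a => ?_) fun h a => ?_
  · obtain ⟨b, hb⟩ := h (Submodule.mem_top (x := a))
    exact ⟨b, hb.symm⟩
  · obtain ⟨b, hb⟩ := h (Submodule.mem_top (x := a))
    exact ⟨b, hb.symm⟩

theorem norm_of_det (h2 : (2 : F) ≠ 0) {g : GL (Fin 2 × Fin 2) F} {c : Fˣ}
    (hg : ∀ u v, gform (RingHom.id F) (J2 F ⊗ₖ J2 F) (g.val *ᵥ u) (g.val *ᵥ v) =
      c * gform (RingHom.id F) (J2 F ⊗ₖ J2 F) u v)
    (hd : g.val.det ≠ -c ^ 2) (a : Matrix (Fin 2) (Fin 2) F) :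
    ∃ a', cj g (a ⊗ₖ 1) = a' ⊗ₖ 1 := by
  refine (norm_or_swap h2 ⟨c, hg⟩).resolve_right (fun h => hd ?_) a
  let σ : Equiv.Perm (Fin 2 × Fin 2) := Equiv.prodComm _ _
  have hT : σ.permMatrix F * σ.permMatrix F = 1 := by
    rw [Equiv.Perm.permMatrix, PEquiv.toMatrix_toPEquiv_mul]
    ext ⟨i, j⟩ ⟨k, l⟩
    simp [σ, PEquiv.toMatrix_apply, one_apply, eq_comm]
  let τ : GL (Fin 2 × Fin 2) F := ⟨σ.permMatrix F, σ.permMatrix F, hT, hT⟩
  have hτ : ∀ x : Matrix (Fin 2 × Fin 2) (Fin 2 × Fin 2) F, cj τ x = x.submatrix σ σ := fun x => by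
    show σ.permMatrix F * x * σ.permMatrix F = _
    rw [Equiv.Perm.permMatrix, PEquiv.toMatrix_toPEquiv_mul, PEquiv.mul_toMatrix_toPEquiv]
    rfl
  obtain ⟨x, y, hxy⟩ := eq_kronecker_of_normalizes (τ * g) fun a => by
    obtain ⟨b, hb⟩ := h a
    refine ⟨b, ?_⟩
    rw [cj_mul, hb, hτ]
    ext ⟨i, j⟩ ⟨k, l⟩
    simp [σ, mul_comm]
  have h1 : g.valᵀ * (J2 F ⊗ₖ J2 F) * g.val = (c : F) • (J2 F ⊗ₖ J2 F) :=
    gform_ext (σ := RingHom.id F) fun u v => by
      have := hg u v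
      rwa [gform_mulVec, ← gform_smul, RingHom.coe_id, Matrix.map_id] at this
  have h3 : τ.valᵀ * (J2 F ⊗ₖ J2 F) * τ.val = J2 F ⊗ₖ J2 F := by
    have : τ.valᵀ = τ.val := by
      ext ⟨i, j⟩ ⟨k, l⟩
      simp [τ, σ, PEquiv.toMatrix_apply, eq_comm, and_comm]
    rw [this]
    refine (hτ _).trans ?_
    ext ⟨i, j⟩ ⟨k, l⟩
    simp [σ, mul_comm]
  have h4 : (τ * g).valᵀ * (J2 F ⊗ₖ J2 F) * (τ * g).val = (c : F) • (J2 F ⊗ₖ J2 F) := by
    rw [Units.val_mul, transpose_mul, ← h1]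
    conv_rhs => rw [← h3]
    simp only [mul_assoc]
  rw [hxy, ← kroneckerMap_transpose, ← mul_kronecker_mul, ← mul_kronecker_mul,
    transpose_mul_J2_mul, transpose_mul_J2_mul, smul_kronecker, kronecker_smul, smul_smul] at h4
  have h5 : (x : Matrix (Fin 2) (Fin 2) F).det * (y : Matrix (Fin 2) (Fin 2) F).det = c := by
    simpa [J2] using congrFun (congrFun h4 (0, 0)) (1, 1)
  have h6 := congrArg Matrix.det hxy
  have h7 : Equiv.Perm.sign σ = -1 := by decide
  rw [Units.val_mul, Matrix.det_mul, det_kronecker, show τ.val = σ.permMatrix F from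
    rfl, det_permutation, h7] at h6
  simp only [Fintype.card_fin] at h6
  rw [← h5]
  simp at h6
  linear_combination -h6

theorem TensorData.mult [Nonempty ι] {f : (ι → F) → (ι → F) → F}
    (h : TensorData (RingHom.id F) f H e P f₁ f₂ ε₁ ε₂) {a : GL (Fin n₁) F} {b : GL (Fin n₂) F}
    (hg : ∀ u v, f (coord e P (a.val ⊗ₖ b.val) *ᵥ u) (coord e P (a.val ⊗ₖ b.val) *ᵥ v) = f u v)
    {c d : F} (ha : ∀ u v, f₁ (a.val *ᵥ u) (a.val *ᵥ v) = c * f₁ u v)
    (hb : ∀ u v, f₂ (b.val *ᵥ u) (b.val *ᵥ v) = d * f₂ u v) : c * d = 1 := by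
  have := h.two_le₁
  have := h.two_le₂
  obtain ⟨l, hl, hτ⟩ := tau_form h.sesq₁.sesq0 h.sesq₂.sesq0 h.struct
  obtain ⟨x, hx⟩ := (h.sesq₁.nondeg 1 fun h => by simpa using congrFun h ⟨0, by omega⟩).1
  obtain ⟨y, hy⟩ := (h.sesq₂.nondeg 1 fun h => by simpa using congrFun h ⟨0, by omega⟩).1
  have h1 := hg (tau e P x y) (tau e P 1 1)
  rw [coord_kron_tau, coord_kron_tau, hτ, hτ, ha, hb] at h1
  exact mul_right_cancel₀ (mul_ne_zero (mul_ne_zero hl hx) hy) (by linear_combination h1)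

/-- `O₃ ⊗ O₄⁺ ≤ Sp₂ ⊗ Sp₆` -/
theorem TensorData.two_six [Fintype F] (hQ : (polarBilin Q).Nondegenerate) (h2 : (2 : F) ≠ 0)
    (hH : H ≤ omegaGL Q) (hirr : ActsIrreducibly (matrixSet H)) (hc : NoComm (polar Q) H)
    {e : ι ≃ Fin 3 × Fin 4} {f₁ : (Fin 3 → F) → (Fin 3 → F) → F}
    {f₂ : (Fin 4 → F) → (Fin 4 → F) → F} (h : TensorData (RingHom.id F) (polar Q) H e P f₁ f₂ 1 1)
    (hp : IsPlusTypeOn (fun v => f₂ v v) ⊤) :
    ∃ (e : ι ≃ Fin 2 × Fin 6) (P : GL ι F) (f₁ : (Fin 2 → F) → (Fin 2 → F) → F)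
      (f₂ : (Fin 6 → F) → (Fin 6 → F) → F),
      TensorData (RingHom.id F) (polar Q) H e P f₁ f₂ (-1) (-1) := by
  have hn : Fintype.card ι = 12 := h.card_eq
  have : Nonempty ι := Fintype.card_pos_iff.1 (by omega)
  have hf := isSesq_polar hQ
  have hfix := fixesForm_polar (fixQ_of_le_omega hH)
  have hs := le_similarityGroup_of_fixes hfix
  obtain ⟨φ, hφ⟩ := CasesSp.exists_equiv_plus h2 h.sesq₂.symm hp
  let e₂ : Fin 4 ≃ Fin 2 × Fin 2 := (finProdFinEquiv (m := 2) (n := 2)).symm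
  obtain ⟨P₂, hP₂⟩ := exists_coordV_symm e₂ φ
  have h1 : ∀ x y, f₂ ((coordV e₂ P₂).symm x) ((coordV e₂ P₂).symm y) =
      gform (RingHom.id F) (J2 F ⊗ₖ J2 F) x y := fun x y => by
    rw [hP₂, hP₂, hφ]
    simp [gform_eq_sum, Fintype.sum_prod_type, J2]
    ring
  have h₀ : TensorData (RingHom.id F) f₂ ⊥ e₂ P₂ _ _ (-1) (-1) :=
    ⟨le_rfl, le_rfl, isSesq_J2, isSesq_J2, ⟨1, one_ne_zero, fun x y => by
      rw [one_mul, formOfGram_eq, gramMatrix_gform]; exact h1 x y⟩, bot_le⟩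
  let ψ : Matrix (Fin 2) (Fin 2) F →ₐ[F] Matrix ι ι F := (coord e P).toAlgHom.comp
    ((kronR (Fin 3)).comp ((coord e₂ P₂).toAlgHom.comp (kronL (Fin 2))))
  have hψ : ∀ a, ψ a = coord e P (1 ⊗ₖ coord e₂ P₂ (a ⊗ₖ 1)) := fun _ => rfl
  have hd := finrank_range_of_injective ψ ((coord e P).injective.comp (kronR_injective.comp
    ((coord e₂ P₂).injective.comp kronL_injective)))
  obtain ⟨n₁, n₂, e', P', g₁, g₂, ε₁, ε₂, h3, h4, h5, h6, h7, h8, h9, h10⟩ :=
    form_tensor hf hfix hirr hc (A := ψ.range) (by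
      rintro g hg _ ⟨x, rfl⟩
      obtain ⟨a, ha, b, hb, rfl⟩ := exists_projL h.le hg
      obtain ⟨c, hc⟩ := h.projL_le hs ha
      obtain ⟨d, hd⟩ := h.swap.projL_le hs hb
      obtain ⟨b', rfl⟩ := (coordGL e₂ P₂).surjective b
      have h3 := h.mult (fixesForm_iff.1 hfix _ hg) hc hd
      obtain ⟨y, hy⟩ := norm_of_det h2 (g := b') (c := d) (fun u v => by
        rw [← h1, ← h1, ← hd, coe_coordGL, coord_mulVec_symm, coord_mulVec_symm]) (fun h4 => by
        have h5 := det_of_mem_omegaGL (hH hg)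
        have h6 := det_sq_of_sim h.sesq₁ hc
        rw [coe_coordGL, det_coord] at h5
        change (a.val ⊗ₖ (coordGL e₂ P₂ b').val).det = 1 at h5
        rw [det_kronecker, coe_coordGL, det_coord, h4] at h5
        simp only [Fintype.card_fin] at h5 h6
        apply h2
        have : (c : F) ^ 6 * d ^ 6 = 1 := by rw [← mul_pow, h3, one_pow]
        linear_combination -h5 - this - (d : F) ^ 6 * (a.val.det ^ 2 + c ^ 3) * h6) x
      exact ⟨y, by
        show ψ y = cj _ (ψ x)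
        rw [hψ, hψ, cj_coord_kron, map_one, ← coord_cj, hy]⟩)
      (hf.adjClosed_iff.2 (by
        rintro _ ⟨x, rfl⟩
        exact ⟨adj (RingHom.id F) (gform (RingHom.id F) (J2 F)) x, by
          show ψ _ = adj _ _ (ψ x)
          rw [hψ, hψ, h.adj_kron hf, h.sesq₁.adj_one, h₀.adj_kron h.sesq₂, isSesq_J2.adj_one]⟩))
      (fun h => by rw [h, Subalgebra.finrank_bot] at hd; simp at hd)
      (fun h => by
        rw [h, Subalgebra.topEquiv.toLinearEquiv.finrank_eq, Module.finrank_matrix, hn] at hd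
        simp at hd)
  have hT : TensorData (RingHom.id F) (polar Q) H e' P' g₁ g₂ ε₁ ε₂ := ⟨h3, h4, h5, h6, h8, h9⟩
  have : Nonempty (Fin n₂) := ⟨⟨0, by omega⟩⟩
  have h11 : ψ.range = ((coord e' P').toAlgHom.comp (kronL (Fin n₂))).range :=
    SetLike.ext fun x => (h10 x).trans (exists_congr fun _ => eq_comm)
  rw [h11, finrank_range_of_injective _ ((coord e' P').injective.comp kronL_injective)] at hd
  simp only [Fintype.card_fin] at hd
  obtain rfl : n₁ = 2 := by nlinarith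
  obtain rfl : n₂ = 6 := by have := hT.card_eq; omega
  obtain rfl : ε₁ = -1 := h5.eps_eq.resolve_left (by
    rintro rfl; exact absurd (hT.three_le hf hs hc h2) (by omega))
  obtain rfl : ε₂ = -1 := by linear_combination -h7
  exact ⟨e', P', g₁, g₂, hT⟩

theorem exists_similar_of_odd [Finite F] (h2 : (2 : F) ≠ 0) {k : ℕ} (hk : Odd k)
    {f₁ f₂ : (Fin k → F) → (Fin k → F) → F} (hf₁ : IsSymmetricForm f₁) (hf₂ : IsSymmetricForm f₂) :
    ∃ (g : GL (Fin k) F) (c : F), c ≠ 0 ∧ g.valᵀ * gramMatrix f₂ * g.val = c • gramMatrix f₁ := by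
  obtain ⟨m, rfl⟩ := hk
  have h₁ := quadratic_of_symm hf₁ h2
  have h₂ := quadratic_of_symm hf₂ h2
  obtain ⟨-, e₁, c₁, hc₁, he₁⟩ := exists_equiv_qOdd (toQF_nondegenerate h₁) (m := m) (by simp)
  obtain ⟨-, e₂, c₂, hc₂, he₂⟩ := exists_equiv_qOdd (toQF_nondegenerate h₂) (m := m) (by simp)
  obtain ⟨g, -, hg⟩ := CasesSp.exists_isom_of_equiv (f := fun _ _ => (0 : F)) (e₁.symm.trans e₂)
    fun _ _ => rfl
  have h3 : ∀ v, f₂ (g.val *ᵥ v) (g.val *ᵥ v) = c₂ / c₁ * f₁ v v := fun v => by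
    obtain ⟨w, rfl⟩ := e₁.surjective v
    rw [hg, LinearEquiv.trans_apply, LinearEquiv.symm_apply_apply]
    change RootMax.toQF h₂ _ = _ * RootMax.toQF h₁ _
    rw [he₁, he₂]; field_simp
  refine ⟨g, c₂ / c₁, div_ne_zero hc₂ hc₁, gform_ext (σ := RingHom.id F) fun u v => ?_⟩
  have h4 := gform_mulVec (RingHom.id F) (gramMatrix f₂) g.val g.val u v
  rw [RingHom.coe_id, Matrix.map_id] at h4
  rw [← h4, gform_smul, ← (isSesq_of_symm hf₁).sesq0.eq_gform,
    ← (isSesq_of_symm hf₂).sesq0.eq_gform]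
  refine mul_left_cancel₀ h2 ?_
  rw [← polar_of_symm hf₂, mul_left_comm, ← polar_of_symm hf₁]
  simp only [polar, ← mulVec_add, h3]
  ring

/-- two symmetric factors of the same odd dimension -/
theorem exists_power_of_odd [Finite F] (h2 : (2 : F) ≠ 0) {k : ℕ} (hk : Odd k)
    {f : (ι → F) → (ι → F) → F} {e : ι ≃ Fin k × Fin k} {f₁ f₂ : (Fin k → F) → (Fin k → F) → F}
    (hf₁ : IsSymmetricForm f₁) (hf₂ : IsSymmetricForm f₂)
    (h : IsTensorFormStructure id f f₁ f₂ e P) :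
    ∃ (e' : ι ≃ (Fin 2 → Fin k)) (P' : GL ι F), IsTensorPowerFormStructure id f f₁ e' P' ∧
      tensorProductSubgroup k k e P ≤ tensorWreathSubgroup k 2 e' P' := by
  obtain ⟨g, d, hd, hg⟩ := exists_similar_of_odd h2 hk hf₁ hf₂
  obtain ⟨c, hc, h⟩ := h
  refine ⟨e.trans (finTwoArrowEquiv (Fin k)).symm, kronHom e P (1, g) * P,
    ⟨c * d, mul_ne_zero hc hd, fun x y => ?_⟩,
    le_trans (fun x hx => ?_) (tensorProductSubgroup_le_wreath e _)⟩
  · refine (inCoord_mul f e P _ (x ∘ (finTwoArrowEquiv (Fin k)).symm)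
      (y ∘ (finTwoArrowEquiv (Fin k)).symm)).trans ?_
    rw [inCoord_apply, h, show (id : F → F) = RingHom.id F from rfl, formOfGram_eq, gform_mulVec,
      RingHom.coe_id, Matrix.map_id]
    change c * gform _ (((1 : Matrix (Fin k) (Fin k) F) ⊗ₖ g.val)ᵀ * _ *
      ((1 : Matrix (Fin k) (Fin k) F) ⊗ₖ g.val)) _ _ = _
    rw [← kroneckerMap_transpose, ← mul_kronecker_mul, ← mul_kronecker_mul, hg, transpose_one,
      one_mul, mul_one, kronecker_smul, gform_smul, mul_assoc, gform_eq_sum]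
    congr 2
    refine Fintype.sum_equiv (finTwoArrowEquiv (Fin k)).symm _ _ fun a => ?_
    refine Fintype.sum_equiv (finTwoArrowEquiv (Fin k)).symm _ _ fun b => ?_
    simp [Fin.prod_univ_two]
  · obtain ⟨a, b, hab⟩ := mem_tensorProductSubgroup'.1 hx
    refine mem_tensorProductSubgroup'.2 ⟨a, g⁻¹ * b * g⁻¹⁻¹, ?_⟩
    rw [coord_apply, cj_mul, ← coord_apply, cj_kronHom, ← cj_coe, cj_cj_inv, cj_one, hab]

end tensor

section power

variable {t m : ℕ} {K : Fin t → Subgroup (GL ι F)}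
  {φ : Fin t → (Matrix (Fin m) (Fin m) F →ₐ[F] Matrix ι ι F)} {e : ι ≃ (Fin t → Fin m)}
  {P : GL ι F} {f : (ι → F) → (ι → F) → F} {ε : F} {f₁ : (Fin m → F) → (Fin m → F) → F}

/-- the factors of the components are not `O₂(q)` or `O₃(3)` -/
theorem CompData.not_symm [Fintype F] (hf : IsSesq (RingHom.id F) ε f)
    (hH : FixesForm (matrixSet H) f) (h : CompData H K φ e P) (h2 : (2 : F) ≠ 0)
    (hf₁ : IsSesq (RingHom.id F) 1 f₁)
    (hadj : ∀ i a, adj (RingHom.id F) f (φ i a) = φ i (adj (RingHom.id F) f₁ a)) :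
    m ≠ 2 ∧ ¬ (Fintype.card F = 3 ∧ m = 3) := by
  obtain ⟨K', h1, h3, -, h4⟩ := h.exists_factor_form hf hH hf₁ hadj
    ⟨0, by have := h.two_le_t; omega⟩
  have hp := Comp.qs_sub_perfect h1
  refine ⟨?_, ?_⟩
  · rintro rfl
    have h5 : K' ≤ specialLinear (Fin 2) F := by
      rw [← hp, Subgroup.commutator_le]
      intro x _ y _
      rw [specialLinear, MonoidHom.mem_ker, map_commutatorElement,
        commutatorElement_eq_one_iff_mul_comm, mul_comm]
    obtain ⟨c, hc⟩ := sesq_proportional h3 isSesq_J2.sesq0 isSesq_J2.nondeg hf₁.sesq0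
      (fixesForm_iff.2 fun x hx u v => by
        rw [gform_mulVec, RingHom.coe_id, Matrix.map_id, transpose_mul_J2_mul,
          show x.val.det = 1 from congrArg Units.val (h5 hx), one_smul]) h4
    obtain ⟨x, hx⟩ := (hf₁.nondeg 1 one_ne_zero).1
    have h6 := hf₁.refl x 1
    have h7 := isSesq_J2.refl x 1
    rw [hc, hc] at h6
    refine hx ((mul_eq_zero.1 ?_).resolve_left h2)
    simp only [RingHom.id_apply] at h6 h7
    rw [hc]
    linear_combination h6 + c * h7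
  · rintro ⟨hq, rfl⟩
    have h₁ := quadratic_of_symm hf₁.symm h2
    have hirr := (absIrred_of_env h3).1
    obtain ⟨D, hD, hle⟩ := frame_of_dim_three (toQF_nondegenerate h₁)
      (fun s hs v => h4 s hs v v) hirr hq (by simp)
    exact not_irred_of_perfect hp hD.decomp.decomp hle
      (Char.isSolvable_of_card_dvd_pow_mul_pow (p := 2) (q := 3) (a := 1) (b := 1) Nat.prime_two
        Nat.prime_three (by simp [Fintype.card_perm, Nat.factorial])) hirr

/-- components of dimension two in characteristic two -/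
theorem CompData.plus_of_two [Finite F] (hQ : (polarBilin Q).Nondegenerate) (h2 : (2 : F) = 0)
    (hH : FixesQuadForm (matrixSet H) Q) (hirr : ActsIrreducibly (matrixSet H))
    {φ : Fin t → (Matrix (Fin 2) (Fin 2) F →ₐ[F] Matrix ι ι F)} {e : ι ≃ (Fin t → Fin 2)}
    (h : CompData H K φ e P) : IsPlusTypeOn Q ⊤ := by
  have hf := symp_polar hQ h2
  have hf' := isSesq_polar hQ
  have hH' := fixesForm_polar hH
  have ht := h.two_le_t
  obtain ⟨f₁, ε₁, hf₁, -, hadj⟩ := form_comp hf' hH' h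
  let i : Fin t := ⟨0, by omega⟩
  obtain ⟨K', -, h3, -, h4⟩ := h.exists_factor_form hf' hH' hf₁ hadj i
  have h5 := symplectic_of_symm_of_two h2 (by simp) (absIrred_of_env h3).1
    (symm_of_two h2 hf₁).symm (le_similarityGroup_of_fixes h4)
  let k : Matrix (Fin 2) (Fin 2) F := !![1, 0; 0, 0]
  have hk : k + adj (RingHom.id F) f₁ k = 1 := by
    rw [hf₁.adj_eq (b := 1 - k), add_sub_cancel]
    intro u v
    have h0 : ∀ i, gramMatrix f₁ i i = 0 := fun i => h5.alternating _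
    rw [hf₁.sesq0.eq_gform, hf₁.sesq0.eq_gform]
    simp [gform_eq_sum, k, h0, mulVec, dotProduct, one_apply]
  have h1 : ∀ j, φ j k + adj (RingHom.id F) (polar Q) (φ j k) = 1 := fun j => by
    rw [hadj, ← map_add, hk, map_one]
  have h6 : FixesQuadForm (matrixSet H) (quadK (polar Q) (φ i k)) := by
    refine fixes_quadK h2 hf hH' (h1 i) fun g hg => ?_
    obtain ⟨j, hj⟩ := h.cj_slot hg i
    obtain ⟨b, hb⟩ := hj k
    rw [hb]
    by_cases hij : j = i
    · have : i ≠ ⟨1, by omega⟩ := fun h => by simp [i] at h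
      rw [hij]
      exact ⟨_, h1 ⟨1, by omega⟩, h.comm this _ _, h.comm this _ _⟩
    · exact ⟨_, h1 i, rfl, h.comm hij _ _⟩
  have h7 := quad_unique (h.card_eq ▸ Nat.le_self_pow (by omega) 2) hirr (Q := Q)
    (fun c v => by rw [Q.map_smul, smul_eq_mul, _root_.sq]) (quadK_nondeg hf' (h1 i)).smul
    (fun u v => (quadK_polar hf' (h1 i) u v).symm) hH h6
  have h8 : φ i k * φ i k = φ i k := by
    rw [← map_mul]; congr 1; ext a b; fin_cases a <;> fin_cases b <;> simp [k]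
  refine plus_of_idem hQ h8 (h1 i) fun v => ?_
  rw [h7, quadK, mulVec_mulVec, h8, hf.alternating]

end power

end CfsgLib.Asch
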