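import Mathlib
import Cfsg.Agent.Lib.Asch.BilinExtra

/-! Aschbacher's theorem for groups of isometries of a bilinear form; the symplectic case. -/

set_option autoImplicit false

namespace CfsgLib.Asch

open Cfsg Cfsg.Geo Matrix
open scoped MatrixGroups Kronecker

variable {ι : Type} [Fintype ι] [DecidableEq ι] {F : Type*} [Field F]
variable {ε : F} {f : (ι → F) → (ι → F) → F} {H : Subgroup (GL ι F)}

/-- structure of an irreducible group of isometries of a bilinear form -/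
theorem bilin_structure [Fintype F] (h2 : 2 ≤ Fintype.card ι) (hf : IsSesq (RingHom.id F) ε f)
    (hH : FixesForm (matrixSet H) f) (hirr : ActsIrreducibly (matrixSet H)) :
    (∃ (t k : ℕ) (D : Fin t → Submodule F (ι → F)), IsNondegenerateMDecomposition f k D ∧
      H ≤ decompositionStabilizer D ∧
      ∀ i j, ∃ h ∈ H, (D i).map (Matrix.toLin' (h : Matrix ι ι F)) = D j) ∨
    (∃ (k : ℕ) (D : Fin 2 → Submodule F (ι → F)), IsMDecomposition k D ∧
      (∀ i, IsTotallySingularFor f (D i)) ∧ H ≤ decompositionStabilizer D) ∨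
    (∃ (s : ℕ) (K : Subalgebra F (Matrix ι ι F)), s.Prime ∧ IsFieldSubalgebra s K ∧
      IsSelfAdjointFor f K ∧ Stab H K) ∨
    (∃ K : Subalgebra F (Matrix ι ι F), IsFieldSubalgebra 2 K ∧ IsAdjointClosedFor f K ∧
      ¬ IsSelfAdjointFor f K ∧ Stab H K) ∨
    (NoComm f H ∧ ((∃ (n₁ n₂ : ℕ) (e : ι ≃ Fin n₁ × Fin n₂) (P : GL ι F)
      (f₁ : (Fin n₁ → F) → (Fin n₁ → F) → F) (f₂ : (Fin n₂ → F) → (Fin n₂ → F) → F) (ε₁ ε₂ : F),
      TensorData (RingHom.id F) f H e P f₁ f₂ ε₁ ε₂ ∧ ε₁ * ε₂ = ε) ∨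
    (∃ (R : Subgroup (GL ι F)) (m : ℕ), Extra2 f H R m) ∨
    (∃ (t m : ℕ) (K : Fin t → Subgroup (GL ι F))
      (φ : Fin t → (Matrix (Fin m) (Fin m) F →ₐ[F] Matrix ι ι F)) (e : ι ≃ (Fin t → Fin m))
      (P : GL ι F), CompData H K φ e P) ∨
    (∃ P : Subgroup (GL ι F), CoreData H P))) := by
  have hι : Nonempty ι := Fintype.card_pos_iff.1 (by omega)
  have hs := le_similarityGroup_of_fixes hH
  by_cases hc : NoComm f H
  · iterate 4 right
    refine ⟨hc, ?_⟩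
    rcases form_structure h2 hf hH hirr hc with ⟨A, h1, h3, h4, h5⟩ | hN
    · exact Or.inl (form_tensorData hf hH hirr hc h1 h3 h4 h5)
    · refine Or.inr ((trichotomy h2 hirr hN).imp_left ?_)
      rintro ⟨r, R, m, h⟩
      obtain ⟨R₁, h⟩ := bilin_extra hf hs hN h
      exact ⟨R₁, m, h⟩
  · rcases form_comm hf hH hirr hc with h | h | ⟨r, K, h1, h3, h4, h5⟩
    · exact Or.inl h
    · exact Or.inr (Or.inl h)
    · rcases bilin_field hf hs h1 h3 h4 h5 with h | h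
      · exact Or.inr (Or.inr (Or.inl h))
      · exact Or.inr (Or.inr (Or.inr (Or.inl ⟨K, h.1, h4, h.2, h5⟩)))

theorem c5_bilin [Fintype F] (hf : IsSesq (RingHom.id F) ε f) {N : Subgroup (GL ι F)}
    (hN : env N = ⊤) (hn : Nrm H N) (hfix : FixesForm (matrixSet N) f)
    {F₀ : Subfield F} (h0 : F₀ ≠ ⊤) (hr : RealisableOver F₀ (matrixSet N)) :
    ∃ (F₁ : Subfield F) (r : ℕ) (P : GL ι F) (ζ : F), r.Prime ∧
      Fintype.card F = Nat.card F₁ ^ r ∧ ζ ≠ 0 ∧ IsFormRationalStructure f F₁ ζ P ∧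
      H ≤ subfieldSubgroup F₁ P := by
  obtain ⟨F₁, r, P, ζ, -, h1, h2, h3, h4, h5, -⟩ :=
    c5_form hf (fun _ _ h => h) hN hn hfix h0 hr
  exact ⟨F₁, r, P, ζ, h1, h2, h3, h4, h5⟩

/-- a core which is not realisable over a proper subfield fixes no unitary form -/
theorem CoreData.not_unitary [Finite F] (hf : IsSesq (RingHom.id F) ε f)
    (hH : FixesForm (matrixSet H) f) {P : Subgroup (GL ι F)} (h : CoreData H P)
    (h1 : ¬ ∃ F₀ : Subfield F, F₀ ≠ ⊤ ∧ RealisableOver F₀ (matrixSet P)) :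
    ¬ ∃ (σ : F ≃+* F) (g : (ι → F) → (ι → F) → F), IsUnitaryForm σ g ∧
      FixesForm (matrixSet P) g := by
  rintro ⟨σ, g, hg, hfix⟩
  exact h1 ⟨_, eqLocusField_ne_top hg.ne_refl, realisable_of_bilin_of_unitary h.env_top hf
    (fun s hs => hH s (matrixSet_mono h.le hs)) (isSesq_of_unitary hg) hfix⟩

/-- a quadratic form fixed by a spanning normal subgroup of a symplectic group -/
theorem quad_of_normal [Fintype F] (h2 : 2 ≤ Fintype.card ι) (hf : IsSymplecticForm f)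
    (hH : FixesForm (matrixSet H) f) {N : Subgroup (GL ι F)} (hN : env N = ⊤) (hle : N ≤ H)
    (hn : Nrm H N) {Q : (ι → F) → F} (hQ : IsNondegenerateQuadraticForm Q)
    (hfix : FixesQuadForm (matrixSet N) Q) : (2 : F) = 0 ∧
      ∃ Q : (ι → F) → F, IsNondegenerateQuadraticForm Q ∧
        (∀ u v, QuadraticMap.polar Q u v = f u v) ∧ FixesQuadForm (matrixSet H) Q := by
  have hι : Nonempty ι := Fintype.card_pos_iff.1 (by omega)
  obtain ⟨c, hc⟩ := sesq_proportional hN (isSesq0_of_bilin hQ.polar_bilinear) hQ.nondegenerate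
    (isSesq0_of_bilin hf.bilinear) (fixesForm_polar hfix) fun s hs => hH s (matrixSet_mono hle hs)
  have hp : ∀ u v, QuadraticMap.polar (fun v => c * Q v) u v = f u v := fun u v => by
    rw [hc]; simp only [QuadraticMap.polar]; ring
  have hp' : QuadraticMap.polar (fun v => c * Q v) = f := by funext u v; exact hp u v
  have hsm : ∀ (d : F) v, c * Q (d • v) = d ^ 2 * (c * Q v) := fun d v => by rw [hQ.smul]; ring
  refine ⟨mult_unique hf.nondegenerate fun u v => ?_, _,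
    ⟨hsm, hp'.symm ▸ hf.bilinear, hp'.symm ▸ hf.nondegenerate⟩, hp, ?_⟩
  · have := hf.skew u v
    rw [← hp v, QuadraticMap.polar_comm, hp] at this
    linear_combination this
  · rintro _ ⟨g, hg, rfl⟩
    refine congrFun (quad_unique h2 (absIrred_of_env hN).1
      (Q := fun v => c * Q ((g : Matrix ι ι F) *ᵥ v)) (fun d v => by rw [mulVec_smul, hsm]) hsm
      (fun u v => ?_) ?_ fun s hs v => by rw [hfix s hs])
    · rw [hp, ← fixesForm_iff.1 hH g hg, ← hp]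
      simp only [QuadraticMap.polar, mulVec_add]
    · rintro _ ⟨x, hx, rfl⟩ v
      have := hfix _ ⟨_, hn g hg x hx, rfl⟩ ((g : Matrix ι ι F) *ᵥ v)
      simp only [← cj_coe, cj_mulVec] at this
      simp only [this]

/-- **Aschbacher's theorem** for a symplectic form, with the information needed to treat small
cases -/
theorem symp_cases [Fintype F] (hι : 2 ≤ Fintype.card ι) (hf : IsSymplecticForm f)
    (hH : FixesForm (matrixSet H) f) :
    (∃ W : Submodule F (ι → F), W ≠ ⊥ ∧ IsTotallySingularFor f W ∧ H ≤ subspaceStabilizer W) ∨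
    (∃ W : Submodule F (ι → F), W ≠ ⊥ ∧ IsNondegenerateOn f W ∧
      2 * Module.finrank F W < Fintype.card ι ∧ H ≤ subspaceStabilizer W) ∨
    (∃ (t k : ℕ) (D : Fin t → Submodule F (ι → F)), IsNondegenerateMDecomposition f k D ∧
      H ≤ decompositionStabilizer D) ∨
    (Odd (Fintype.card F) ∧ ∃ (k : ℕ) (D : Fin 2 → Submodule F (ι → F)), IsMDecomposition k D ∧
      (∀ i, IsTotallySingularFor f (D i)) ∧ H ≤ decompositionStabilizer D) ∨
    (∃ (F₀ : Subfield F) (r : ℕ) (P : GL ι F) (ζ : F), r.Prime ∧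
      Fintype.card F = Nat.card F₀ ^ r ∧ ζ ≠ 0 ∧ IsFormRationalStructure f F₀ ζ P ∧
      H ≤ subfieldSubgroup F₀ P) ∨
    ((Fintype.card F).Prime ∧ ∃ (R : Subgroup (GL ι F)) (m : ℕ), Extra2 f H R m) ∨
    (¬ Odd (Fintype.card F) ∧ ∃ Q : (ι → F) → F, IsNondegenerateQuadraticForm Q ∧
      (∀ u v, QuadraticMap.polar Q u v = f u v) ∧ FixesQuadForm (matrixSet H) Q) ∨
    (∃ (s : ℕ) (K : Subalgebra F (Matrix ι ι F)), s.Prime ∧ IsFieldSubalgebra s K ∧
      IsSelfAdjointFor f K ∧ (∀ k ∈ K, ∀ v, f (k *ᵥ v) v = 0) ∧ Stab H K) ∨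
    (Odd (Fintype.card F) ∧ ∃ K : Subalgebra F (Matrix ι ι F), IsFieldSubalgebra 2 K ∧
      IsAdjointClosedFor f K ∧ ¬ IsSelfAdjointFor f K ∧ Stab H K) ∨
    (Odd (Fintype.card F) ∧ ActsIrreducibly (matrixSet H) ∧ NoComm f H ∧
      ∃ (n₁ n₂ : ℕ) (e : ι ≃ Fin n₁ × Fin n₂) (P : GL ι F)
      (f₁ : (Fin n₁ → F) → (Fin n₁ → F) → F) (f₂ : (Fin n₂ → F) → (Fin n₂ → F) → F),
      3 ≤ n₂ ∧ TensorData (RingHom.id F) f H e P f₁ f₂ (-1) 1) ∨
    (Odd (Fintype.card F) ∧ ∃ (k t : ℕ) (e : ι ≃ (Fin t → Fin k)) (P : GL ι F)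
      (f₁ : (Fin k → F) → (Fin k → F) → F), Odd t ∧ 3 ≤ t ∧ 2 ≤ k ∧
      ¬ (Fintype.card F = 3 ∧ k = 2) ∧ IsSymplecticForm f₁ ∧
      IsTensorPowerFormStructure id f f₁ e P ∧ H ≤ tensorWreathSubgroup k t e P) ∨
    InSymplecticResidualClass H := by
  have hf' := isSesq_of_symp hf
  have hs := le_similarityGroup_of_fixes hH
  have : Nonempty ι := Fintype.card_pos_iff.1 (by omega)
  by_cases hirr : ActsIrreducibly (matrixSet H)
  swap
  · rcases form_reducible hf' hH hirr with ⟨W, h1, h3, h4, -⟩ | h | ⟨k, D, h1, h3⟩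
    · exact Or.inl ⟨W, h1, h3, h4⟩
    · exact Or.inr (Or.inl h)
    · exact Or.inr (Or.inr (Or.inl ⟨2, k, D, h1, stab_le_decompositionStabilizer h3⟩))
  right; right
  have c8 : (2 : F) = 0 → ∀ k, k + adj (RingHom.id F) f k = 1 →
      FixesQuadForm (matrixSet H) (quadK f k) → ¬ Odd (Fintype.card F) ∧
      ∃ Q : (ι → F) → F, IsNondegenerateQuadraticForm Q ∧
        (∀ u v, QuadraticMap.polar Q u v = f u v) ∧ FixesQuadForm (matrixSet H) Q :=
    fun h2 k hk h => ⟨fun h => odd_card_iff.1 h h2, _, quadK_nondeg (symm_of_two h2 hf') hk,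
      quadK_polar (symm_of_two h2 hf') hk, h⟩
  rcases bilin_structure hι hf' hH hirr with ⟨t, k, D, h1, h3, -⟩ | ⟨k, D, h1, h3, h4⟩ |
    ⟨s, K, h1, h3, h4, h5⟩ | ⟨K, h1, h3, h4, h5⟩ | ⟨hc, ⟨n₁, n₂, e, P, f₁, f₂, ε₁, ε₂, h, he⟩ |
    ⟨R, m, h⟩ | ⟨t, m, K, φ, e, P, h⟩ | ⟨P, h⟩⟩
  · exact Or.inl ⟨t, k, D, h1, h3⟩
  · by_cases h2 : (2 : F) = 0
    · obtain ⟨e, he, h5, -⟩ := half_of_pair hf' h1 h3 h4
      iterate 4 right
      exact Or.inl (c8 h2 e he (fixes_quadK h2 hf hH he fun g hg => ⟨e, he, rfl, h5 g hg⟩))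
    · exact Or.inr (Or.inl ⟨odd_card_iff.2 h2, k, D, h1, h3, h4⟩)
  · iterate 5 right
    exact Or.inl ⟨s, K, h1, h3, h4, selfAdjoint_alt hf h3 h4, h5⟩
  · by_cases h2 : (2 : F) = 0
    · obtain ⟨k, hk, he⟩ := half_of_field h2 hf' h1 h3 h4
      iterate 4 right
      exact Or.inl (c8 h2 k he (fixes_quadK h2 hf hH he fun g hg =>
        ⟨k, he, rfl, h1.comm _ (h5 g hg k hk) _ hk⟩))
    · iterate 6 right
      exact Or.inl ⟨odd_card_iff.2 h2, K, h1, h3, h4, h5⟩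
  · by_cases h2 : (2 : F) = 0
    · obtain ⟨k, hk, h1, -⟩ := h.quad_of_two h2 hf hH hirr
      iterate 4 right
      exact Or.inl (c8 h2 k hk h1)
    · iterate 7 right
      refine Or.inl ⟨odd_card_iff.2 h2, hirr, hc, ?_⟩
      rcases h.sesq₁.eps_eq with rfl | rfl
      · obtain rfl : ε₂ = -1 := by simpa using he
        exact ⟨_, _, _, _, _, _, h.three_le hf' hs hc h2, h.swap⟩
      · obtain rfl : ε₂ = 1 := by simpa using he
        exact ⟨_, _, _, _, _, _, h.swap.three_le hf' hs hc h2, h⟩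
  · by_cases h0 : (⊥ : Subfield F) = ⊤
    · iterate 3 right
      exact Or.inl ⟨prime_card_of_bot_eq_top h0, R, m, h⟩
    · exact Or.inr (Or.inr (Or.inl (c5_bilin hf' h.env_top h.nrm h.fixes h0 (h.realisable _))))
  · by_cases h2 : (2 : F) = 0
    · obtain ⟨k, hk, h1⟩ := h.quad_of_two h2 hf hH
      iterate 4 right
      exact Or.inl (c8 h2 k hk h1)
    · iterate 8 right
      obtain ⟨f₁, ε₁, hf₁, h1, -⟩ := form_comp hf' hH h
      have ht := h.two_le_t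
      obtain ⟨c, hc0, h3⟩ := eps_eq_pow hf' hf₁ (by have := h.two_le_m; omega) h1
      have h4 : ε₁ ^ t = -1 := mul_left_cancel₀ hc0 (h3.trans (mul_comm _ _))
      have h5 : (1 : F) ≠ -1 := fun h => h2 (by linear_combination h)
      obtain rfl : ε₁ = -1 := hf₁.eps_eq.resolve_left (by rintro rfl; exact h5 (by simpa using h4))
      have h6 : Odd t := by
        by_contra h6
        exact h5 ((Nat.not_odd_iff_even.1 h6).neg_one_pow.symm.trans h4)
      exact Or.inl ⟨odd_card_iff.2 h2, m, t, e, P, f₁, h6, by obtain ⟨j, rfl⟩ := h6; omega,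
        h.two_le_m, fun h' => h.not_small ⟨h'.1.le, h'.2⟩, hf₁.symp h2, h1, h.le_wreath⟩
  · by_cases h1 : ∃ F₀ : Subfield F, F₀ ≠ ⊤ ∧ RealisableOver F₀ (matrixSet P)
    · obtain ⟨F₀, h0, hr⟩ := h1
      exact Or.inr (Or.inr (Or.inl (c5_bilin hf' h.env_top h.normal
        (fun s hs => hH s (matrixSet_mono h.le hs)) h0 hr)))
    by_cases h3 : ∃ Q : (ι → F) → F, IsNondegenerateQuadraticForm Q ∧
      FixesQuadForm (matrixSet P) Q
    · obtain ⟨Q, hQ, hfix⟩ := h3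
      obtain ⟨h2, h4⟩ := quad_of_normal hι hf hH h.env_top h.le h.normal hQ hfix
      iterate 4 right
      exact Or.inl ⟨fun h => odd_card_iff.1 h h2, h4⟩
    · iterate 9 right
      exact ⟨P, h.residualCore fun F₀ h0 hr => h1 ⟨F₀, h0, hr⟩, h3, h.not_unitary hf' hH h1⟩

theorem isSymplecticForm_sympForm (m : ℕ) : IsSymplecticForm (sympForm m F) := by
  have h : sympForm m F = gform (RingHom.id F) (Matrix.J (Fin m) F) := rfl
  refine ⟨h ▸ (isSesq0_gform _ _).bilin, fun v w => ?_, fun v => ?_,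
    h ▸ nondeg_gform (Matrix.isUnit_det_J _ _)⟩
  · simp [sympForm, Matrix.J, fromBlocks_mulVec, dotProduct, Fintype.sum_sum_type, neg_mulVec,
      mul_comm]
  · simp [sympForm, Matrix.J, fromBlocks_mulVec, dotProduct, Fintype.sum_sum_type, neg_mulVec,
      mul_comm]

theorem le_spGL_iff {m : ℕ} {H : Subgroup (GL (Fin m ⊕ Fin m) F)} :
    H ≤ spGL m F ↔ FixesForm (matrixSet H) (sympForm m F) := fixesForm_iff.symm

theorem le_quadSimilarityGroup {Q : (ι → F) → F} (h : FixesQuadForm (matrixSet H) Q) :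
    H ≤ quadSimilarityGroup Q := fun g hg => ⟨1, fun v => by simpa using h _ ⟨g, hg, rfl⟩ v⟩

/-- **Aschbacher's theorem**, symplectic case. -/
theorem symplectic_aschbacher [Fintype F] {m : ℕ} (hm : 1 ≤ m)
    {H : Subgroup (GL (Fin m ⊕ Fin m) F)} (hH : H ≤ spGL m F) :
    (∃ M, InSymplecticClass m F M ∧ H ≤ M) ∨ InSymplecticResidualClass H := by
  have hf := isSymplecticForm_sympForm (F := F) m
  rcases symp_cases (by simp; omega) hf (le_spGL_iff.1 hH) with ⟨W, h1, h2, h⟩ | ⟨W, h1, h2, h3, h⟩ |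
    ⟨t, k, D, h1, h⟩ | ⟨h0, k, D, h1, h2, h⟩ | ⟨F₀, r, P, ζ, h1, h2, h3, h4, h⟩ | ⟨h0, R, k, h⟩ |
    ⟨h0, Q, h1, h2, h⟩ | ⟨s, K, h1, h2, h3, h4, h⟩ | ⟨h0, K, h1, h2, h3, h⟩ |
    ⟨h0, -, -, n₁, n₂, e, P, f₁, f₂, h1, h⟩ | ⟨h0, k, t, e, P, f₁, h1, h2, -, h3, h4, h5, h⟩ | h
  · exact Or.inl ⟨_, Or.inl (Or.inl ⟨W, h1, h2, rfl⟩), le_inf h hH⟩
  · exact Or.inl ⟨_, Or.inl (Or.inr (Or.inl ⟨W, h1, h2, by simp at h3; omega, rfl⟩)), le_inf h hH⟩
  · exact Or.inl ⟨_, Or.inl (Or.inr (Or.inr (Or.inl ⟨t, k, D, h1, rfl⟩))), le_inf h hH⟩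
  · obtain rfl : k = m := by have := card_eq_of_decomp h1; simp at this; omega
    exact Or.inl ⟨_, Or.inl (Or.inr (Or.inr (Or.inr (Or.inl ⟨D, h0, h1, h2, rfl⟩)))), le_inf h hH⟩
  · refine Or.inl ⟨_, Or.inl ?_, le_inf h hH⟩
    iterate 4 right
    exact Or.inl ⟨F₀, r, P, ζ, h1, h2, h3, h4, rfl⟩
  · refine Or.inl ⟨_, Or.inl ?_, le_inf h.nrm.le_subgroupNormalizer hH⟩
    iterate 5 right
    exact Or.inl ⟨R, _, k, h.type, absIrred_of_env h.env_top, le_similarityGroup_of_fixes h.fixes,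
      h0, odd_card_iff.2 h.two_ne, rfl, h.card, h.card_center, h.minus hf, rfl⟩
  · refine Or.inl ⟨_, Or.inl ?_, le_inf (le_quadSimilarityGroup h) hH⟩
    iterate 6 right
    exact ⟨Q, h0, h1, h2, rfl⟩
  · exact Or.inl ⟨_, Or.inr (Or.inl ⟨s, K, h1, h2, h3, h4, rfl⟩), le_inf h.le_normalizer hH⟩
  · exact Or.inl ⟨_, Or.inr (Or.inr (Or.inl ⟨K, h0, h1, h2, h3, rfl⟩)), le_inf h.le_normalizer hH⟩
  · refine Or.inl ⟨_, ?_, le_inf h.le hH⟩
    iterate 3 right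
    exact Or.inl ⟨n₁, n₂, e, P, f₁, f₂, h0, h1, h.sesq₁.symp (odd_card_iff.1 h0), h.sesq₂.symm,
      h.struct, rfl⟩
  · refine Or.inl ⟨_, ?_, le_inf h hH⟩
    iterate 4 right
    exact ⟨k, t, e, P, f₁, h0, h1, h2, h3, h4, h5, rfl⟩
  · exact Or.inr h

end CfsgLib.Asch
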