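import Mathlib
import Cfsg.Agent.Lib.Asch.OrthTensor
import Cfsg.Agent.Lib.Asch.Symp

/-! Aschbacher's theorem for subgroups of `Ω(Q)` in dimension at least seven. -/

set_option autoImplicit false

namespace CfsgLib.Asch

open Cfsg Cfsg.Geo Matrix QuadraticMap Module CfsgLib.Orth
open scoped MatrixGroups Kronecker

variable {ι : Type} [Fintype ι] [DecidableEq ι] {F : Type*} [Field F] [Fintype F]

/-- the geometric classes for a subgroup of `Ω(Q)` -/
inductive OClass (Q : QuadraticForm F (ι → F)) (H : Subgroup (GL ι F)) : Prop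
  | ts (W : Submodule F (ι → F)) (h0 : W ≠ ⊥) (hW : IsTotallySingularQuad Q W)
      (hd : IsPlusTypeOn Q ⊤ → 2 * (finrank F W + 1) ≠ Fintype.card ι)
      (hle : H ≤ subspaceStabilizer W)
  | nd (W : Submodule F (ι → F)) (h0 : W ≠ ⊥) (hW : IsNondegenerateOn (polar Q) W)
      (hd : 2 * finrank F W ≤ Fintype.card ι)
      (hs : finrank F W = 2 → IsPlusTypeOn Q W → 4 ≤ Fintype.card F)
      (hle : H ≤ subspaceStabilizer W)
  | ns (h2 : (2 : F) = 0) (v : ι → F) (hv : Q v ≠ 0)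
      (hle : H ≤ subspaceStabilizer (Submodule.span F {v}))
  | frame (hq : (Fintype.card F).Prime) (t : ℕ) (D : Fin t → Submodule F (ι → F))
      (hD : IsOrthogonalMDecomposition Q 1 D) (hle : H ≤ decompositionStabilizer D)
  | dec (t k : ℕ) (D : Fin t → Submodule F (ι → F)) (hk : 1 < k)
      (hD : IsOrthogonalMDecomposition Q k D) (h3 : k ≤ 3 → Fintype.card F ≠ 3)
      (h7 : k = 2 → ∀ i, IsPlusTypeOn Q (D i) → 7 ≤ Fintype.card F)
      (h4 : k = 4 → ∀ i, IsPlusTypeOn Q (D i) → 3 ≤ Fintype.card F)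
      (hle : H ≤ decompositionStabilizer D)
  | pair (k : ℕ) (D : Fin 2 → Submodule F (ι → F)) (hk : Even k) (hD : IsMDecomposition k D)
      (hs : ∀ i, IsTotallySingularQuad Q (D i)) (hle : H ≤ decompositionStabilizer D)
  | fieldSA (r : ℕ) (K : Subalgebra F (Matrix ι ι F)) (hr : r.Prime) (hK : IsFieldSubalgebra r K)
      (hsa : IsSelfAdjointFor (polar Q) K) (hn : r ≠ Fintype.card ι)
      (hn' : r = 2 ∨ Fintype.card ι ≠ 2 * r) (h2 : (2 : F) = 0 → 2 * r ∣ Fintype.card ι)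
      (hle : H ≤ subalgebraNormalizer K)
  | fieldU (K : Subalgebra F (Matrix ι ι F)) (hK : IsFieldSubalgebra 2 K)
      (hadj : IsAdjointClosedFor (polar Q) K) (hsa : ¬ IsSelfAdjointFor (polar Q) K)
      (hsim : ∀ k ∈ K, ∃ c : F, ∀ v, Q (k *ᵥ v) = c * Q v) (hle : H ≤ subalgebraNormalizer K)
  | sub (h : OSub Q H)
  | tensorAlt (n₁ n₂ : ℕ) (e : ι ≃ Fin n₁ × Fin n₂) (P : GL ι F)
      (f₁ : (Fin n₁ → F) → (Fin n₁ → F) → F) (f₂ : (Fin n₂ → F) → (Fin n₂ → F) → F)
      (h1 : 2 ≤ n₁) (h2 : n₁ ≤ n₂) (hf₁ : IsSymplecticForm f₁) (hf₂ : IsSymplecticForm f₂)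
      (hT : IsTensorFormStructure id (polar Q) f₁ f₂ e P)
      (h0 : ∀ (x₁ : Fin n₁ → F) (x₂ : Fin n₂ → F),
        Q ((P : Matrix ι ι F) *ᵥ ((fun a : Fin n₁ × Fin n₂ => x₁ a.1 * x₂ a.2) ∘ e)) = 0)
      (hle : H ≤ tensorProductSubgroup n₁ n₂ e P)
  | tensorSym (h2 : (2 : F) ≠ 0) (n₁ n₂ : ℕ) (e : ι ≃ Fin n₁ × Fin n₂) (P : GL ι F)
      (f₁ : (Fin n₁ → F) → (Fin n₁ → F) → F) (f₂ : (Fin n₂ → F) → (Fin n₂ → F) → F)
      (h1 : 3 ≤ n₁) (h2 : n₁ ≤ n₂) (h3 : n₁ = 3 → Fintype.card F ≠ 3)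
      (h4 : n₁ = 3 → n₂ = 4 → ¬ IsPlusTypeOn (fun v => f₂ v v) ⊤)
      (hf₁ : IsSymmetricForm f₁) (hf₂ : IsSymmetricForm f₂)
      (hT : IsTensorFormStructure id (polar Q) f₁ f₂ e P)
      (hle : H ≤ tensorProductSubgroup n₁ n₂ e P)
  | wreath (k t : ℕ) (e : ι ≃ (Fin t → Fin k)) (P : GL ι F)
      (f₁ : (Fin k → F) → (Fin k → F) → F) (h1 : 3 ≤ k) (h2 : 2 ≤ t)
      (h3 : k = 3 → Fintype.card F ≠ 3) (hf₁ : IsSymmetricForm f₁)
      (hT : IsTensorPowerFormStructure id (polar Q) f₁ e P) (hle : H ≤ tensorWreathSubgroup k t e P)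
  | pow (k t : ℕ) (hk : Even k) (ht : 2 ≤ t) (hn : Fintype.card ι = k ^ t)
      (h8 : Fintype.card ι = 8 → IsPlusTypeOn Q ⊤)

variable {Q : QuadraticForm F (ι → F)} {H : Subgroup (GL ι F)}

omit [Fintype ι] [DecidableEq ι] [Fintype F] in
theorem tsQuad_of_odd (h2 : (2 : F) ≠ 0) {W : Submodule F (ι → F)}
    (hW : IsTotallySingularFor (polar Q) W) : IsTotallySingularQuad Q W := fun w hw => by
  have := hW w hw w hw
  rw [QuadraticMap.polar_self, two_nsmul, ← two_mul] at this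
  exact (mul_eq_zero.1 this).resolve_left h2

theorem card_ne_six : Fintype.card F ≠ 6 := fun h => by
  have := FiniteField.isPrimePow_card F
  rw [h] at this
  exact absurd this (by decide +kernel)

theorem two_ne_zero_of_card_three (h : Fintype.card F = 3) : (2 : F) ≠ 0 :=
  odd_card_iff.1 (h ▸ by decide)

variable (hQ : (polarBilin Q).Nondegenerate) (h7 : 7 ≤ Fintype.card ι) (hH : H ≤ omegaGL Q)
include hQ h7 hH

theorem OClass.of_ts {W : Submodule F (ι → F)} (h0 : W ≠ ⊥) (hW : IsTotallySingularQuad Q W)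
    (hle : H ≤ subspaceStabilizer W) : OClass Q H := by
  by_cases h : IsPlusTypeOn Q ⊤ ∧ 2 * (finrank F W + 1) = Fintype.card ι
  · obtain ⟨U, h1, h2, h3⟩ := exists_lag_of_submaximal hQ (by omega) h.1 hH hW h.2 hle
    exact .ts U (by rintro rfl; simp at h2) h1 (fun _ => by omega) h3
  · exact .ts W h0 hW (fun h1 h2 => h ⟨h1, h2⟩) hle

omit hQ h7 in
theorem OClass.of_nd {W : Submodule F (ι → F)} (h0 : W ≠ ⊥) (hW : IsNondegenerateOn (polar Q) W)
    (hd : 2 * finrank F W ≤ Fintype.card ι) (hle : H ≤ subspaceStabilizer W) : OClass Q H := by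
  by_cases h : finrank F W = 2 ∧ IsPlusTypeOn Q W ∧ Fintype.card F ≤ 3
  · obtain ⟨v, hv, h1⟩ := stab_line_of_plus_plane (fixQ_of_le_omega hH) h.2.2 hW h.1 h.2.1 hle
    by_cases h2 : (2 : F) = 0
    · exact .ns h2 v hv h1
    · have h3 : v ≠ 0 := by rintro rfl; simp at hv
      have h4 := finrank_span_singleton (K := F) h3
      exact .nd _ (by simpa using h3) (nondegOn_span h2 hv) (by omega) (fun h => by omega) h1
  · exact .nd W h0 hW hd (fun h1 h2 => by by_contra h3; exact h ⟨h1, h2, by omega⟩) hle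

theorem OClass.of_reducible (hirr : ¬ ActsIrreducibly (matrixSet H)) : OClass Q H := by
  have hfix := fixQ_of_le_omega hH
  rcases form_reducible (isSesq_polar hQ) (fixesForm_polar hfix) hirr with
    ⟨W, h0, h1, h3, h4⟩ | ⟨W, h0, h1, h3, h4⟩ | ⟨k, D, h1, h3⟩
  · by_cases h2 : (2 : F) = 0
    swap
    · exact .of_ts hQ h7 hH h0 (tsQuad_of_odd h2 h1) h3
    have hadd : ∀ u ∈ W, ∀ v ∈ W, Q (u + v) = Q u + Q v := fun u hu v hv => by
      have := h1 u hu v hv
      rw [polar] at this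
      linear_combination this
    let W₀ : Submodule F (ι → F) :=
      { carrier := {v | v ∈ W ∧ Q v = 0}
        add_mem' := fun {u v} hu hv => ⟨W.add_mem hu.1 hv.1, by
          rw [hadd u hu.1 v hv.1, hu.2, hv.2, add_zero]⟩
        zero_mem' := ⟨W.zero_mem, map_zero Q⟩
        smul_mem' := fun c v hv => ⟨W.smul_mem c hv.1, by rw [Q.map_smul, hv.2, smul_zero]⟩ }
    rcases h4 W₀ (fun v hv => hv.1) (le_subspaceStabilizer_iff.2 fun g hg v hv =>
      ⟨le_subspaceStabilizer_iff.1 h3 g hg v hv.1, (fixQ_iff.1 hfix g hg v).trans hv.2⟩) with h | h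
    · have h5 : ∀ v ∈ W, Q v = 0 → v = 0 := fun v hv hv' =>
        (Submodule.mem_bot F).1 (h ▸ (⟨hv, hv'⟩ : v ∈ W₀))
      obtain ⟨u, hu, hu0⟩ := W.ne_bot_iff.1 h0
      have h6 : Q u ≠ 0 := fun h => hu0 (h5 u hu h)
      refine .ns h2 u h6 ((?_ : Submodule.span F {u} = W).symm ▸ h3)
      refine le_antisymm ((Submodule.span_singleton_le_iff_mem _ _).2 hu) fun v hv => ?_
      obtain ⟨a, ha⟩ := exists_sq_of_two h2 (Q v / Q u)
      have h8 := h5 (v + a • u) (W.add_mem hv (W.smul_mem a hu)) (by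
        rw [hadd _ hv _ (W.smul_mem a hu), Q.map_smul, ← ha, smul_eq_mul, div_mul_cancel₀ _ h6,
          ← two_mul, h2, zero_mul])
      exact Submodule.mem_span_singleton.2 ⟨-a, by
        rw [neg_smul]; exact (eq_neg_of_add_eq_zero_left h8).symm⟩
    · exact .of_ts hQ h7 hH h0 (fun v hv => (h.ge hv).2) h3
  · exact .of_nd hH h0 h1 h3.le h4
  · have h4 := h1.decomp.finrank_eq 0
    have h5 := card_eq_of_decomp h1.decomp
    exact .of_nd hH (fun h => by rw [h, finrank_bot] at h4; omega) (h1.nondegenerate 0) (by omega)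
      (h3 0)

variable (hirr : ActsIrreducibly (matrixSet H))
include hirr

omit h7 in
theorem OClass.of_dec {t k : ℕ} {D : Fin t → Submodule F (ι → F)}
    (hD : IsOrthogonalMDecomposition Q k D) (hle : H ≤ decompositionStabilizer D) :
    OClass Q H := by
  have hfix := fixQ_of_le_omega hH
  have h0 := hD.decomp.decomp.pos
  have h1 := Fintype.one_lt_card (α := F)
  by_cases hk : k = 1
  · subst hk
    by_cases hq : (Fintype.card F).Prime
    · exact .frame hq t D hD hle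
    · exact .sub (osub_of_frame hQ hfix hirr hq hD hle)
  by_cases h3 : k ≤ 3 ∧ Fintype.card F = 3
  · obtain ⟨D', h4, h5⟩ := frame_of_decomp_three hfix hirr h3.2 (by omega) hD hle
    exact .frame (h3.2 ▸ Nat.prime_three) _ D' h4 h5
  by_cases h2 : k = 2 ∧ (∃ i, IsPlusTypeOn Q (D i)) ∧ Fintype.card F < 7
  · obtain ⟨rfl, ⟨i, hi⟩, h4⟩ := h2
    have := card_ne_six (F := F)
    rcases (by omega : Fintype.card F = 2 ∨ Fintype.card F = 4 ∨ Fintype.card F = 5) with h | h | h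
    · exact absurd hi (not_plus_planes_two hQ hfix hirr h hD hle i)
    · exact .sub (osub_of_plus_planes_four hQ hfix hirr h hD hle hi)
    · obtain ⟨D', h4, h5⟩ := frame_of_plus_planes_five hfix hirr h hD hle hi
      exact .frame (h ▸ Nat.prime_five) _ D' h4 h5
  by_cases h4 : k = 4 ∧ (∃ i, IsPlusTypeOn Q (D i)) ∧ Fintype.card F = 2
  · obtain ⟨rfl, ⟨i, hi⟩, h4⟩ := h4
    obtain ⟨t', D', h5, h6, h8⟩ := minus_planes_of_four hfix hirr h4 hD hle hi
    exact .dec t' 2 D' (by omega) h5 (fun _ => by omega) (fun _ i h => absurd h (h6 i))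
      (fun h => by omega) h8
  exact .dec t k D (by omega) hD (fun h h' => h3 ⟨h, h'⟩)
    (fun h i hi => by by_contra h'; exact h2 ⟨h, ⟨i, hi⟩, by omega⟩)
    (fun h i hi => by by_contra h'; exact h4 ⟨h, ⟨i, hi⟩, by omega⟩) hle

theorem OClass.of_pair {k : ℕ} {D : Fin 2 → Submodule F (ι → F)} (hD : IsMDecomposition k D)
    (hs : ∀ i, IsTotallySingularFor (polar Q) (D i)) (hle : H ≤ decompositionStabilizer D) :
    OClass Q H := by
  have hfix := fixQ_of_le_omega hH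
  have hf := isSesq_polar hQ
  have h1 : ∀ i, IsTotallySingularQuad Q (D i) := by
    by_cases h2 : (2 : F) = 0
    · obtain ⟨e, he, h3, h4⟩ := half_of_pair hf hD hs hle
      rw [quad_unique (by omega) hirr (Q := Q)
        (fun c v => by rw [Q.map_smul, smul_eq_mul, _root_.sq]) (quadK_nondeg hf he).smul
        (fun u v => (quadK_polar hf he u v).symm) hfix (fixes_quadK h2 (symp_polar hQ h2)
          (fixesForm_polar hfix) he fun g hg => ⟨e, he, rfl, h3 g hg⟩)]
      exact h4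
    · exact fun i => tsQuad_of_odd h2 (hs i)
  rcases Nat.even_or_odd k with hk | hk
  · exact .pair k D hk hD h1 hle
  · have h3 := hD.finrank_eq 0
    have h4 := hD.pos
    exact .of_ts hQ h7 hH (fun h => by rw [h, finrank_bot] at h3; omega) (h1 0)
      (le_stab_of_pair_odd hQ (by omega) hH hk hD h1 hle)

theorem OClass.of_field_two {K : Subalgebra F (Matrix ι ι F)} (hK : IsFieldSubalgebra 2 K)
    (hadj : IsAdjointClosedFor (polar Q) K) (hst : Stab H K) : OClass Q H := by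
  have : Nonempty ι := Fintype.card_pos_iff.1 (by omega)
  by_cases hsa : IsSelfAdjointFor (polar Q) K
  · exact .fieldSA 2 K Nat.prime_two hK hsa (by omega) (Or.inl rfl)
      (fun h2 => two_mul_dvd_of_selfAdjoint hQ h2 hK hsa) hst.le_normalizer
  · exact .fieldU K hK hadj hsa (quad_sim_of_field hQ (fixQ_of_le_omega hH) hirr (by omega) hK hadj
      hsa hst) hst.le_normalizer

theorem OClass.of_field {r : ℕ} {K : Subalgebra F (Matrix ι ι F)} (hr : r.Prime)
    (hK : IsFieldSubalgebra r K) (hsa : IsSelfAdjointFor (polar Q) K) (hst : Stab H K) :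
    OClass Q H := by
  have : Nonempty ι := Fintype.card_pos_iff.1 (by omega)
  have hfix := fixQ_of_le_omega hH
  have hf := isSesq_polar hQ
  by_cases hn : Fintype.card ι = 2 * r
  · obtain ⟨C, h1, h3, h4, h5⟩ := exists_comm_of_half hQ hfix hK hsa hn hst
    rcases form_comm' hf (fixesForm_polar hfix) hirr h1 h3 h4 with h | ⟨t, k, D, h, h', h''⟩ |
      ⟨k, D, h, h', h''⟩
    · have h6 := field_dvd_card h
      have h8 : r < finrank F C := hK.finrank_eq ▸ Submodule.finrank_lt_finrank_of_lt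
        (show Subalgebra.toSubmodule K < Subalgebra.toSubmodule C from h5)
      obtain ⟨c, hc⟩ := h6
      have h9 : c = 1 := by
        rcases c with _ | _ | c
        · omega
        · rfl
        · nlinarith
      obtain ⟨K₀, hK₀, hmem⟩ := exists_subfield_of_dvd h (s := 2) ⟨r, by rw [← hn, hc, h9, mul_one]⟩
      exact .of_field_two hQ h7 hH hirr hK₀ (hf.adjClosed_iff.2 fun k hk =>
        (hmem _).2 ⟨hf.adjClosed_iff.1 h3 k ((hmem k).1 hk).1, by
          rw [← hf.adj_pow, ((hmem k).1 hk).2]⟩) (h1.of_pow hmem)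
    · exact .of_dec hQ hH hirr (orthDecomp_of_trans hfix h h'') h'
    · exact .of_pair hQ h7 hH hirr h h' h''
  · refine .fieldSA r K hr hK hsa ?_ (Or.inr hn)
      (fun h2 => two_mul_dvd_of_selfAdjoint hQ h2 hK hsa) hst.le_normalizer
    rintro rfl
    have ho := hr.odd_of_ne_two (by omega)
    refine not_field_full hQ (fun h2 => ?_) ho (by omega) hH hirr hK hst
    exact Nat.not_even_iff_odd.2 ho (even_card_of_symplectic (symp_polar hQ h2))

section tensor

variable {n₁ n₂ : ℕ} {e : ι ≃ Fin n₁ × Fin n₂} {P : GL ι F}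
  {f₁ : (Fin n₁ → F) → (Fin n₁ → F) → F} {f₂ : (Fin n₂ → F) → (Fin n₂ → F) → F} {ε₁ ε₂ : F}

omit h7 in
theorem OClass.of_alt (h : TensorData (RingHom.id F) (polar Q) H e P f₁ f₂ ε₁ ε₂)
    (hf₁ : IsSymplecticForm f₁) (hf₂ : IsSymplecticForm f₂) : OClass Q H := by
  have hfix := fixQ_of_le_omega hH
  rcases le_total n₁ n₂ with h1 | h1
  · exact .tensorAlt _ _ e P f₁ f₂ h.two_le₁ h1 hf₁ hf₂ h.struct (h.pure_zero hQ hfix hirr hf₁) h.le
  · exact .tensorAlt _ _ _ P f₂ f₁ h.two_le₂ h1 hf₂ hf₁ h.swap.struct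
      (h.swap.pure_zero hQ hfix hirr hf₂) h.swap.le

omit h7 in
theorem OClass.of_sym (h2 : (2 : F) ≠ 0) (hc : NoComm (polar Q) H)
    (h : TensorData (RingHom.id F) (polar Q) H e P f₁ f₂ 1 1) (h1 : n₁ ≤ n₂) : OClass Q H := by
  have hf := isSesq_polar hQ
  have hs := le_similarityGroup_of_fixes (fixesForm_polar (fixQ_of_le_omega hH))
  by_cases h3 : n₁ = 3 ∧ n₂ = 4 ∧ IsPlusTypeOn (fun v => f₂ v v) ⊤
  · obtain ⟨rfl, rfl, h3⟩ := h3
    obtain ⟨e', P', g₁, g₂, h'⟩ := h.two_six hQ h2 hH hirr hc h3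
    exact .of_alt hQ hH hirr h' (h'.sesq₁.symp h2) (h'.sesq₂.symp h2)
  · exact .tensorSym h2 _ _ e P f₁ f₂ (h.three_le hf hs hc h2) h1
      (fun h4 h5 => h.not_three hf hs hc ⟨h5, h4⟩) (fun h4 h5 h6 => h3 ⟨h4, h5, h6⟩) h.sesq₁.symm
      h.sesq₂.symm h.struct h.le

omit h7 in
theorem OClass.of_tensor (hc : NoComm (polar Q) H)
    (h : TensorData (RingHom.id F) (polar Q) H e P f₁ f₂ ε₁ ε₂) (he : ε₁ * ε₂ = 1) :
    OClass Q H := by
  have hs := le_similarityGroup_of_fixes (fixesForm_polar (fixQ_of_le_omega hH))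
  by_cases h2 : (2 : F) = 0
  · exact .of_alt hQ hH hirr h (h.symp_of_two h2 hs hirr) (h.swap.symp_of_two h2 hs hirr)
  rcases h.sesq₁.eps_eq with rfl | rfl
  · obtain rfl : ε₂ = 1 := by simpa using he
    rcases le_total n₁ n₂ with h1 | h1
    · exact .of_sym hQ hH hirr h2 hc h h1
    · exact .of_sym hQ hH hirr h2 hc h.swap h1
  · obtain rfl : ε₂ = -1 := by linear_combination -he
    exact .of_alt hQ hH hirr h (h.sesq₁.symp h2) (h.sesq₂.symp h2)

end tensor

omit h7 in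
theorem OClass.of_comp {t m : ℕ} {K : Fin t → Subgroup (GL ι F)}
    {φ : Fin t → (Matrix (Fin m) (Fin m) F →ₐ[F] Matrix ι ι F)} {e : ι ≃ (Fin t → Fin m)}
    {P : GL ι F} (h : CompData H K φ e P) : OClass Q H := by
  have hfix := fixQ_of_le_omega hH
  have hH' := fixesForm_polar hfix
  have hf := isSesq_polar hQ
  have ht := h.two_le_t
  have hm := h.two_le_m
  have hn := h.card_eq
  have h8 : Fintype.card ι = 8 → m = 2 ∧ t = 3 := fun h8 => by
    have h1 : m = 2 := by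
      by_contra h1
      have : 3 ^ 2 ≤ m ^ t := (Nat.pow_le_pow_left (by omega) 2).trans
        (Nat.pow_le_pow_right (by omega) ht)
      omega
    subst h1
    exact ⟨rfl, Nat.pow_right_injective le_rfl (show 2 ^ t = 2 ^ 3 by omega)⟩
  obtain ⟨f₁, ε₁, hf₁, h1, hadj⟩ := form_comp hf hH' h
  by_cases h2 : (2 : F) = 0
  · refine .pow m t ?_ ht hn fun h' => ?_
    · have := even_card_of_symplectic (symp_polar hQ h2)
      rw [hn] at this
      exact (Nat.even_pow.1 this).1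
    · obtain ⟨rfl, rfl⟩ := h8 h'
      exact h.plus_of_two hQ h2 hfix hirr
  rcases hf₁.eps_eq with rfl | rfl
  · obtain ⟨h3, h4⟩ := h.not_symm hf hH' h2 hf₁ hadj
    exact .wreath m t e P f₁ (by omega) ht (fun h5 h6 => h4 ⟨h6, h5⟩) hf₁.symm h1 h.le_wreath
  · refine .pow m t (by simpa using even_card_of_symplectic (hf₁.symp h2)) ht hn fun h' => ?_
    obtain ⟨rfl, rfl⟩ := h8 h'
    obtain ⟨c, hc0, h3⟩ := eps_eq_pow hf hf₁ (by omega) h1
    refine absurd ((mul_eq_zero.1 (show 2 * c = 0 from ?_)).resolve_left h2) hc0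
    simp only [RingHom.id_apply] at h3
    linear_combination -h3

omit hirr in
/-- **Aschbacher's theorem** for `Ω(Q)` -/
theorem oclass_or_residual : OClass Q H ∨ InOrthogonalResidualClass H := by
  by_cases hirr : ActsIrreducibly (matrixSet H)
  swap
  · exact Or.inl (.of_reducible hQ h7 hH hirr)
  have : Nonempty ι := Fintype.card_pos_iff.1 (by omega)
  have hfix := fixQ_of_le_omega hH
  have hH' := fixesForm_polar hfix
  have hf := isSesq_polar hQ
  rcases bilin_structure (by omega) hf hH' hirr with ⟨t, k, D, h1, h3, h4⟩ | ⟨k, D, h1, h3, h4⟩ |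
    ⟨s, K, h1, h3, h4, h5⟩ | ⟨K, h1, h3, -, h5⟩ | ⟨hc, ⟨n₁, n₂, e, P, f₁, f₂, ε₁, ε₂, h, he⟩ |
    ⟨R, m, h⟩ | ⟨t, m, K, φ, e, P, h⟩ | ⟨P, h⟩⟩
  · exact Or.inl (.of_dec hQ hH hirr (orthDecomp_of_trans hfix h1 h4) h3)
  · exact Or.inl (.of_pair hQ h7 hH hirr h1 h3 h4)
  · exact Or.inl (.of_field hQ h7 hH hirr h1 h3 h4 h5)
  · exact Or.inl (.of_field_two hQ h7 hH hirr h1 h3 h5)
  · exact Or.inl (.of_tensor hQ hH hirr hc h he)
  · have h1 := h.card_eq
    refine Or.inl (.pow 2 m even_two ?_ h1 fun h8 => h.plus hQ (k := 2) h8 (by omega))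
    by_contra h3
    have : 2 ^ m ≤ 2 ^ 1 := Nat.pow_le_pow_right (by omega) (by omega)
    omega
  · exact Or.inl (.of_comp hQ hH hirr h)
  · by_cases h1 : ∃ F₀ : Subfield F, F₀ ≠ ⊤ ∧ RealisableOver F₀ (matrixSet P)
    · obtain ⟨F₀, h0, hr⟩ := h1
      exact Or.inl (.sub (subfield_of_realisable hQ (by omega) h.env_top h.normal
        (fun s hs => hfix s (matrixSet_mono h.le hs)) h0 hr))
    · exact Or.inr ⟨P, h.residualCore fun F₀ h0 hr => h1 ⟨F₀, h0, hr⟩, h.not_unitary hf hH' h1⟩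

end CfsgLib.Asch
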