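import Mathlib
import Cfsg.Agent.Lib.Asch.OrthType

/-! The commutator subgroup of an orthogonal group lies in no geometric subgroup. -/

set_option autoImplicit false

namespace CfsgLib.Asch

open Cfsg Cfsg.Geo Matrix QuadraticMap Module CfsgLib.Orth CfsgLib.Forms
open scoped MatrixGroups Kronecker

variable {ι : Type} [Fintype ι] [DecidableEq ι] {F : Type*} [Field F]
  {Q : QuadraticForm F (ι → F)}

omit [DecidableEq ι] in
theorem le_finrank_inf_ker {k : ℕ} (Z : Submodule F (ι → F)) (φ : (ι → F) →ₗ[F] (Fin k → F)) :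
    finrank F Z ≤ finrank F ↥(Z ⊓ LinearMap.ker φ) + k := by
  have h1 := Submodule.finrank_sup_add_finrank_inf_eq Z (LinearMap.ker φ)
  have h2 := φ.finrank_range_add_finrank_ker
  have h3 := (LinearMap.range φ).finrank_le
  have h4 := (Z ⊔ LinearMap.ker φ).finrank_le
  rw [finrank_fin_fun] at h3
  omega

omit [DecidableEq ι] in
theorem exists_ker {k : ℕ} (φ : Fin k → ((ι → F) →ₗ[F] F)) (h : k < Fintype.card ι) :
    ∃ v, v ≠ 0 ∧ ∀ i, φ i v = 0 := by
  have h1 := le_finrank_inf_ker ⊤ (LinearMap.pi φ)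
  rw [finrank_top, finrank_fintype_fun_eq_card, top_inf_eq] at h1
  obtain ⟨v, hv, h0⟩ := Submodule.exists_mem_ne_zero_of_ne_bot (p := LinearMap.ker (LinearMap.pi φ))
    (fun h => by rw [h, finrank_bot] at h1; omega)
  exact ⟨v, h0, fun i => congrFun hv i⟩

omit [DecidableEq ι] in
theorem exists_sing_ker [Finite F] (Q : QuadraticForm F (ι → F)) {k : ℕ}
    {Z : Submodule F (ι → F)} (φ : Fin k → ((ι → F) →ₗ[F] F)) (h : k + 3 ≤ finrank F Z) :
    ∃ v ∈ Z, v ≠ 0 ∧ Q v = 0 ∧ ∀ i, φ i v = 0 := by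
  have h1 := le_finrank_inf_ker Z (LinearMap.pi φ)
  obtain ⟨v, hv, h0, hq⟩ := RootMax.quad_exists_sing Q (Z := Z ⊓ LinearMap.ker (LinearMap.pi φ))
    (by omega)
  exact ⟨v, hv.1, h0, hq, fun i => congrFun hv.2 i⟩

omit [Fintype ι] [DecidableEq ι] in
theorem notMem_span_of_coord {v b : ι → F} {i : ι} (hv : v i ≠ 0) (hb : b i = 0) :
    v ∉ Submodule.span F {b} := fun h => by
  obtain ⟨c, rfl⟩ := Submodule.mem_span_singleton.1 h
  simp [hb] at hv

section omega

variable [Finite F] (hQ : (polarBilin Q).Nondegenerate) (h5 : 5 ≤ Fintype.card ι)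
include hQ h5

theorem exists_omega_eichler {b w : ι → F} (hb : Q b = 0) (hw : polar Q b w = 0) :
    ∃ g ∈ omegaGL Q, ∀ z, polar Q b z = 0 → (g : Matrix ι ι F) *ᵥ z = z + polar Q w z • b :=
  ⟨ofOG Q (eichler Q b w hb hw), mem_omegaGL.2
    ⟨_, eichler_mem_commutator hQ (h24_five h5) hb hw, rfl⟩, fun z hz => by
      rw [ofOG_mulVec, eichler_apply_of_perp hb hw hz]⟩

theorem exists_omega_add {b v : ι → F} (hb : Q b = 0) (hbv : polar Q b v = 0)
    (hv : v ∉ Submodule.span F {b}) (c : F) :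
    ∃ g ∈ omegaGL Q, (g : Matrix ι ι F) *ᵥ v = v + c • b := by
  obtain ⟨w, h1, h2⟩ := exists_perp_polar_eq hQ hv c
  obtain ⟨g, hg, h⟩ := exists_omega_eichler hQ h5 hb (h1 b (Submodule.mem_span_singleton_self b))
  exact ⟨g, hg, by rw [h v hbv, polar_comm, h2]⟩

omit [DecidableEq ι] in
/-- the singular vectors orthogonal to `v` span the orthogonal complement of `v` -/
theorem exists_sing_notMem {v z : ι → F} (hv : v ≠ 0) {X : Submodule F (ι → F)}
    (hz : polar Q z v = 0) (hzX : z ∉ X) : ∃ b, Q b = 0 ∧ polar Q b v = 0 ∧ b ∉ X := by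
  by_contra hc
  push Not at hc
  have key : ∀ s, Q s = 0 → polar Q s v = 0 → ∀ y, polar Q y v = 0 → y ∉ X → polar Q s y = 0 := by
    intro s hs hsv y hy hyX
    by_contra h0
    have := hc (y - (Q y / polar Q s y) • s) (by
      rw [sub_eq_add_neg, ← neg_smul, Q_add, QuadraticMap.map_smul, hs, polar_smul_right,
        polar_comm Q y s]
      simp only [smul_eq_mul]; field_simp; ring)
      (by rw [polar_sub_left, polar_smul_left, hy, hsv]; simp)
    exact hyX (by simpa using X.add_mem this (X.smul_mem (Q y / polar Q s y) (hc s hs hsv)))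
  obtain ⟨i, hi⟩ := Function.ne_iff.1 hv
  obtain ⟨s, -, h0, hs, h⟩ := exists_sing_ker Q (Z := ⊤)
    ![(polarBilin Q).flip v, LinearMap.proj i] (by rw [finrank_top, finrank_fintype_fun_eq_card]; omega)
  have h1 : polar Q s v = 0 := h 0
  have h2 : s i = 0 := h 1
  obtain ⟨w, h3, h4⟩ := exists_perp_polar_eq hQ (W := Submodule.span F {v}) (x := s) (fun h => by
    obtain ⟨c, rfl⟩ := Submodule.mem_span_singleton.1 h
    obtain rfl : c = 0 := by simpa [show v i ≠ 0 from hi] using h2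
    simp at h0) 1
  have h6 : polar Q w v = 0 := (polar_comm Q w v).trans (h3 v (Submodule.mem_span_singleton_self v))
  by_cases hw : w ∈ X
  · have := key s hs h1 (z + w) (by rw [polar_add_left, hz, h6, add_zero])
      fun h => hzX (by simpa using X.sub_mem h hw)
    rw [polar_add_right, key s hs h1 z hz hzX, h4] at this
    simp at this
  · exact one_ne_zero (h4.symm.trans (key s hs h1 w h6 hw))

theorem omega_not_le_stab {W : Submodule F (ι → F)} (h0 : W ≠ ⊥) (h1 : W ≠ ⊤) :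
    ¬ omegaGL Q ≤ subspaceStabilizer W := by
  wlog hd : 2 * finrank F W ≤ Fintype.card ι generalizing W
  · have h2 := finrank_qperp hQ W
    refine fun h => this (W := qperp Q W) (fun h => h1 ?_) (fun h => h0 ?_) (by omega)
      (le_stab_qperp hQ (fixQ_of_le_omega le_rfl) h)
    · rw [h, finrank_bot] at h2
      exact Submodule.eq_top_of_finrank_eq (by rw [finrank_fintype_fun_eq_card]; omega)
    · rw [h, finrank_top, finrank_fintype_fun_eq_card] at h2
      exact Submodule.finrank_eq_zero.1 (by omega)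
  intro h
  obtain ⟨v, hv, hv0⟩ := Submodule.exists_mem_ne_zero_of_ne_bot h0
  have : ¬ qperp Q (Submodule.span F {v}) ≤ W := fun hle => by
    have h2 := finrank_qperp hQ (Submodule.span F {v})
    have h3 := Submodule.finrank_mono hle
    rw [finrank_span_singleton hv0] at h2
    omega
  obtain ⟨z, hz, hzW⟩ := SetLike.not_le_iff_exists.1 this
  obtain ⟨b, h2, h3, h4⟩ := exists_sing_notMem hQ h5 hv0
    ((polar_comm Q z v).trans (hz v (Submodule.mem_span_singleton_self v))) hzW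
  obtain ⟨g, hg, hgv⟩ := exists_omega_add hQ h5 h2 h3 (fun h => by
    obtain ⟨c, rfl⟩ := Submodule.mem_span_singleton.1 h
    exact h4 ((W.smul_mem_iff (by rintro rfl; simp at hv0)).1 hv)) 1
  have := le_subspaceStabilizer_iff.1 h g hg v hv
  rw [hgv, one_smul] at this
  exact h4 (by simpa using W.sub_mem this hv)

theorem omega_irred : ActsIrreducibly (matrixSet (omegaGL Q)) := by
  by_contra h
  obtain ⟨W, h0, h1, h2⟩ := exists_le_subspaceStabilizer h
  exact omega_not_le_stab hQ h5 h0 h1 h2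

theorem omega_not_le_decomp (h7 : 7 ≤ Fintype.card ι) {t k : ℕ} {D : Fin t → Submodule F (ι → F)}
    (hD : IsMDecomposition k D) : ¬ omegaGL Q ≤ decompositionStabilizer D := by
  intro h
  have ht := hD.two_le
  let i : Fin t := ⟨0, by omega⟩
  let Z := ⨆ j, ⨆ _ : j ≠ i, D j
  have hdis : Disjoint (D i) Z := hD.indep i
  have hZ : 4 ≤ finrank F Z := by
    have h1 := Submodule.finrank_sup_add_finrank_inf_eq (D i) Z
    have h2 : D i ⊔ Z = ⊤ := by rw [← hD.iSup_eq_top, iSup_split_single D i]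
    rw [h2, finrank_top, finrank_fintype_fun_eq_card, hD.finrank_eq] at h1
    have h3 := card_eq_of_decomp hD
    have h4 : 2 * k ≤ t * k := Nat.mul_le_mul_right k ht
    omega
  obtain ⟨v, hv, hv0⟩ := Submodule.exists_mem_ne_zero_of_ne_bot (p := D i) (fun h => by
    have := hD.finrank_eq i; have := hD.pos
    rw [h, finrank_bot] at *; omega)
  obtain ⟨b, hb, hb0, h1, h2⟩ := exists_sing_ker Q (Z := Z) ![(polarBilin Q).flip v] hZ
  have hvZ : v ∉ Z := fun h => hv0 (Submodule.disjoint_def.1 hdis v hv h)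
  obtain ⟨g, hg, hgv⟩ := exists_omega_add hQ h5 h1 (h2 0)
    (fun h => hvZ ((Submodule.span_singleton_le_iff_mem _ _).2 hb h)) 1
  obtain ⟨τ, hτ⟩ := h hg
  have h3 : v + b ∈ D (τ i) := by
    rw [← hτ, ← one_smul F b, ← hgv]; exact ⟨v, hv, rfl⟩
  by_cases h4 : τ i = i
  · rw [h4] at h3
    exact hb0 (Submodule.disjoint_def.1 hdis b (by simpa using (D i).sub_mem h3 hv) hb)
  · have h6 : D (τ i) ≤ Z := le_iSup₂ (f := fun j (_ : j ≠ i) => D j) _ h4
    exact hvZ (by simpa using Z.sub_mem (h6 h3) hb)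

theorem omega_not_le_field {r : ℕ} {K : Subalgebra F (Matrix ι ι F)} (hr : 2 ≤ r)
    (hK : IsFieldSubalgebra r K) : ¬ omegaGL Q ≤ subalgebraNormalizer K := by
  intro h
  have hst := stab_of_le_normalizer h
  have hinj : ∀ x ∈ K, ∀ v, v ≠ 0 → x *ᵥ v = 0 → x = 0 := fun x hx v hv hxv => by
    by_contra h0
    obtain ⟨y, hy, hxy⟩ := hK.inv x hx h0
    exact hv (by rw [← one_mulVec v, ← hxy, hK.comm x hx y hy, ← mulVec_mulVec, hxv, mulVec_zero])
  obtain ⟨k, hk, hk'⟩ : ∃ k ∈ K, k ∉ (⊥ : Subalgebra F (Matrix ι ι F)) := by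
    by_contra hc
    push Not at hc
    have := hK.finrank_eq
    have _ : Nonempty ι := Fintype.card_pos_iff.1 (by omega)
    rw [show K = ⊥ from eq_bot_iff.2 hc, Subalgebra.finrank_bot] at this
    omega
  obtain ⟨b, -, hb0, hb, -⟩ := exists_sing_ker Q (Z := ⊤) (k := 0) ![]
    (by rw [finrank_top, finrank_fintype_fun_eq_card]; omega)
  obtain ⟨i, hi⟩ := Function.ne_iff.1 hb0
  obtain ⟨z, hz0, hz⟩ := exists_ker ![polarBilin Q b, polarBilin Q b ∘ₗ toLin' k, LinearMap.proj i]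
    (by omega)
  obtain ⟨w, h1, h2⟩ := exists_perp_polar_eq hQ (W := Submodule.span F {b}) (x := z) (fun h => by
    obtain ⟨c, rfl⟩ := Submodule.mem_span_singleton.1 h
    obtain rfl : c = 0 := by simpa [show b i ≠ 0 from hi] using hz 2
    simp at hz0) 1
  obtain ⟨g, hg, hg'⟩ := exists_omega_eichler hQ h5 hb (h1 b (Submodule.mem_span_singleton_self b))
  obtain ⟨v, hv0, hv⟩ := exists_ker ![polarBilin Q b, polarBilin Q b ∘ₗ toLin' k,
    polarBilin Q w, polarBilin Q w ∘ₗ toLin' k] (by omega)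
  have h3 : cj g k = k := sub_eq_zero.1 (hinj _ (K.sub_mem (hst g hg k hk) hk) v hv0 (by
    have e1 : (g : Matrix ι ι F) *ᵥ v = v := by
      rw [hg' v (hv 0), show polar Q w v = 0 from hv 2, zero_smul, add_zero]
    rw [sub_mulVec, sub_eq_zero]
    conv_lhs => rw [← e1, cj_mulVec]
    rw [hg' (k *ᵥ v) (hv 1), show polar Q w (k *ᵥ v) = 0 from hv 3, zero_smul, add_zero]))
  have h4 := cj_mulVec g k z
  rw [h3, hg' z (hz 0), hg' (k *ᵥ z) (hz 1), polar_comm, h2, one_smul, mulVec_add,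
    add_right_inj] at h4
  refine hk' (mem_bot_iff.2 ⟨_, sub_eq_zero.1 (hinj _ (K.sub_mem hk (K.smul_mem K.one_mem _)) b hb0
    (by rw [sub_mulVec, h4, smul_mulVec, one_mulVec, sub_self]))⟩)

theorem omega_not_le_subfield {F₀ : Subfield F} (h0 : F₀ ≠ ⊤) (P : GL ι F) :
    ¬ omegaGL Q ≤ subfieldSubgroup F₀ P := by
  intro h
  obtain ⟨i⟩ : Nonempty ι := Fintype.card_pos_iff.1 (by omega)
  let v := (P : Matrix ι ι F) *ᵥ Pi.single i 1
  obtain ⟨b, -, hb0, hb, h1⟩ := exists_sing_ker Q (Z := ⊤) ![(polarBilin Q).flip v,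
    LinearMap.proj i ∘ₗ toLin' ((P⁻¹ : GL ι F) : Matrix ι ι F)]
    (by rw [finrank_top, finrank_fintype_fun_eq_card]; omega)
  obtain ⟨b', rfl⟩ : ∃ b', b = (P : Matrix ι ι F) *ᵥ b' := ⟨_, (mulVec_inv_mulVec P b).symm⟩
  have h2 : b' i = 0 := (congrFun (inv_mulVec_mulVec P b') i).symm.trans (h1 1)
  obtain ⟨j, hj⟩ : ∃ j, b' j ≠ 0 := Function.ne_iff.1 fun h : b' = 0 => hb0 (by rw [h, mulVec_zero])
  have hij : j ≠ i := fun h => hj (h ▸ h2)
  refine h0 (eq_top_iff.2 fun c _ => ?_)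
  obtain ⟨g, hg, hgv⟩ := exists_omega_add hQ h5 hb (h1 0) (fun h => by
    obtain ⟨c, hc⟩ := Submodule.mem_span_singleton.1 h
    rw [← mulVec_smul] at hc
    simpa [h2] using congrFun (toLin'_injective P hc) i) (c / b' j)
  obtain ⟨d, hd⟩ := mem_subfieldSubgroup.1 (h hg)
  have h3 : cj P⁻¹ (g : Matrix ι ι F) *ᵥ Pi.single i 1 = Pi.single i 1 + (c / b' j) • b' := by
    rw [← inv_mulVec_mulVec P (Pi.single i 1), cj_mulVec, hgv, mulVec_add, mulVec_smul,
      inv_mulVec_mulVec P b']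
  have h4 := hd i i
  have h6 := hd j i
  rw [mulVec_single_one] at h3
  have h7 := congrFun h3 i
  have h8 := congrFun h3 j
  simp only [col_apply, Pi.add_apply, Pi.single_eq_same, Pi.smul_apply, h2, smul_eq_mul, mul_zero,
    add_zero, Pi.single_eq_of_ne hij, zero_add, div_mul_cancel₀ _ hj] at h7 h8
  rw [Matrix.smul_apply, smul_eq_mul] at h4 h6
  rw [h7, mul_one] at h4
  rw [h8] at h6
  simpa using F₀.mul_mem (F₀.inv_mem h4) h6

/-- no family of `2 × 2` minors can vanish on an orbit -/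
theorem omega_not_le_of_minors (h3 : 3 ≤ Nat.card F) {κ : Type} [Fintype κ] [DecidableEq κ]
    (T : (ι → F) ≃ₗ[F] (κ → F)) {a b b' c d d' : κ} (hb : b ≠ a) (hb' : b' ≠ a) (hc : c ≠ a)
    (hd : d ≠ a) (hd' : d' ≠ a) (hdd : d ≠ d') {M : Subgroup (GL ι F)}
    (hM : ∀ g ∈ M, ∀ x, x = T ((g : Matrix ι ι F) *ᵥ T.symm (Pi.single a 1)) →
      x a * x d = x b * x c ∧ x a * x d' = x b' * x c) : ¬ omegaGL Q ≤ M := by
  intro h
  set v := T.symm (Pi.single a 1) with hv
  let X := LinearMap.ker (LinearMap.proj (R := F) (φ := fun _ => F) d ∘ₗ T.toLinearMap) ⊓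
    LinearMap.ker (LinearMap.proj (R := F) (φ := fun _ => F) d' ∘ₗ T.toLinearMap)
  have hX : ∀ z, z ∈ X ↔ T z d = 0 ∧ T z d' = 0 := fun _ => Iff.rfl
  obtain ⟨z, hz, hzX⟩ : ∃ z, polar Q z v = 0 ∧ z ∉ X := by
    by_cases h1 : polar Q (T.symm (Pi.single d 1)) v = 0
    · exact ⟨_, h1, by simp [hX]⟩
    · refine ⟨polar Q (T.symm (Pi.single d' 1)) v • T.symm (Pi.single d 1) -
        polar Q (T.symm (Pi.single d 1)) v • T.symm (Pi.single d' 1), ?_, ?_⟩
      · rw [polar_sub_left, polar_smul_left, polar_smul_left]; simp [mul_comm]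
      · simp [hX, h1, hdd.symm]
  obtain ⟨y, h1, h2, h4⟩ := exists_sing_notMem hQ h5 (v := v) (by simp [hv]) hz hzX
  have hvy : v ∉ Submodule.span F {y} := fun h => by
    obtain ⟨l, hl⟩ := Submodule.mem_span_singleton.1 h
    have h0 : l ≠ 0 := by rintro rfl; simpa [hv] using hl.symm
    exact h4 ((X.smul_mem_iff h0).1 (hl ▸ (hX v).2 (by simp [hv, hd, hd'])))
  have key : ∀ l : F, l ≠ 0 → T y d + l * (T y a * T y d - T y b * T y c) = 0 ∧
      T y d' + l * (T y a * T y d' - T y b' * T y c) = 0 := fun l hl => by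
    obtain ⟨g, hg, hgv⟩ := exists_omega_add hQ h5 h1 h2 hvy l
    have := hM g (h hg) _ rfl
    rw [hgv, map_add, map_smul, hv, T.apply_symm_apply] at this
    simp only [Pi.add_apply, Pi.single_eq_same, Pi.smul_apply, smul_eq_mul, Pi.single_eq_of_ne hb,
      Pi.single_eq_of_ne hb', Pi.single_eq_of_ne hc, Pi.single_eq_of_ne hd,
      Pi.single_eq_of_ne hd', zero_add] at this
    exact ⟨mul_left_cancel₀ hl (by linear_combination this.1),
      mul_left_cancel₀ hl (by linear_combination this.2)⟩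
  let _ := Fintype.ofFinite F
  obtain ⟨l, hl0, hl1⟩ : ∃ l : F, l ≠ 0 ∧ l ≠ 1 := by
    by_contra hcon
    push Not at hcon
    classical
    have := Finset.card_le_card (s := Finset.univ) (t := ({0, 1} : Finset F)) fun x _ => by
      by_cases h : x = 0 <;> simp [h, hcon x]
    have h6 := Finset.card_le_two (a := (0 : F)) (b := 1)
    rw [Finset.card_univ, ← Nat.card_eq_fintype_card] at this
    omega
  have e1 := key l hl0
  have e2 := key 1 one_ne_zero
  have hl := sub_ne_zero.2 hl1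
  exact h4 ((hX y).2 ⟨mul_left_cancel₀ hl (by linear_combination l * e2.1 - e1.1),
    mul_left_cancel₀ hl (by linear_combination l * e2.2 - e1.2)⟩)

theorem omega_not_le_tensor (h3 : 3 ≤ Nat.card F) {n₁ n₂ : ℕ} (h1 : 2 ≤ n₁) (h2 : 3 ≤ n₂)
    (e : ι ≃ Fin n₁ × Fin n₂) (P : GL ι F) : ¬ omegaGL Q ≤ tensorProductSubgroup n₁ n₂ e P := by
  refine omega_not_le_of_minors hQ h5 h3 (coordV e P) (a := (⟨0, by omega⟩, ⟨0, by omega⟩))
    (b := (⟨0, by omega⟩, ⟨1, by omega⟩)) (b' := (⟨0, by omega⟩, ⟨2, by omega⟩))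
    (c := (⟨1, by omega⟩, ⟨0, by omega⟩)) (d := (⟨1, by omega⟩, ⟨1, by omega⟩))
    (d' := (⟨1, by omega⟩, ⟨2, by omega⟩)) (by simp) (by simp) (by simp) (by simp) (by simp)
    (by simp) fun g hg x hx => ?_
  obtain ⟨a, b, hab⟩ := mem_tensorProductSubgroup'.1 hg
  rw [hab, coordV_mulVec, LinearEquiv.apply_symm_apply, mulVec_single_one] at hx
  subst hx
  simp only [col_apply, kroneckerMap_apply]
  constructor <;> ring

omit hQ h5 in
theorem pure_of_mem_wreath {m t : ℕ} {g : GL (Fin t → Fin m) F}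
    (hg : g ∈ tensorWreathStandard m t F) (y : Fin t → Fin m → F) :
    ∃ y' : Fin t → Fin m → F, (g : Matrix (Fin t → Fin m) (Fin t → Fin m) F) *ᵥ
      (fun a => ∏ i, y i (a i)) = fun a => ∏ i, y' i (a i) := by
  rw [tensorWreathStandard, ← Subgroup.mem_toSubmonoid,
    Subgroup.closure_toSubmonoid_of_finite] at hg
  induction hg using Submonoid.closure_induction generalizing y with
  | mem g hg =>
    rcases hg with ⟨gs, h⟩ | ⟨τ, h⟩
    · refine ⟨fun i => (gs i : Matrix (Fin m) (Fin m) F) *ᵥ y i, funext fun a => ?_⟩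
      simp only [mulVec, dotProduct, h, ← Finset.prod_mul_distrib]
      rw [Finset.prod_univ_sum, Fintype.piFinset_univ]
    · refine ⟨fun i => y (τ.symm i), funext fun a => ?_⟩
      simp only [mulVec, dotProduct, h, ite_mul, one_mul, zero_mul, Finset.sum_ite_eq',
        Finset.mem_univ, if_true, Function.comp_apply]
      exact Fintype.prod_equiv τ _ _ fun i => by simp
  | one => exact ⟨y, by simp⟩
  | mul g h _ _ hg hh =>
    obtain ⟨y', hy'⟩ := hh y
    obtain ⟨y'', hy''⟩ := hg y'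
    exact ⟨y'', by rw [Units.val_mul, ← mulVec_mulVec, hy', hy'']⟩

theorem omega_not_le_wreath (h3 : 3 ≤ Nat.card F) (e : ι ≃ (Fin 2 → Fin 3)) (P : GL ι F) :
    ¬ omegaGL Q ≤ tensorWreathSubgroup 3 2 e P := by
  refine omega_not_le_of_minors hQ h5 h3 (coordV e P) (a := ![0, 0]) (b := ![0, 1]) (b' := ![0, 2])
    (c := ![1, 0]) (d := ![1, 1]) (d' := ![1, 2]) (by decide) (by decide) (by decide) (by decide)
    (by decide) (by decide) fun g hg x hx => ?_
  obtain ⟨y, hy⟩ := pure_of_mem_wreath (mem_tensorWreathSubgroup.1 hg) fun _ => Pi.single 0 1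
  have : (Pi.single ![0, 0] 1 : (Fin 2 → Fin 3) → F) = fun a => ∏ i, (Pi.single 0 1 : Fin 3 → F) (a i) := by
    funext a
    rw [Fin.prod_univ_two, Pi.single_apply, Pi.single_apply, Pi.single_apply, ite_zero_mul_ite_zero,
      mul_one]
    exact if_congr (by simp [funext_iff, Fin.forall_fin_two]) rfl rfl
  rw [← (coordGL e P).apply_symm_apply g, coe_coordGL, coordV_mulVec, LinearEquiv.apply_symm_apply,
    this, hy] at hx
  subst hx
  simp only [Fin.prod_univ_two, cons_val_zero, cons_val_one]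
  constructor <;> ring

end omega

end CfsgLib.Asch
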