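import Mathlib
import Cfsg.Agent.Lib.Asch.OrthClass
import Cfsg.Agent.Lib.Asch.OrthProper

/-! Maximal subgroups of `Ω(Q)`: passing from containments to equalities, and numerical
constraints on the classes. -/

set_option autoImplicit false

namespace CfsgLib.Asch

open Cfsg Cfsg.Geo Matrix QuadraticMap Module CfsgLib.Orth
open scoped MatrixGroups Kronecker

variable {ι : Type} [Fintype ι] [DecidableEq ι] {F : Type*} [Field F] [Fintype F]
  {Q : QuadraticForm F (ι → F)} {H : Subgroup (GL ι F)}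

omit [Fintype F] [DecidableEq ι] in
theorem ne_top_of_finrank_lt {W : Submodule F (ι → F)} (h : finrank F W < Fintype.card ι) :
    W ≠ ⊤ := by
  rintro rfl; simp at h

omit [Fintype F] [DecidableEq ι] in
theorem finrank_pos_of_ne_bot {W : Submodule F (ι → F)} (h : W ≠ ⊥) : 0 < finrank F W :=
  Submodule.one_le_finrank_iff.2 h

omit [Fintype F] in
theorem two_mul_finrank_le_of_ts (hQ : (polarBilin Q).Nondegenerate) {W : Submodule F (ι → F)}
    (hW : IsTotallySingularQuad Q W) : 2 * finrank F W ≤ Fintype.card ι :=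
  two_mul_finrank_le hQ fun u hu v hv => polar_eq_zero_of_singular hW hu hv

theorem odd_of_nondegOn {W : Submodule F (ι → F)} (hW : IsNondegenerateOn (polar Q) W)
    (h : Odd (finrank F W)) : Odd (Fintype.card F) :=
  odd_card_iff.2 fun h2 => Nat.not_even_iff_odd.2 h (even_finrank_of_two h2 hW)

theorem odd_of_decomp {t k : ℕ} {D : Fin t → Submodule F (ι → F)}
    (hD : IsNondegenerateMDecomposition (polar Q) k D) (h : Odd k) : Odd (Fintype.card F) :=
  odd_of_nondegOn (hD.nondegenerate ⟨0, by have := hD.decomp.two_le; omega⟩)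
    (by rwa [hD.decomp.finrank_eq])

omit [Fintype F] [DecidableEq ι] in
theorem plus_of_pair {k : ℕ} {D : Fin 2 → Submodule F (ι → F)} (hD : IsMDecomposition k D)
    (hs : ∀ i, IsTotallySingularQuad Q (D i)) : IsPlusTypeOn Q ⊤ :=
  ⟨D 0, le_top, hs 0, by
    rw [hD.finrank_eq, card_eq_of_decomp hD, finrank_top, finrank_fintype_fun_eq_card]⟩

omit [Fintype F] in
/-- a non-degenerate subspace of half the dimension -/
theorem decomp_of_half (hQ : (polarBilin Q).Nondegenerate) (hH : H ≤ omegaGL Q)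
    {W : Submodule F (ι → F)} (hW : IsNondegenerateOn (polar Q) W) {k : ℕ} (h0 : 0 < k)
    (hk : finrank F W = k) (hn : Fintype.card ι = 2 * k) (hle : H ≤ subspaceStabilizer W) :
    IsNondegenerateMDecomposition (polar Q) k ![W, qperp Q W] ∧
      H ≤ decompositionStabilizer ![W, qperp Q W] := by
  have h1 := finrank_qperp hQ W
  have h2 := isCompl_qperp hQ hW
  refine ⟨⟨⟨le_rfl, h0, Fin.forall_fin_two.2 ⟨hk, show finrank F (qperp Q W) = k by omega⟩, ?_, ?_⟩,
    Fin.forall_fin_two.2 ⟨hW, nondegOn_qperp hQ hW⟩, fun i j hij => ?_⟩,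
    stab_le_decompositionStabilizer (Fin.forall_fin_two.2
      ⟨hle, le_stab_qperp hQ (fixQ_of_le_omega hH) hle⟩)⟩
  · exact (iSupIndep_pair (show (0 : Fin 2) ≠ 1 by decide) (by decide)).2 h2.disjoint
  · rw [eq_top_iff, ← h2.sup_eq_top]
    exact sup_le (le_iSup ![W, qperp Q W] 0) (le_iSup ![W, qperp Q W] 1)
  · fin_cases i <;> fin_cases j
    · exact absurd rfl hij
    · exact fun u hu v hv => mem_qperp.1 hv u hu
    · exact fun u hu v hv => (polar_comm _ _ _).trans (mem_qperp.1 hu v hv)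
    · exact absurd rfl hij

omit [Fintype F] [DecidableEq ι] [Fintype ι] in
theorem orthDecomp_of_pair {k : ℕ} {D : Fin 2 → Submodule F (ι → F)}
    (hD : IsNondegenerateMDecomposition (polar Q) k D) (h : AreIsometricFor Q (D 0) (D 1)) :
    IsOrthogonalMDecomposition Q k D := by
  refine ⟨hD, Fin.forall_fin_two.2 ⟨Fin.forall_fin_two.2 ⟨⟨.refl _ _, fun _ => rfl⟩, h⟩,
    Fin.forall_fin_two.2 ⟨?_, ⟨.refl _ _, fun _ => rfl⟩⟩⟩⟩
  obtain ⟨e, he⟩ := h
  exact ⟨e.symm, fun w => by rw [← he, e.apply_symm_apply]⟩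

theorem five_le_card (h : Odd (Fintype.card F)) (h3 : Fintype.card F ≠ 3) :
    5 ≤ Fintype.card F := by
  have := Fintype.one_lt_card (α := F)
  obtain ⟨k, hk⟩ := h
  omega

theorem not_odd_card (h2 : (2 : F) = 0) : ¬ Odd (Fintype.card F) := fun h => odd_card_iff.1 h h2

theorem mul_cases {a b n : ℕ} (h : a * b = n) (ha : 2 ≤ a) (hb : 2 ≤ b) : a ≤ n / 2 ∧ b ≤ n / 2 := by
  subst h
  constructor <;> rw [Nat.le_div_iff_mul_le (by omega)] <;> nlinarith

theorem pow_cases' {k t n : ℕ} (h : n = k ^ t) (ht : 2 ≤ t) (hn : 7 ≤ n) (hn' : n < 16) :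
    (k = 2 ∧ n = 8) ∨ (k = 3 ∧ t = 2 ∧ n = 9) := by
  subst h
  have h1 : k < 4 := by
    by_contra h1
    have : 4 ^ 2 ≤ k ^ t := (Nat.pow_le_pow_left (by omega) 2).trans
      (Nat.pow_le_pow_right (by omega) ht)
    omega
  have h2 : t < 4 := by
    by_contra h2
    interval_cases k
    · rw [zero_pow (by omega)] at hn; omega
    · simp at hn
    · have : 2 ^ 4 ≤ 2 ^ t := Nat.pow_le_pow_right (by omega) (by omega)
      omega
    · have : 3 ^ 4 ≤ 3 ^ t := Nat.pow_le_pow_right (by omega) (by omega)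
      omega
  interval_cases k <;> interval_cases t <;> simp_all

theorem det_gram_qOdd_mem (m : ℕ) (F₀ : Subfield F) :
    (gramMatrix (polar (qOdd m F))).det ∈ F₀ := by
  rw [← gram_basisFun, qOdd_eq_qSum, det_gram_qSum, det_gram_qOne, det_gram_qPlus]
  exact F₀.mul_mem (ofNat_mem F₀ 2) (F₀.pow_mem (F₀.neg_mem F₀.one_mem) m)

section max

variable (hQ : (polarBilin Q).Nondegenerate) (h7 : 7 ≤ Fintype.card ι)
  (hH : IsMaximalIn (omegaGL Q) H)
include hQ h7 hH

theorem eq_stab {W : Submodule F (ι → F)} (h0 : W ≠ ⊥) (h1 : finrank F W < Fintype.card ι)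
    (hle : H ≤ subspaceStabilizer W) : H = subspaceStabilizer W ⊓ omegaGL Q :=
  ClMax.IsMaximalIn.eq_inf hH hle (omega_not_le_stab hQ (by omega) h0 (ne_top_of_finrank_lt h1))

theorem eq_stab_ts {W : Submodule F (ι → F)} (h0 : W ≠ ⊥) (hW : IsTotallySingularQuad Q W)
    (hle : H ≤ subspaceStabilizer W) : H = subspaceStabilizer W ⊓ omegaGL Q :=
  eq_stab hQ h7 hH h0 (by have := two_mul_finrank_le_of_ts hQ hW; omega) hle

theorem eq_stab_span {v : ι → F} (hv : Q v ≠ 0)
    (hle : H ≤ subspaceStabilizer (Submodule.span F {v})) :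
    H = subspaceStabilizer (Submodule.span F {v}) ⊓ omegaGL Q := by
  have h3 : v ≠ 0 := by rintro rfl; simp at hv
  exact eq_stab hQ h7 hH (by simpa using h3) (by rw [finrank_span_singleton h3]; omega) hle

theorem eq_decomp {t k : ℕ} {D : Fin t → Submodule F (ι → F)} (hD : IsMDecomposition k D)
    (hle : H ≤ decompositionStabilizer D) : H = decompositionStabilizer D ⊓ omegaGL Q :=
  ClMax.IsMaximalIn.eq_inf hH hle (omega_not_le_decomp hQ (by omega) h7 hD)

theorem eq_field {r : ℕ} {K : Subalgebra F (Matrix ι ι F)} (hr : 2 ≤ r)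
    (hK : IsFieldSubalgebra r K) (hle : H ≤ subalgebraNormalizer K) :
    H = subalgebraNormalizer K ⊓ omegaGL Q :=
  ClMax.IsMaximalIn.eq_inf hH hle (omega_not_le_field hQ (by omega) hr hK)

theorem eq_subfield {F₀ : Subfield F} {r : ℕ} (hr : r.Prime)
    (hc : Fintype.card F = Nat.card F₀ ^ r) {P : GL ι F} (hle : H ≤ subfieldSubgroup F₀ P) :
    H = subfieldSubgroup F₀ P ⊓ omegaGL Q :=
  ClMax.IsMaximalIn.eq_inf hH hle
    (omega_not_le_subfield hQ (by omega) (ne_top_of_card_eq_pow hr hc) P)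

theorem eq_tensor (h3 : 3 ≤ Fintype.card F) {n₁ n₂ : ℕ} (h1 : 2 ≤ n₁) (h2 : 3 ≤ n₂)
    {e : ι ≃ Fin n₁ × Fin n₂} {P : GL ι F} (hle : H ≤ tensorProductSubgroup n₁ n₂ e P) :
    H = tensorProductSubgroup n₁ n₂ e P ⊓ omegaGL Q :=
  ClMax.IsMaximalIn.eq_inf hH hle
    (omega_not_le_tensor hQ (by omega) (by rwa [Nat.card_eq_fintype_card]) h1 h2 e P)

theorem eq_wreath (h3 : 3 ≤ Fintype.card F) {e : ι ≃ (Fin 2 → Fin 3)} {P : GL ι F}
    (hle : H ≤ tensorWreathSubgroup 3 2 e P) : H = tensorWreathSubgroup 3 2 e P ⊓ omegaGL Q :=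
  ClMax.IsMaximalIn.eq_inf hH hle
    (omega_not_le_wreath hQ (by omega) (by rwa [Nat.card_eq_fintype_card]) e P)

/-- in odd dimension a non-degenerate subspace may be taken of even dimension -/
theorem eq_stab_even (hn : Odd (Fintype.card ι)) {W : Submodule F (ι → F)} (h0 : W ≠ ⊥)
    (hW : IsNondegenerateOn (polar Q) W) (hd : 2 * finrank F W ≤ Fintype.card ι)
    (hs : finrank F W = 2 → IsPlusTypeOn Q W → 4 ≤ Fintype.card F)
    (hle : H ≤ subspaceStabilizer W) :
    ∃ W : Submodule F (ι → F), W ≠ ⊥ ∧ Even (finrank F W) ∧ IsNondegenerateOn (polar Q) W ∧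
      ¬ (Fintype.card F = 3 ∧ finrank F W = 2 ∧ IsPlusTypeOn Q W) ∧
      H = subspaceStabilizer W ⊓ omegaGL Q := by
  have h1 := finrank_pos_of_ne_bot h0
  rcases Nat.even_or_odd (finrank F W) with h | h
  · exact ⟨W, h0, h, hW, fun h' => by have := hs h'.2.1 h'.2.2; omega,
      eq_stab hQ h7 hH h0 (by omega) hle⟩
  · have h2 := finrank_qperp hQ W
    have h3 : qperp Q W ≠ ⊥ := fun h => by rw [h, finrank_bot] at h2; omega
    refine ⟨qperp Q W, h3, ?_, nondegOn_qperp hQ hW, fun h' => by omega, eq_stab hQ h7 hH h3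
      (by omega) (le_stab_qperp hQ (fixQ_of_le_omega hH.1.le) hle)⟩
    obtain ⟨a, ha⟩ := h
    obtain ⟨b, hb⟩ := hn
    exact ⟨b - a, by omega⟩

end max

end CfsgLib.Asch
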