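import Mathlib
import Cfsg.Agent.Lib.Asch.SUMax
import Cfsg.Agent.Lib.SLCases.Decomp

/-! Subgroups of `SU₄(2)`, `SU₄(3)`, `SU₆(2)` inside a symplectic subfield group. -/

set_option autoImplicit false

namespace CfsgLib.Asch

open Cfsg Cfsg.Geo Matrix CfsgLib.Unitary CfsgLib.ClMax Module
open scoped MatrixGroups

variable {F : Type*} [Field F] [Fintype F] {q n : ℕ} {H : Subgroup (GL (Fin n) F)}

theorem tv_mem_of_symp (hF : Fintype.card F = q ^ 2) (hn : 3 ≤ n) (hex : ¬ (n = 3 ∧ q = 2))
    (hH : IsMaximalIn (SUG n F q) H) {b : (Fin n → F) → (Fin n → F) → F}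
    (hb : IsSymplecticForm b) (hle : H ≤ similarityGroup b) {v : Fin n → F} {μ : F}
    (hv : ∀ x, hermForm n F q x v = μ * b x v) :
    ∃ hv0, ∀ c hc, tvU hF v hv0 c hc ∈ H := by
  refine ⟨by rw [hv, hb.alternating, mul_zero], fun c hc => ?_⟩
  rw [IsMaximalIn.eq_inf hH hle (not_le_similarityGroup_bilin hF hn hex (isSesq_of_symp hb))]
  refine ⟨⟨1, fun x y => ?_⟩, tvU_mem hF v _ c hc⟩
  simp only [tvU_mulVec, hb.bilinear.add_left, hb.bilinear.add_right, hb.bilinear.smul_left,
    hb.bilinear.smul_right, hb.alternating, hb.skew v y, hv, Units.val_one]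
  ring

theorem tv_not_mem_normalizer (hF : Fintype.card F = q ^ 2) (hn : 3 ≤ n) {r : ℕ} (hr : 2 ≤ r)
    {K : Subalgebra F (Matrix (Fin n) (Fin n) F)} (hK : IsFieldSubalgebra r K) {v : Fin n → F}
    (hv0 : v ≠ 0) (hv) {c : F} (hc0 : c ≠ 0) (hc) : tvU hF v hv c hc ∉ subalgebraNormalizer K := by
  intro h
  have : Nonempty (Fin n) := ⟨⟨0, by omega⟩⟩
  obtain ⟨x, hx⟩ := ((isSesq_herm hF n).nondeg v hv0).1
  have : K = ⊥ := eq_bot_iff.2 fun k hk => by
    have h1 : cj (tvU hF v hv c hc) k = k := by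
      by_contra hne
      obtain ⟨y, -, hy⟩ := hK.inv _ (sub_mem (stab_of_le_normalizer le_rfl _ h k hk) hk)
        (sub_ne_zero.2 hne)
      exact cj_tv_eq_of_unit hF hn v hv c hc hy
    have h2 := cj_mulVec (tvU hF v hv c hc) k x
    rw [h1, tvU_mulVec, tvU_mulVec, mulVec_add, mulVec_smul, add_right_inj] at h2
    set l := hermForm n F q (k *ᵥ x) v / hermForm n F q x v
    have h3 : (k - l • 1) *ᵥ v = 0 := by
      rw [sub_mulVec, smul_mulVec, one_mulVec, sub_eq_zero]
      refine smul_right_injective _ (mul_ne_zero hc0 hx) ?_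
      simp only [h2, smul_smul, l]
      congr 1; field_simp
    refine mem_bot_iff.2 ⟨l, ?_⟩
    by_contra hne
    obtain ⟨y, -, hy⟩ := hK.inv _ (sub_mem hk (K.smul_mem K.one_mem l)) (sub_ne_zero.2 hne)
    exact hv0 (by rw [← one_mulVec v, ← mul_eq_one_comm.1 hy, ← mulVec_mulVec, h3, mulVec_zero])
  have h1 := hK.finrank_eq
  rw [this, Subalgebra.finrank_bot] at h1
  omega

theorem sq_eq_one_of_fixed (hq : q = 2 ∨ q = 3) {x : F} (h0 : x ≠ 0) (h : x ^ q = x) :
    x * x = 1 := by
  rcases hq with rfl | rfl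
  · have : x = 1 := mul_left_cancel₀ h0 (by rw [← sq, h, mul_one])
    rw [this, one_mul]
  · exact mul_left_cancel₀ h0 (by linear_combination h)

open SLCases in
/-- the stabiliser of a pair of totally singular planes is not maximal in `SU₄(2)`, `SU₄(3)` -/
theorem not_pair_four (hF : Fintype.card F = q ^ 2) (hq : q = 2 ∨ q = 3)
    {H : Subgroup (GL (Fin 4) F)} (hH : IsMaximalIn (SUG 4 F q) H)
    {D : Fin 2 → Submodule F (Fin 4 → F)} (hD : IsMDecomposition 2 D)
    (hts : ∀ i, IsTotallySingularFor (hermForm 4 F q) (D i))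
    (hle : H ≤ decompositionStabilizer D) : False := by
  obtain ⟨e, P, h⟩ := exists_adapted hD Prod.snd card_fiber_snd
  have hf := isSesq_herm hF 4
  set f := hermForm 4 F q with hfd
  set σ := conj hF
  set T := coordV e P
  let w : Fin 2 × Fin 2 → Fin 4 → F := fun x => T.symm (Pi.single x 1)
  have hw : ∀ x, w x ∈ D x.2 := fun x => (h _ _).2 fun z hz => by
    rw [LinearEquiv.apply_symm_apply, Pi.single_eq_of_ne (by rintro rfl; exact hz rfl)]
  have hsum : ∀ u, u = ∑ x, T u x • w x := fun u => T.injective (by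
    simp only [w, map_sum, map_smul, LinearEquiv.apply_symm_apply]
    ext y; simp [Pi.single_apply])
  obtain ⟨G, hG⟩ : ∃ G : Fin 2 → Fin 2 → F, ∀ a c, G a c = f (w (a, 0)) (w (c, 1)) := ⟨_, fun _ _ => rfl⟩
  have hfuv : ∀ u v, f u v = ∑ a, ∑ c, (T u (a, 0) * σ (T v (c, 1)) * G a c +
      T u (c, 1) * σ (T v (a, 0)) * σ (G a c)) := fun u v => by
    conv_lhs => rw [hsum u, hsum v]
    simp only [Fintype.sum_prod_type, Fin.sum_univ_two, hf.add_left, hf.smul_left,
      hf.sesq0.add_right, hf.sesq0.smul_right, hts 0 _ (hw (_, 0)) _ (hw (_, 0)),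
      hts 1 _ (hw (_, 1)) _ (hw (_, 1)), hG, hf.refl (w (_, 1)) (w (_, 0))]
    ring
  simp only [Fin.sum_univ_two] at hfuv
  obtain ⟨Δ, hΔ⟩ : ∃ Δ, Δ = G 0 0 * G 1 1 - G 0 1 * G 1 0 := ⟨_, rfl⟩
  have hΔ0 : Δ ≠ 0 := by
    intro h0
    have key : ∀ a c : F, a * G 0 0 + c * G 1 0 = 0 → a * G 0 1 + c * G 1 1 = 0 → a = 0 ∧ c = 0 := by
      intro a c h1 h2
      have h3 : a • w (0, 0) + c • w (1, 0) = 0 := by
        by_contra hne
        obtain ⟨x, hx⟩ := (hf.nondeg _ hne).2
        apply hx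
        rw [hfuv]
        simp [w, Pi.single_apply]
        linear_combination σ (T x (0, 1)) * h1 + σ (T x (1, 1)) * h2
      have h4 := congrArg T h3
      exact ⟨by simpa [w] using congrFun h4 (0, 0), by simpa [w] using congrFun h4 (1, 0)⟩
    have h1 := key (G 1 1) (-G 0 1) (by linear_combination h0 - hΔ) (by ring)
    have h2 := key (G 1 0) (-G 0 0) (by ring) (by linear_combination hΔ - h0)
    exact one_ne_zero (key 1 0 (by simpa using h2.2) (by simpa using h1.2)).1
  let b : (Fin 4 → F) → (Fin 4 → F) → F := fun u v =>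
    Δ * (T u (0, 0) * T v (1, 0) - T u (1, 0) * T v (0, 0)) +
      (T u (0, 1) * T v (1, 1) - T u (1, 1) * T v (0, 1))
  have hb : IsSymplecticForm b := by
    refine ⟨⟨?_, ?_, ?_, ?_⟩, ?_, ?_, fun v hv => ?_⟩
    iterate 6 intros; simp only [b, map_add, map_smul, Pi.add_apply, Pi.smul_apply, smul_eq_mul]; ring
    have : ∃ x, b x v ≠ 0 := by
      by_contra hcon
      push Not at hcon
      apply hv
      refine T.map_eq_zero_iff.1 (funext fun ⟨a, i⟩ => ?_)
      have h1 := hcon (w (a + 1, i))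
      fin_cases a <;> fin_cases i <;> simpa [b, w, hΔ0] using h1
    obtain ⟨x, hx⟩ := this
    exact ⟨⟨x, hx⟩, x, fun h0 => hx (by simp only [b] at h0 ⊢; linear_combination -h0)⟩
  have hsim : H ≤ similarityGroup b := fun g hg => by
    obtain ⟨τ, hτ⟩ := h.block (hle hg)
    obtain ⟨δ, h1, h2⟩ := block_two hτ
    rw [mem_specialLinear.1 ((coordGL_symm_mem_SL e P).2 (hH.1.le hg).2), Fin.prod_univ_two] at h1
    have h3 := fixesForm_iff.1 (fixes_of_le_GU (hH.1.le.trans inf_le_left)) g hg
    have h4 : ∀ u, T _ = _ *ᵥ T u := coordV_mulVec' e P g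
    set A := ((coordGL e P).symm g : Matrix (Fin 2 × Fin 2) (Fin 2 × Fin 2) F)
    have h5 := fun a c => ((hG a c).trans (h3 _ _).symm).trans (hfuv _ _)
    have h6 := fun i => h2 (Pi.single (0, i) 1) (Pi.single (1, i) 1)
    have h7 := h6 0
    have h8 := h6 1
    simp only [h4, w, LinearEquiv.apply_symm_apply, mulVec_single_one, col_apply] at h5
    simp [fJ] at h7 h8
    have h11 := congrArg₂ (· - ·) (congrArg₂ (· * ·) (h5 0 0) (h5 1 1))
      (congrArg₂ (· * ·) (h5 0 1) (h5 1 0))
    have hδ : δ 1 ≠ 0 := by rintro h; simp [h] at h1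
    have hδ' : δ 0 ≠ 0 := by rintro h; simp [h] at h1
    by_cases hτ0 : τ 0 = 0
    · have hτ1 : τ 1 = 1 := by revert hτ0; generalize τ = τ; revert τ; decide
      have z1 : ∀ a c, A (a, 1) (c, 0) = 0 := fun a c => hτ _ _ (by simp [hτ0])
      have z2 : ∀ a c, A (a, 0) (c, 1) = 0 := fun a c => hτ _ _ (by simp [hτ1])
      simp only [z1, z2, map_zero, mul_zero, zero_mul, add_zero, zero_add,
        sub_zero] at h11 h7 h8
      have h9 : Δ = δ 0 * σ (δ 1) * Δ := by
        rw [← h7, ← h8, hΔ, map_sub, map_mul, map_mul]; linear_combination h11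
      have h12 := sq_eq_one_of_fixed hq hδ (mul_left_cancel₀ (mul_ne_zero hδ' hΔ0) (by
        rw [← conj_apply hF]; linear_combination - h9 + Δ * h1))
      have h13 : δ 0 = δ 1 := by linear_combination (-δ 0) * h12 - δ 1 * h1
      refine ⟨Units.mk0 _ hδ, fun u v => ?_⟩
      simp only [b, h4, mulVec, dotProduct, Fintype.sum_prod_type, Fin.sum_univ_two, z1, z2,
        Units.val_mk0]
      linear_combination Δ * (T u (0, 0) * T v (1, 0) - T u (1, 0) * T v (0, 0)) * (h7.trans h13) +
        (T u (0, 1) * T v (1, 1) - T u (1, 1) * T v (0, 1)) * h8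
    · have hτ1 : τ 0 = 1 ∧ τ 1 = 0 := by revert hτ0; generalize τ = τ; revert τ; decide
      have z1 : ∀ a c, A (a, 0) (c, 0) = 0 := fun a c => hτ _ _ (by simp [hτ1])
      have z2 : ∀ a c, A (a, 1) (c, 1) = 0 := fun a c => hτ _ _ (by simp [hτ1])
      simp only [z1, z2, map_zero, mul_zero, zero_mul, add_zero, zero_add,
        sub_zero] at h11 h7 h8
      have h9 : Δ = δ 0 * σ (δ 1 * Δ) := by
        rw [← h7, ← h8, hΔ]
        simp only [map_sub, map_mul]; linear_combination h11
      have h12 := sq_eq_one_of_fixed hq (mul_ne_zero hδ hΔ0) (mul_left_cancel₀ hδ' (by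
        rw [← conj_apply hF]; linear_combination - h9 + Δ * h1))
      have h13 : δ 0 = δ 1 * Δ * Δ := by linear_combination (-δ 0) * h12 - δ 1 * Δ * Δ * h1
      refine ⟨Units.mk0 _ (mul_ne_zero hδ hΔ0), fun u v => ?_⟩
      simp only [b, h4, mulVec, dotProduct, Fintype.sum_prod_type, Fin.sum_univ_two, z1, z2,
        Units.val_mk0]
      linear_combination (T u (0, 0) * T v (1, 0) - T u (1, 0) * T v (0, 0)) * (h7.trans h13) +
        Δ * (T u (0, 1) * T v (1, 1) - T u (1, 1) * T v (0, 1)) * h8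
  obtain ⟨μ, hμ⟩ := exists_norm_eq hF (neg_one_pow_q hF)
  rw [pow_succ', ← conj_apply hF] at hμ
  obtain ⟨hv, htv⟩ := tv_mem_of_symp hF (by norm_num) (by omega) hH hb hsim (μ := σ μ)
    (v := μ • w (0, 0) - σ (G 0 1) • w (0, 1) + σ (G 0 0) • w (1, 1)) fun x => by
      rw [← hfd, hfuv]
      simp [b, w, hΔ, hf.invol]
      linear_combination T x (1, 0) * (G 0 0 * G 1 1 - G 0 1 * G 1 0) * hμ
  obtain ⟨c, hc0, hc⟩ := exists_trace_zero hF
  obtain ⟨τ, hτ⟩ := h.block (hle (htv c hc))
  have h1 : T _ = _ *ᵥ T _ := coordV_mulVec' e P (tvU hF _ hv c hc) (w (1, 0))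
  rw [tvU_mulVec, ← hfd, hfuv] at h1
  have h2 := fun x => congrFun h1 x
  simp only [w, LinearEquiv.apply_symm_apply, mulVec_single_one, col_apply] at h2
  have h3 : τ 0 = 0 := by
    by_contra hne
    have := h2 (1, 0)
    rw [hτ _ _ (Ne.symm hne)] at this
    simp at this
  have h4 := h2 (0, 1)
  have h5 := h2 (1, 1)
  rw [hτ _ _ (by simp [h3])] at h4 h5
  simp [hf.invol, hc0] at h4 h5
  apply hΔ0
  rcases h4 with h4 | h4
  · linear_combination hΔ + h4
  rcases h5 with h5 | h5
  · linear_combination hΔ + h5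
  · rw [hΔ, h4, h5]; ring

theorem det_algEquiv_sq {K : Type*} [Field K] [Finite K] [Algebra F K] (τ : K ≃ₐ[F] K) :
    LinearMap.det τ.toLinearMap * LinearMap.det τ.toLinearMap = 1 := by
  classical
  have : FiniteDimensional F K := Module.Finite.of_finite
  let b := IsGalois.normalBasis F K
  have : LinearMap.toMatrix b b τ.toLinearMap = (Equiv.mulLeft τ⁻¹).permMatrix F := by
    ext i j
    rw [LinearMap.toMatrix_apply, AlgEquiv.toLinearMap_apply, IsGalois.normalBasis_apply,
      ← AlgEquiv.mul_apply, ← IsGalois.normalBasis_apply, Basis.repr_self, Finsupp.single_apply]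
    simp [Equiv.Perm.permMatrix, PEquiv.toMatrix_apply, inv_mul_eq_iff_eq_mul, @eq_comm _ i]
  rw [← LinearMap.det_toMatrix b, this, det_permutation, ← Int.cast_mul, ← Units.val_mul,
    Int.units_mul_self, Units.val_one, Int.cast_one]

/-- the normaliser of a cubic field extension is not maximal in `SU₆(2)` -/
theorem not_field_six (hF : Fintype.card F = 2 ^ 2) {H : Subgroup (GL (Fin 6) F)}
    (hH : IsMaximalIn (SUG 6 F 2) H) {K₀ : Subalgebra F (Matrix (Fin 6) (Fin 6) F)}
    (hK : IsFieldSubalgebra 3 K₀) (hadj : IsAdjointClosedFor (hermForm 6 F 2) K₀)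
    (hle : H ≤ subalgebraNormalizer K₀) : False := by
  have hf := isSesq_herm hF 6
  set f := hermForm 6 F 2 with hfd
  refine with_ext_field hK fun K _ _ _ _ _ h3 h2 hk _ hN => ?_
  have hd : finrank K (Fin 6 → F) = 2 := by simp at h2; omega
  have : FiniteDimensional F K := Module.Finite.of_finite
  have : FiniteDimensional K (Fin 6 → F) := Module.Finite.of_finite
  let _ := Fintype.ofFinite K
  have hcF : Nat.card F = 4 := by rw [Nat.card_eq_fintype_card, hF]; rfl
  have hcK : Fintype.card K = 8 ^ 2 := by rw [Module.card_eq_pow_finrank (K := F), hF, h3]; rfl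
  have h64 : ∀ y : K, y ^ 64 = y := fun y => by simpa [hcK] using FiniteField.pow_card y
  have hadj' : ∀ (k : K) u v, f (k • u) v = f u (k ^ 8 • v) := fun k u v => by
    obtain ⟨a, ha, hka⟩ := hk k
    have : ∀ m : ℕ, ∀ v, k ^ m • v = a ^ m *ᵥ v := fun m => by
      induction m with
      | zero => simp
      | succ m ih => intro v; rw [pow_succ, pow_succ, mul_smul, ih, hka, mulVec_mulVec]
    rw [hka, this, hf.adj_spec, (adj_eq_pow hF hf hK hadj).2 a ha]; rfl
  set l := Algebra.trace F K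
  have hl : l ≠ 0 := Algebra.trace_ne_zero F K
  have h2 : (2 : K) = 0 := by
    rw [← map_ofNat (algebraMap F K), show (2 : F) = 0 by simpa using natCast_q hF, map_zero]
  have hl8 : ∀ y, l y ^ 2 = l (y ^ 8) := fun y => (algebraMap F K).injective (by
    simp only [l, map_pow, FiniteField.algebraMap_trace_eq_sum_pow, h3, hcF, Finset.sum_range_succ,
      Finset.sum_range_zero]
    linear_combination (y ^ 5 + y ^ 17 + y ^ 20) * h2 - (y ^ 64 + y) * h64 y)
  choose ψ hψ using fun v => exists_dual_lift (K := K) hl (hermSesq hF 6 v)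
  replace hψ : ∀ v (k : K) u, l (k * ψ v u) = f (k • u) v := hψ
  have hext : ∀ {a b : K}, (∀ k, l (k * a) = l (k * b)) → a = b := fun h =>
    sub_eq_zero.1 (eq_zero_of_forall_mul hl fun k => by rw [mul_sub, map_sub, h, sub_self])
  have hh : ∀ v w, ψ w v = ψ v w ^ 8 := fun v w => hext fun k => by
    rw [hψ, hadj', hf.refl, one_mul, ← hψ, conj_apply, hl8, mul_pow, ← pow_mul, h64]
  obtain ⟨e, he⟩ := exists_orthonormal hcK (V := Fin 6 → F) (g := fun u v => ψ v u)
    (fun x y v => map_add _ _ _) (fun c x v => map_smul _ _ _) hh fun v hv => by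
      by_contra h0
      obtain ⟨x, hx⟩ := (hf.nondeg v h0).1
      exact hx (by rw [← one_smul K x, ← hψ, hv, mul_zero, map_zero])
  obtain ⟨T, hT⟩ : ∃ T : (Fin 6 → F) ≃ₗ[K] (Fin 2 → K),
      ∀ u v, ψ v u = T u 0 * T v 0 ^ 8 + T u 1 * T v 1 ^ 8 := by
    let e' := e.reindex (finCongr hd)
    have he' : ∀ i j, ψ (e' j) (e' i) = if i = j then 1 else 0 := fun i j => by simp [e', he]
    refine ⟨e'.equivFun, fun u v => ?_⟩
    have h1 : ∀ i, ψ v (e' i) = e'.equivFun v i ^ 8 := fun i => by
      rw [hh]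
      conv_lhs => rw [← e'.sum_equivFun v, map_sum]
      simp [he']
    conv_lhs => rw [← e'.sum_equivFun u, map_sum]
    simp [h1]
  let b : (Fin 6 → F) → (Fin 6 → F) → F := fun u v => l (T u 0 * T v 1 - T u 1 * T v 0)
  have hb : IsSymplecticForm b := by
    have hs : ∀ (c : F) u, T (c • u) = c • T u := fun c u => T.map_smul_of_tower c u
    have hsk : ∀ u v, b u v = -b v u := fun u v => by
      rw [← map_neg]; exact congrArg l (by ring)
    have ha : ∀ x y v, b (x + y) v = b x v + b y v := fun x y v => by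
      rw [← map_add]; simp only [b, map_add T, Pi.add_apply]; congr 1; ring
    have hm : ∀ (c : F) x v, b (c • x) v = c * b x v := fun c x v => by
      rw [← smul_eq_mul, ← map_smul]; simp only [b, hs, Pi.smul_apply]
      simp only [Algebra.smul_def]; congr 1; ring
    refine ⟨⟨ha, hm, fun v x y => ?_, fun c v x => ?_⟩, hsk, fun v => ?_, fun v hv => ?_⟩
    · rw [hsk, ha, hsk x, hsk y]; ring
    · rw [hsk, hm, hsk x]; ring
    · simp [b, mul_comm]
    have : ∃ x, b x v ≠ 0 := by
      by_contra hcon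
      push Not at hcon
      refine hv (T.map_eq_zero_iff.1 (funext fun i => eq_zero_of_forall_mul hl fun k => ?_))
      have := hcon (T.symm (Pi.single (i + 1) k))
      fin_cases i <;> simpa [b] using this
    obtain ⟨x, hx⟩ := this
    exact ⟨⟨x, hx⟩, x, by rw [hsk]; exact neg_ne_zero.2 hx⟩
  have hsim : H ≤ similarityGroup b := fun g hg => by
    have hfix := fixesForm_iff.1 (fixes_of_le_GU (hH.1.le.trans inf_le_left)) g hg
    choose τ₀ hτ₀ using (hN g (toEquiv g) fun _ => rfl).1 (hle hg)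
    have hinj : ∀ {a b : K}, (∀ v : Fin 6 → F, a • toEquiv g v = b • toEquiv g v) → a = b := fun h => by
      have := congrFun (congrArg T (h ((toEquiv g).symm (T.symm 1)))) 0
      simpa using this
    let τ₁ : K →ₐ[F] K :=
      { toFun := τ₀
        map_one' := hinj fun v => by rw [← hτ₀, one_smul, one_smul]
        map_mul' := fun x y => hinj fun v => by rw [← hτ₀, mul_smul, hτ₀, hτ₀, mul_smul]
        map_zero' := hinj fun v => by rw [← hτ₀, zero_smul, zero_smul, map_zero]
        map_add' := fun x y => hinj fun v => by rw [← hτ₀, add_smul, map_add, hτ₀, hτ₀, add_smul]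
        commutes' := fun c => hinj fun v => by rw [← hτ₀, algebraMap_smul, algebraMap_smul, map_smul] }
    let τ : K ≃ₐ[F] K := AlgEquiv.ofBijective τ₁ τ₁.bijective
    have hτ : ∀ (k : K) v, toEquiv g (k • v) = τ k • toEquiv g v := hτ₀
    have hlτ : ∀ y, l (τ y) = l y := Algebra.trace_eq_of_algEquiv τ
    have hψg : ∀ u v, ψ (toEquiv g v) (toEquiv g u) = τ (ψ v u) := fun u v => hext fun k => by
      obtain ⟨k, rfl⟩ := τ.surjective k
      rw [hψ, ← hτ, ← map_mul, hlτ, hψ]
      exact hfix _ _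
    let A : Matrix (Fin 2) (Fin 2) K := Matrix.of fun i j => T (toEquiv g (T.symm (Pi.single j 1))) i
    have hA : ∀ u, T (toEquiv g u) = A *ᵥ fun i => τ (T u i) := fun u => by
      have : u = T u 0 • T.symm (Pi.single 0 1) + T u 1 • T.symm (Pi.single 1 1) :=
        T.injective (by ext i; fin_cases i <;> simp)
      conv_lhs => rw [this]
      ext i
      simp [hτ, A, mulVec, dotProduct, mul_comm]
    have h9 : A.det ^ 9 = 1 := by
      have h1 := fun i j => hψg (T.symm (Pi.single i 1)) (T.symm (Pi.single j 1))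
      simp only [hT, LinearEquiv.apply_symm_apply] at h1
      have h4 := congrArg₂ (· - ·) (congrArg₂ (· * ·) (h1 0 0) (h1 1 1))
        (congrArg₂ (· * ·) (h1 0 1) (h1 1 0))
      have h5 := sub_pow_q hcK (A 0 0 * A 1 1) (A 0 1 * A 1 0)
      simp at h4
      rw [det_fin_two, pow_succ, h5]
      simp only [A, of_apply]
      linear_combination h4
    have hdet : Algebra.norm F A.det = 1 := by
      let T' := T.restrictScalars F
      let θ : (Fin 2 → K) →ₗ[F] (Fin 2 → K) :=
        LinearMap.pi fun i => τ.toLinearMap.comp (LinearMap.proj i)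
      have h1 : T'.toLinearMap ∘ₗ (toEquiv g).toLinearMap ∘ₗ T'.symm.toLinearMap =
          (toLin' A).restrictScalars F ∘ₗ θ := by
        refine LinearMap.ext fun u => ?_
        obtain ⟨u, rfl⟩ := T.surjective u
        simpa [T', θ] using hA u
      have h4 := congrArg LinearMap.det h1
      rw [LinearMap.det_conj, det_toEquiv, mem_specialLinear.1 (hH.1.le hg).2, LinearMap.det_comp,
        LinearMap.det_restrictScalars, LinearMap.det_toLin', LinearMap.det_pi, Fin.prod_univ_two,
        det_algEquiv_sq, mul_one] at h4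
      exact h4.symm
    obtain ⟨c, hc⟩ : ∃ c : Fˣ, algebraMap F K c = A.det := by
      have h1 := FiniteField.algebraMap_norm_eq_pow (K := F) (x := A.det)
      rw [hdet, map_one, hcF, Nat.card_eq_fintype_card, hcK] at h1
      obtain ⟨ω, hω⟩ := exists_prime_orderOf_dvd_card' (G := Fˣ) 3 (by rw [Nat.card_units, hcF])
      have hω' : IsPrimitiveRoot (algebraMap F K ω) 3 :=
        (IsPrimitiveRoot.coe_units_iff.2 (hω ▸ IsPrimitiveRoot.orderOf ω)).map_of_injective
          (algebraMap F K).injective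
      obtain ⟨i, -, hi⟩ := hω'.eq_pow_of_pow_eq_one (ξ := A.det) (by
        norm_num at h1
        linear_combination -h1 - A.det ^ 3 * (A.det ^ 9 + 1) * h9)
      exact ⟨ω ^ i, by rw [← hi, Units.val_pow_eq_pow_val, map_pow]⟩
    refine ⟨c, fun u v => ?_⟩
    simp only [b, ← toEquiv_apply, hA]
    rw [← hlτ (T u 0 * _ - _), ← smul_eq_mul (c : F), ← map_smul, Algebra.smul_def, hc]
    congr 1
    simp [mulVec, dotProduct, det_fin_two]
    ring
  obtain ⟨hv, htv⟩ := tv_mem_of_symp hF (by norm_num) (by norm_num) hH hb hsim (μ := 1)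
    (v := T.symm 1) fun x => by
      rw [← hfd, ← one_smul K x, ← hψ, hT, one_smul]
      simp only [b, one_mul, LinearEquiv.apply_symm_apply, Pi.one_apply, one_pow]
      congr 1
      linear_combination T x 1 * h2
  obtain ⟨c, hc0, hc⟩ := exists_trace_zero hF
  exact tv_not_mem_normalizer hF (by norm_num) (by norm_num) hK
    (fun h => by simpa using congrFun (congrArg T h) 0) hv hc0 hc (hle (htv c hc))

end CfsgLib.Asch
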